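import Cfsg.Agent.H87.CrDefs

set_option autoImplicit false

/-!
# Craven's theorem (S5141), piece IMG

For `P ≤ T` centric in `E` and a map `l` of `F` on `P C_S(T)`: `l (P C_S(T)) = l(P) C_S(T)`.
-/

namespace Cfsg.Agent.H15.Cr

open Cfsg Cfsg.FusionSystem Cfsg.Agent.H86 Cfsg.Agent.H87 Cfsg.Agent.H87.Cr

variable {Ω : Type*} [Group Ω] {S T : Subgroup Ω}

/-- A self-map of a finite subgroup that is injective on it is onto it. -/
theorem surj_of_injOn {A : Subgroup Ω} [Finite A] {g : Ω → Ω} (hinj : Set.InjOn g (A : Set Ω))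
    (hmaps : ∀ a ∈ A, g a ∈ A) {y : Ω} (hy : y ∈ A) : ∃ a ∈ A, g a = y := by
  have hi : Function.Injective (fun a : A => (⟨g a, hmaps a a.2⟩ : A)) := by
    intro a b hab
    exact Subtype.ext (hinj a.2 b.2 (congrArg Subtype.val hab))
  obtain ⟨a, ha⟩ := Finite.surjective_of_injective hi ⟨y, hy⟩
  exact ⟨a, a.2, congrArg Subtype.val ha⟩

theorem img_cent [Finite S] {p : ℕ} [Fact p.Prime] (hS : IsPGroup p S) {F : FusionSystem S}
    {E : FusionSystem T} (hE : E.IsWeaklyNormalIn F p) {P : Subgroup Ω} (hP : E.IsCentric P)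
    {l : Ω → Ω} (hl : Mor F (P ⊔ centralizerIn S T) l) :
    (∀ c ∈ centralizerIn S T, ∃ x ∈ centralizerIn S T, x⁻¹ * l c ∈ imgS P l) ∧
      imgS (P ⊔ centralizerIn S T) l = imgS P l ⊔ centralizerIn S T := by
  have hTS : T ≤ S := hE.2.2.2.1.1
  obtain ⟨hsub, hsc, hai, hfr⟩ := (isInvariantIn_iff hTS).1 hE.2.2
  have hPT : P ≤ T := hP.1
  obtain ⟨f', hf', hf'l⟩ := Cfsg.Agent.H88.exists_extension_mod hS hE.2.1 hsc hl
  have hTle : T ≤ (P ⊔ centralizerIn S T) ⊔ T := le_sup_right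
  have hXle : centralizerIn S T ≤ (P ⊔ centralizerIn S T) ⊔ T := le_sup_right.trans le_sup_left
  have hPle : P ≤ P ⊔ centralizerIn S T := le_sup_left
  have hXle' : centralizerIn S T ≤ P ⊔ centralizerIn S T := le_sup_right
  have hfT : ∀ t ∈ T, f' t ∈ T := fun t ht =>
    Cfsg.Agent.H88.map_mem_stronglyClosed hsc hf' (hTle ht) ht
  have hfinT : Finite T := finite_of_le hTS
  have hfinX : Finite (centralizerIn S T) := finite_of_le (S := S) inf_le_left
  have hsurjT : ∀ t ∈ T, ∃ t₀ ∈ T, f' t₀ = t := fun t ht =>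
    surj_of_injOn (hf'.restrict hTle).injOn hfT ht
  have hfX : ∀ c ∈ centralizerIn S T, f' c ∈ centralizerIn S T := by
    intro c hc
    rw [mem_centralizerIn_iff]
    refine ⟨hf'.mem (hXle hc), fun t ht => ?_⟩
    obtain ⟨t₀, ht₀, rfl⟩ := hsurjT t ht
    rw [← hf'.map_mul (hTle ht₀) (hXle hc), ← hf'.map_mul (hXle hc) (hTle ht₀),
      (mem_centralizerIn_iff.1 hc).2 t₀ ht₀]
  have hlP : Mor F P l := hl.restrict hPle
  have hcen : E.IsCentric (imgS P l) := centric_img hE hP hlP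
  have key : ∀ c ∈ centralizerIn S T, (f' c)⁻¹ * l c ∈ imgS P l := by
    intro c hc
    apply isCentric_self_le hcen
    rw [mem_centralizerIn_iff]
    have h1 : (f' c)⁻¹ * l c ∈ T := by
      have := T.inv_mem (hf'l c (hXle' hc))
      rwa [mul_inv_rev, inv_inv] at this
    refine ⟨h1, fun z hz => ?_⟩
    obtain ⟨q, hq, rfl⟩ := hlP.mem_imgS.1 hz
    have hqT : l q ∈ T := Cfsg.Agent.H88.map_mem_stronglyClosed hsc hl (hPle hq) (hPT hq)
    have e1 : l q * f' c = f' c * l q := (mem_centralizerIn_iff.1 (hfX c hc)).2 (l q) hqT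
    have e2 : l q * l c = l c * l q := by
      rw [← hl.map_mul (hPle hq) (hXle' hc), ← hl.map_mul (hXle' hc) (hPle hq),
        (mem_centralizerIn_iff.1 hc).2 q (hPT hq)]
    have e3 : l q * (f' c)⁻¹ = (f' c)⁻¹ * l q := by
      have : (f' c)⁻¹ * (l q * f' c) * (f' c)⁻¹ = (f' c)⁻¹ * (f' c * l q) * (f' c)⁻¹ := by rw [e1]
      calc l q * (f' c)⁻¹ = (f' c)⁻¹ * (f' c * l q) * (f' c)⁻¹ := by group
        _ = (f' c)⁻¹ * (l q * f' c) * (f' c)⁻¹ := this.symm
        _ = (f' c)⁻¹ * l q := by group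
    calc l q * ((f' c)⁻¹ * l c) = (l q * (f' c)⁻¹) * l c := by group
      _ = (f' c)⁻¹ * (l q * l c) := by rw [e3]; group
      _ = (f' c)⁻¹ * l c * l q := by rw [e2]; group
  refine ⟨fun c hc => ⟨f' c, hfX c hc, key c hc⟩, ?_⟩
  apply le_antisymm
  · intro y hy
    obtain ⟨w, hw, rfl⟩ := hl.mem_imgS.1 hy
    obtain ⟨q, hq, c, hc, rfl⟩ := mem_sup_cent hPT hw
    rw [hl.map_mul (hPle hq) (hXle' hc)]
    have e : l c = f' c * ((f' c)⁻¹ * l c) := by group
    rw [e]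
    exact Subgroup.mul_mem _ (Subgroup.mem_sup_left (hlP.mem_imgS_of_mem hq))
      (Subgroup.mul_mem _ (Subgroup.mem_sup_right (hfX c hc)) (Subgroup.mem_sup_left (key c hc)))
  · refine sup_le (hl.imgS_mono hPle) ?_
    intro x hx
    obtain ⟨c, hc, rfl⟩ := surj_of_injOn (hf'.restrict hXle).injOn hfX hx
    obtain ⟨q, hq, hqe⟩ := hlP.mem_imgS.1 (key c hc)
    have e : f' c = l (c * q⁻¹) := by
      rw [hl.map_mul (hXle' hc) (Subgroup.inv_mem _ (hPle hq)), hl.map_inv (hPle hq), hqe]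
      group
    rw [e]
    exact hl.mem_imgS_of_mem (Subgroup.mul_mem _ (hXle' hc) (Subgroup.inv_mem _ (hPle hq)))

end Cfsg.Agent.H15.Cr

section Verbatim
open Cfsg Cfsg.FusionSystem Cfsg.Agent.H86 Cfsg.Agent.H87 Cfsg.Agent.H87.Cr Cfsg.Agent.H15.Cr
variable {Ω : Type*} [Group Ω] {S T : Subgroup Ω}
example [Finite S] {p : ℕ} [Fact p.Prime] (hS : IsPGroup p S) {F : FusionSystem S} {E : FusionSystem T} (hE : E.IsWeaklyNormalIn F p) {P : Subgroup Ω} (hP : E.IsCentric P) {l : Ω → Ω} (hl : Mor F (P ⊔ centralizerIn S T) l) : (∀ c ∈ centralizerIn S T, ∃ x ∈ centralizerIn S T, x⁻¹ * l c ∈ imgS P l) ∧ imgS (P ⊔ centralizerIn S T) l = imgS P l ⊔ centralizerIn S T := img_cent hS hE hP hl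
end Verbatim
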