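import Cfsg.Agent.H15.Metacyclic5
import Cfsg.Agent.H3.Extraspecial
import Cfsg.Agent.H3.Rank4
import Cfsg.Agent.H3.RankTwoAut
import Cfsg.Agent.H3.CyclicMax
import Cfsg.Agent.H3.PlaneApp
import Cfsg.Agent.S0639
import Cfsg.Agent.S0640
import Cfsg.Agent.S0128
import Cfsg.Agent.S1447

set_option autoImplicit false

namespace Cfsg.Agent.H15

open scoped commutatorElement

/-- if `x ^ q = 1` and `k ≡ 1 [MOD q]` then `x ^ k = x` -/
theorem rt_pow_eq_of_modEq_one {W : Type*} [Group W] {x : W} {q k : ℕ} (hx : x ^ q = 1)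
    (hk : k ≡ 1 [MOD q]) : x ^ k = x := by
  have h := pow_eq_pow_iff_modEq.mpr (hk.of_dvd (orderOf_dvd_of_pow_eq_one hx))
  rwa [pow_one] at h

/-- if `t ∉ Z`, `t ^ p ∈ Z` and `t ^ u * (t ^ v)⁻¹ ∈ Z` then `u = v` in `ZMod p` -/
theorem rt_pow_mod {W : Type*} [Group W] {p : ℕ} [Fact p.Prime] (Z : Subgroup W) {t : W}
    (ht : t ∉ Z) (htp : t ^ p ∈ Z) {u v : ℕ} (h : t ^ u * (t ^ v)⁻¹ ∈ Z) :
    (u : ZMod p) = (v : ZMod p) := by
  have hpp : p.Prime := Fact.out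
  have h1 : t ^ ((u : ℤ) - (v : ℤ)) ∈ Z := by
    rw [zpow_sub, zpow_natCast, zpow_natCast]; exact h
  by_contra hne
  have hnd : ¬ (p : ℤ) ∣ (u : ℤ) - (v : ℤ) := by
    intro hd
    apply hne
    have := (ZMod.intCast_eq_intCast_iff_dvd_sub (v : ℤ) (u : ℤ) p).mpr hd
    simpa using this.symm
  have hcop : IsCoprime ((u : ℤ) - (v : ℤ)) (p : ℤ) :=
    ((Nat.prime_iff_prime_int.mp hpp).coprime_iff_not_dvd.mpr hnd).symm
  obtain ⟨s, r, hsr⟩ := hcop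
  apply ht
  have h2 : t = (t ^ ((u : ℤ) - (v : ℤ))) ^ s * (t ^ p) ^ r := by
    rw [← zpow_mul, ← zpow_natCast t p, ← zpow_mul, ← zpow_add]
    have : ((u : ℤ) - (v : ℤ)) * s + (p : ℤ) * r = 1 := by linarith
    rw [this, zpow_one]
  rw [h2]
  exact Z.mul_mem (Z.zpow_mem h1 s) (Z.zpow_mem htp r)

open scoped IsMulCommutative in
/-- Eigenvector lemma: a `p'`-automorphism of an abelian `p`-group acting as the `j`-th power
on an element outside an invariant subgroup `N` (modulo `N`) has an eigenvector of order `p`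
with eigenvalue `j`. -/
theorem rt_eigen_of_quotient {W : Type*} [Group W] [IsMulCommutative W] [Finite W] {p : ℕ}
    [Fact p.Prime] (hW : IsPGroup p W) (φ : MulAut W) (n : ℕ) (hn : φ ^ n = 1)
    (hnp : n.Coprime p) (N : Subgroup W) (hN : ∀ x ∈ N, φ x ∈ N) (x₀ : W) (hx₀ : x₀ ∉ N)
    (hx₀p : x₀ ^ p ∈ N) (j : ℕ) (hj : φ x₀ * (x₀ ^ j)⁻¹ ∈ N) :
    ∃ y : W, y ≠ 1 ∧ y ^ p = 1 ∧ φ y = y ^ j := by
  have hpp : p.Prime := Fact.out
  obtain ⟨m, hm⟩ := IsPGroup.iff_card.mp hW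
  have hexp : ∀ x : W, x ^ (p ^ m) = 1 := fun x => by rw [← hm]; exact pow_card_eq_one'
  have hexp' : ∀ x : W, x ^ (p ^ (m + 1)) = 1 := fun x => by
    rw [pow_succ, pow_mul, hexp, one_pow]
  have hn0 : n ≠ 0 := by
    rintro rfl
    rw [Nat.coprime_zero_left] at hnp
    exact hpp.one_lt.ne' hnp
  have hNi : ∀ (i : ℕ), ∀ x ∈ N, (φ ^ i) x ∈ N := by
    intro i
    induction i with
    | zero => intro x hx; simpa using hx
    | succ i ih =>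
      intro x hx
      rw [pow_succ', MulAut.mul_apply]
      exact hN _ (ih x hx)
  -- `p ∤ j`
  have hpj : ¬ p ∣ j := by
    rintro ⟨t, rfl⟩
    have h1 : x₀ ^ (p * t) ∈ N := by rw [pow_mul]; exact N.pow_mem hx₀p t
    have h2 : φ x₀ ∈ N := by
      have := N.mul_mem hj h1
      rwa [inv_mul_cancel_right] at this
    have h3 := hNi (n - 1) _ h2
    have h4 : (φ ^ (n - 1)) (φ x₀) = x₀ := by
      rw [← MulAut.mul_apply, ← pow_succ, Nat.sub_add_cancel (Nat.pos_of_ne_zero hn0), hn]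
      rfl
    rw [h4] at h3
    exact hx₀ h3
  have hj0 : (j : ZMod p) ≠ 0 := by
    rw [Ne, ZMod.natCast_eq_zero_iff]; exact hpj
  obtain ⟨J, hJdef⟩ : ∃ J : ℕ, J = j ^ (p ^ m * (p - 2)) := ⟨_, rfl⟩
  -- `j * J ≡ 1 [MOD p]`
  have hjJ : j * J ≡ 1 [MOD p] := by
    rw [← ZMod.natCast_eq_natCast_iff, hJdef]
    push_cast
    rw [pow_mul, ZMod.pow_card_pow, ← pow_succ']
    have : p - 2 + 1 = p - 1 := by have := hpp.two_le; omega
    rw [this, ZMod.pow_card_sub_one_eq_one hj0]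
  -- `J ^ (p - 1) ≡ 1 [MOD p ^ (m + 1)]`
  have hJp : J ^ (p - 1) ≡ 1 [MOD p ^ (m + 1)] := by
    have hcop : Nat.Coprime j (p ^ (m + 1)) :=
      Nat.Coprime.pow_right _ ((Nat.Prime.coprime_iff_not_dvd hpp).mpr hpj).symm
    have h1 := Nat.ModEq.pow_totient hcop
    rw [Nat.totient_prime_pow_succ hpp] at h1
    have h2 : J ^ (p - 1) = (j ^ (p ^ m * (p - 1))) ^ (p - 2) := by
      rw [hJdef, ← pow_mul, ← pow_mul]; congr 1; ring
    rw [h2]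
    simpa using h1.pow (p - 2)
  obtain ⟨T, hTdef⟩ : ∃ T : ℕ, T = n * (p - 1) := ⟨_, rfl⟩
  have hJT : J ^ T ≡ 1 [MOD p ^ (m + 1)] := by
    rw [hTdef, mul_comm, pow_mul]
    simpa using hJp.pow n
  have hφT : φ ^ T = 1 := by rw [hTdef, pow_mul, hn, one_pow]
  have hTcop : T.Coprime p := by
    rw [hTdef]
    refine Nat.Coprime.mul_left hnp ?_
    have h2 := hpp.two_le
    exact ((Nat.Prime.coprime_iff_not_dvd hpp).mpr
      (Nat.not_dvd_of_pos_of_lt (by omega) (by omega))).symm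
  -- the averaging sequence
  obtain ⟨f, hfdef⟩ : ∃ f : ℕ → W, f = fun i => ((φ ^ i) x₀) ^ (J ^ i) := ⟨_, rfl⟩
  have hf0 : f 0 = x₀ := by rw [hfdef]; simp
  have hfsucc : ∀ i, φ (f i) ^ J = f (i + 1) := by
    intro i
    rw [hfdef]
    show φ (((φ ^ i) x₀) ^ (J ^ i)) ^ J = ((φ ^ (i + 1)) x₀) ^ (J ^ (i + 1))
    rw [map_pow, ← pow_mul, ← pow_succ, pow_succ' φ, MulAut.mul_apply]
  have hfT : f T = f 0 := by
    rw [hf0, hfdef]
    show ((φ ^ T) x₀) ^ (J ^ T) = x₀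
    rw [hφT, MulAut.one_apply]
    exact rt_pow_eq_of_modEq_one (hexp' x₀) hJT
  obtain ⟨X, hXdef⟩ : ∃ X : W, X = ∏ i ∈ Finset.range T, f i := ⟨_, rfl⟩
  have hX : φ X ^ J = X := by
    have h1 : φ X ^ J = ∏ i ∈ Finset.range T, f (i + 1) := by
      rw [hXdef, map_prod, ← Finset.prod_pow]
      exact Finset.prod_congr rfl (fun i _ => hfsucc i)
    have h2 := Finset.prod_range_succ f T
    have h3 := Finset.prod_range_succ' f T
    rw [h2, hfT] at h3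
    rw [h1, hXdef]
    exact (mul_right_cancel h3).symm
  -- congruences modulo `N`
  have hπ : ∀ u v : W, (u : W ⧸ N) = (v : W ⧸ N) → ((φ u : W) : W ⧸ N) = ((φ v : W) : W ⧸ N) := by
    intro u v huv
    rw [QuotientGroup.eq] at huv ⊢
    have := hN _ huv
    rwa [map_mul, map_inv] at this
  have hπ0 : ((φ x₀ : W) : W ⧸ N) = ((x₀ : W) : W ⧸ N) ^ j := by
    rw [← QuotientGroup.mk_pow]
    rw [QuotientGroup.eq]
    have := N.inv_mem hj
    rwa [mul_inv_rev, inv_inv, mul_comm] at this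
  have hπp : ((x₀ : W) : W ⧸ N) ^ p = 1 := by
    rw [← QuotientGroup.mk_pow, QuotientGroup.eq_one_iff]; exact hx₀p
  have hπf : ∀ i, ((f i : W) : W ⧸ N) = ((x₀ : W) : W ⧸ N) := by
    intro i
    induction i with
    | zero => rw [hf0]
    | succ i ih =>
      rw [← hfsucc i, QuotientGroup.mk_pow, hπ _ _ ih, hπ0, ← pow_mul]
      exact rt_pow_eq_of_modEq_one hπp hjJ
  have hπX : ∀ t : ℕ, ((∏ i ∈ Finset.range t, f i : W) : W ⧸ N) = ((x₀ : W) : W ⧸ N) ^ t := by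
    intro t
    induction t with
    | zero => simp
    | succ t ih => rw [Finset.prod_range_succ, QuotientGroup.mk_mul, ih, hπf, pow_succ]
  have hXN : X ∉ N := by
    intro hXmem
    have h1 : ((x₀ : W) : W ⧸ N) ^ T = 1 := by
      rw [← hπX T, ← hXdef, QuotientGroup.eq_one_iff]; exact hXmem
    have h2 : orderOf ((x₀ : W) : W ⧸ N) ∣ Nat.gcd T p :=
      Nat.dvd_gcd (orderOf_dvd_of_pow_eq_one h1) (orderOf_dvd_of_pow_eq_one hπp)
    rw [hTcop, Nat.dvd_one, orderOf_eq_one_iff, QuotientGroup.eq_one_iff] at h2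
    exact hx₀ h2
  have hX1 : X ≠ 1 := fun h => hXN (h ▸ N.one_mem)
  obtain ⟨k, -, hk⟩ := (Nat.dvd_prime_pow hpp).mp (orderOf_dvd_of_pow_eq_one (hexp X))
  have hk0 : k ≠ 0 := by
    rintro rfl
    rw [pow_zero, orderOf_eq_one_iff] at hk
    exact hX1 hk
  refine ⟨X ^ (p ^ (k - 1)), ?_, ?_, ?_⟩
  · intro h
    have h1 := orderOf_dvd_of_pow_eq_one h
    rw [hk] at h1
    have h2 := Nat.le_of_dvd (pow_pos hpp.pos _) h1
    have h3 : p ^ (k - 1) < p ^ k := Nat.pow_lt_pow_right hpp.one_lt (by omega)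
    omega
  · rw [← pow_mul, ← pow_succ, Nat.sub_add_cancel (Nat.pos_of_ne_zero hk0), ← hk,
      pow_orderOf_eq_one]
  · have hy : φ (X ^ (p ^ (k - 1))) ^ J = X ^ (p ^ (k - 1)) := by
      rw [map_pow, ← pow_mul, mul_comm, pow_mul, hX]
    have hyp : φ (X ^ (p ^ (k - 1))) ^ p = 1 := by
      rw [← map_pow, ← pow_mul, ← pow_succ, Nat.sub_add_cancel (Nat.pos_of_ne_zero hk0), ← hk,
        pow_orderOf_eq_one, map_one]
    calc φ (X ^ (p ^ (k - 1))) = φ (X ^ (p ^ (k - 1))) ^ (j * J) :=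
          (rt_pow_eq_of_modEq_one hyp hjJ).symm
      _ = (φ (X ^ (p ^ (k - 1))) ^ J) ^ j := by rw [mul_comm, pow_mul]
      _ = (X ^ (p ^ (k - 1))) ^ j := by rw [hy]

section Gsub

variable {G : Type*} [Group G]

/-- In a finite `p`-subgroup `R`, if `N ≤ R` is normalized by `R` and `N ≰ M`, some element of
`N` outside `M` is centralized by `R` modulo `M`. -/
theorem rt_exists_central_mod [Finite G] {p : ℕ} [Fact p.Prime] (R : Subgroup G)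
    (hR : IsPGroup p R) (M N : Subgroup G) (hNR : N ≤ R)
    (hnorm : ∀ x ∈ R, ∀ n ∈ N, x * n * x⁻¹ ∈ N) (hNM : ¬ N ≤ M) :
    ∃ w ∈ N, w ∉ M ∧ ∀ x ∈ R, x * w * x⁻¹ * w⁻¹ ∈ M := by
  have : Group.IsNilpotent R := hR.isNilpotent
  obtain ⟨w, hwN, hwM, hw⟩ := Cfsg.Agent.H3.exists_central_mod (⊤ : Subgroup R)
    (M.subgroupOf R) (N.subgroupOf R)
    (fun k _ n hn => by
      rw [Subgroup.mem_subgroupOf] at hn ⊢
      exact hnorm k k.2 n hn)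
    (by
      intro hle
      apply hNM
      intro n hn
      exact hle (show (⟨n, hNR hn⟩ : R) ∈ N.subgroupOf R from hn))
  exact ⟨w, hwN, hwM, fun x hx => hw ⟨x, hx⟩ (Subgroup.mem_top _)⟩

/-- If `H ≤ T` is normalized by `T`, `|T| = p |H|` and `t₀ ∈ T \ H`, every element of `T` is
`t₀ ^ i * h` with `h ∈ H`. -/
theorem rt_exists_pow_mul [Finite G] {p : ℕ} [Fact p.Prime] (H T : Subgroup G) (hHT : H ≤ T)
    (hnorm : ∀ t ∈ T, ∀ h ∈ H, t * h * t⁻¹ ∈ H) (hcard : Nat.card T = p * Nat.card H)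
    {t₀ : G} (ht₀ : t₀ ∈ T) (ht₀H : t₀ ∉ H) (g : G) (hg : g ∈ T) :
    ∃ i : ℕ, ∃ h ∈ H, g = t₀ ^ i * h := by
  have hle : T ≤ Subgroup.normalizer (H : Set G) := by
    intro t ht
    rw [Subgroup.mem_normalizer_iff]
    intro h
    constructor
    · exact hnorm t ht h
    · intro hh
      have := hnorm t⁻¹ (T.inv_mem ht) _ hh
      simpa [mul_assoc] using this
  have : (H.subgroupOf T).Normal := Subgroup.normal_subgroupOf_of_le_normalizer hle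
  have hidx : (H.subgroupOf T).index = p := by
    have h1 := Cfsg.Agent.H3.relIndex_mul_card_of_le hHT
    have hpos : 0 < Nat.card H := Nat.card_pos
    rw [hcard] at h1
    exact Nat.eq_of_mul_eq_mul_right hpos h1
  obtain ⟨x, hx, i, hi⟩ := Cfsg.Agent.H3.exists_mul_pow_of_index_prime (H.subgroupOf T) hidx
    (t := ⟨t₀, ht₀⟩) (by rw [Subgroup.mem_subgroupOf]; exact ht₀H) ⟨g, hg⟩
  refine ⟨i, (t₀ ^ i)⁻¹ * x * t₀ ^ i, ?_, ?_⟩
  · have := hnorm (t₀ ^ i)⁻¹ (T.inv_mem (T.pow_mem ht₀ i)) x hx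
    simpa using this
  · have : g = (x : G) * t₀ ^ i := by
      have := congrArg Subtype.val hi
      simpa using this
    rw [this]; group

/-- a nonabelian subgroup of order `p ^ 3` has centre of order `p` (type form) -/
theorem rt_center_card_type [Finite G] {p : ℕ} [Fact p.Prime] (E : Subgroup G)
    (hcard : Nat.card E = p ^ 3) (hna : ∃ a ∈ E, ∃ b ∈ E, a * b ≠ b * a) :
    Nat.card (Subgroup.center E) = p := by
  have hpp : p.Prime := Fact.out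
  have hE : IsPGroup p E := IsPGroup.of_card hcard
  have : Nontrivial E := by
    apply (Finite.one_lt_card_iff_nontrivial).mp
    rw [hcard]
    exact Nat.one_lt_pow (by norm_num) hpp.one_lt
  have hZnt : Nontrivial (Subgroup.center E) := hE.center_nontrivial
  obtain ⟨j, hj⟩ := IsPGroup.iff_card.mp (hE.to_subgroup (Subgroup.center E))
  have hj0 : j ≠ 0 := by
    rintro rfl
    rw [pow_zero] at hj
    have := (Finite.one_lt_card_iff_nontrivial).mpr hZnt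
    omega
  have hidx : (Subgroup.center E).index * Nat.card (Subgroup.center E) = Nat.card E :=
    Subgroup.index_mul_card _
  obtain ⟨a, ha, b, hb, hab⟩ := hna
  have hnc : ¬ ∀ x y : E, x * y = y * x := fun h =>
    hab (congrArg Subtype.val (h ⟨a, ha⟩ ⟨b, hb⟩))
  have hj3 : j ≤ 3 := by
    have h1 : Nat.card (Subgroup.center E) ∣ Nat.card E := Subgroup.card_subgroup_dvd_card _
    rw [hj, hcard] at h1
    exact (Nat.pow_dvd_pow_iff_le_right hpp.one_lt).mp h1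
  rw [hj, hcard] at hidx
  have hj12 : j = 1 := by
    by_contra hj1
    have hj23 : j = 2 ∨ j = 3 := by omega
    rcases hj23 with rfl | rfl
    · -- index `p`: cyclic quotient
      have hi : (Subgroup.center E).index = p := by
        have h1 : (Subgroup.center E).index * p ^ 2 = p * p ^ 2 := by rw [hidx]; ring
        exact Nat.eq_of_mul_eq_mul_right (pow_pos hpp.pos 2) h1
      have : IsCyclic (E ⧸ Subgroup.center E) := isCyclic_of_prime_card (p := p) hi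
      have hcm := MonoidHom.isMulCommutative_of_isCyclic_of_ker_le_center
        (QuotientGroup.mk' (Subgroup.center E)) (by rw [QuotientGroup.ker_mk'])
      exact hnc (fun x y => mul_comm' x y)
    · have hi : (Subgroup.center E).index = 1 := by
        have h1 : (Subgroup.center E).index * p ^ 3 = 1 * p ^ 3 := by rw [hidx]; ring
        exact Nat.eq_of_mul_eq_mul_right (pow_pos hpp.pos 3) h1
      have htop : Subgroup.center E = ⊤ := Subgroup.index_eq_one.mp hi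
      apply hnc
      intro x y
      have hy : y ∈ Subgroup.center E := by rw [htop]; trivial
      exact Subgroup.mem_center_iff.mp hy x
  rw [hj, hj12, pow_one]

/-- a nonabelian subgroup of order `p ^ 3` has centre of order `p` -/
theorem rt_center_card [Finite G] {p : ℕ} [Fact p.Prime] (E : Subgroup G)
    (hcard : Nat.card E = p ^ 3) (hna : ∃ a ∈ E, ∃ b ∈ E, a * b ≠ b * a) :
    Nat.card (E ⊓ Subgroup.centralizer (E : Set G) : Subgroup G) = p := by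
  have hcz : Nat.card (E ⊓ Subgroup.centralizer (E : Set G) : Subgroup G) =
      Nat.card (Subgroup.center E) := by
    apply Nat.card_congr
    exact
      { toFun := fun z => ⟨⟨z.1, (Subgroup.mem_inf.mp z.2).1⟩, by
          rw [Subgroup.mem_center_iff]
          intro g
          apply Subtype.ext
          exact (Subgroup.mem_centralizer_iff.mp (Subgroup.mem_inf.mp z.2).2) g g.2⟩
        invFun := fun z => ⟨z.1.1, Subgroup.mem_inf.mpr ⟨z.1.2, by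
          rw [Subgroup.mem_centralizer_iff]
          intro g hg
          exact congrArg Subtype.val (Subgroup.mem_center_iff.mp z.2 ⟨g, hg⟩)⟩⟩
        left_inv := fun z => rfl
        right_inv := fun z => rfl }
  rw [hcz]
  exact rt_center_card_type E hcard hna

/-- commutators in a subgroup of order `p ^ 3` are central -/
theorem rt_comm_mem_center [Finite G] {p : ℕ} [Fact p.Prime] (E : Subgroup G)
    (hcard : Nat.card E = p ^ 3) (a b : G) (ha : a ∈ E) (hb : b ∈ E) :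
    a * b * a⁻¹ * b⁻¹ ∈ E ⊓ Subgroup.centralizer (E : Set G) := by
  have h := Cfsg.Agent.H3.comm_mem_center_of_card_cube hcard (⟨b, hb⟩ : E)⁻¹ (⟨a, ha⟩ : E)⁻¹
  rw [Subgroup.mem_center_iff] at h
  refine Subgroup.mem_inf.mpr ⟨E.mul_mem (E.mul_mem (E.mul_mem ha hb) (E.inv_mem ha))
    (E.inv_mem hb), ?_⟩
  rw [Subgroup.mem_centralizer_iff]
  intro g hg
  have := congrArg Subtype.val (h ⟨g, hg⟩)
  simpa [mul_assoc] using this

/-- the elements of `Y` centralized by `X` modulo `Z₀` -/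
def rtCent (X Y Z₀ : Subgroup G) (h : ∀ y ∈ Y, ∀ z ∈ Z₀, y * z * y⁻¹ ∈ Z₀) : Subgroup G where
  carrier := {y | y ∈ Y ∧ ∀ x ∈ X, x * y * x⁻¹ * y⁻¹ ∈ Z₀}
  one_mem' := ⟨Y.one_mem, fun x _ => by simp [Z₀.one_mem]⟩
  mul_mem' := by
    rintro a b ⟨ha, ha'⟩ ⟨hb, hb'⟩
    refine ⟨Y.mul_mem ha hb, fun x hx => ?_⟩
    have e : x * (a * b) * x⁻¹ * (a * b)⁻¹ =
        (x * a * x⁻¹ * a⁻¹) * (a * (x * b * x⁻¹ * b⁻¹) * a⁻¹) := by group
    rw [e]
    exact Z₀.mul_mem (ha' x hx) (h a ha _ (hb' x hx))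
  inv_mem' := by
    rintro a ⟨ha, ha'⟩
    refine ⟨Y.inv_mem ha, fun x hx => ?_⟩
    have e : x * a⁻¹ * x⁻¹ * a⁻¹⁻¹ = a⁻¹ * (x * a * x⁻¹ * a⁻¹)⁻¹ * a⁻¹⁻¹ := by group
    rw [e]
    exact h a⁻¹ (Y.inv_mem ha) _ (Z₀.inv_mem (ha' x hx))

theorem mem_rtCent (X Y Z₀ : Subgroup G) (h : ∀ y ∈ Y, ∀ z ∈ Z₀, y * z * y⁻¹ ∈ Z₀) (y : G) :
    y ∈ rtCent X Y Z₀ h ↔ y ∈ Y ∧ ∀ x ∈ X, x * y * x⁻¹ * y⁻¹ ∈ Z₀ := Iff.rfl

/-- conjugation invariance of `rtCent`-type subgroups -/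
theorem rt_cent_norm (X Y Z₀ C : Subgroup G)
    (hC : ∀ y, y ∈ C ↔ y ∈ Y ∧ ∀ x ∈ X, x * y * x⁻¹ * y⁻¹ ∈ Z₀) (g : G)
    (hX : ∀ x ∈ X, g⁻¹ * x * g ∈ X) (hY : ∀ y ∈ Y, g * y * g⁻¹ ∈ Y)
    (hZ : ∀ z ∈ Z₀, g * z * g⁻¹ ∈ Z₀) : ∀ c ∈ C, g * c * g⁻¹ ∈ C := by
  intro c hc
  obtain ⟨hcY, hc'⟩ := (hC c).mp hc
  refine (hC _).mpr ⟨hY c hcY, fun x hx => ?_⟩
  have e : x * (g * c * g⁻¹) * x⁻¹ * (g * c * g⁻¹)⁻¹ =
      g * ((g⁻¹ * x * g) * c * (g⁻¹ * x * g)⁻¹ * c⁻¹) * g⁻¹ := by group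
  rw [e]
  exact hZ _ (hc' _ (hX x hx))

/-- the set-up: `E = Ω₁(R)` is nonabelian of order `p ^ 3` and exponent `p`, `Z = Z(E)` -/
structure RTSetup (p : ℕ) (R E Z : Subgroup G) : Prop where
  hR : IsPGroup p R
  hER : E ≤ R
  hEmem : ∀ x ∈ R, x ^ p = 1 → x ∈ E
  hEexp : ∀ x ∈ E, x ^ p = 1
  hEcard : Nat.card E = p ^ 3
  hZE : Z ≤ E
  hZcard : Nat.card Z = p
  hZcE : ∀ z ∈ Z, ∀ e ∈ E, z * e = e * z
  hZmem : ∀ e ∈ E, (∀ e' ∈ E, e * e' = e' * e) → e ∈ Z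
  hEZ : ∀ a ∈ E, ∀ b ∈ E, a * b * a⁻¹ * b⁻¹ ∈ Z
  hZcR : ∀ x ∈ R, ∀ z ∈ Z, x * z = z * x
  hEnorm : ∀ g ∈ Subgroup.normalizer (R : Set G), ∀ e ∈ E, g * e * g⁻¹ ∈ E
  hZnorm : ∀ g ∈ Subgroup.normalizer (R : Set G), ∀ z ∈ Z, g * z * g⁻¹ ∈ Z

theorem rt_setup [Finite G] {p : ℕ} [Fact p.Prime] (R E : Subgroup G) (hR : IsPGroup p R)
    (hER : E ≤ R) (hEmem : ∀ x ∈ R, x ^ p = 1 → x ∈ E) (hEexp : ∀ x ∈ E, x ^ p = 1)
    (hEcard : Nat.card E = p ^ 3) (hna : ∃ a ∈ E, ∃ b ∈ E, a * b ≠ b * a) :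
    RTSetup p R E (E ⊓ Subgroup.centralizer (E : Set G)) := by
  have hpp : p.Prime := Fact.out
  have hEnorm : ∀ g ∈ Subgroup.normalizer (R : Set G), ∀ e ∈ E, g * e * g⁻¹ ∈ E := by
    intro g hg e he
    apply hEmem
    · exact (Subgroup.mem_normalizer_iff.mp hg e).mp (hER he)
    · rw [conj_pow, hEexp e he]; simp
  have hZnorm : ∀ g ∈ Subgroup.normalizer (R : Set G),
      ∀ z ∈ E ⊓ Subgroup.centralizer (E : Set G),
      g * z * g⁻¹ ∈ E ⊓ Subgroup.centralizer (E : Set G) := by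
    intro g hg z hz
    obtain ⟨hzE, hzC⟩ := Subgroup.mem_inf.mp hz
    refine Subgroup.mem_inf.mpr ⟨hEnorm g hg z hzE, ?_⟩
    rw [Subgroup.mem_centralizer_iff]
    intro e he
    have he' : g⁻¹ * e * g ∈ E := by
      have := hEnorm g⁻¹ (Subgroup.inv_mem _ hg) e he
      simpa using this
    have h1 := Subgroup.mem_centralizer_iff.mp hzC _ he'
    calc e * (g * z * g⁻¹) = g * ((g⁻¹ * e * g) * z) * g⁻¹ := by group
      _ = g * (z * (g⁻¹ * e * g)) * g⁻¹ := by rw [h1]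
      _ = g * z * g⁻¹ * e := by group
  have hZcard := rt_center_card E hEcard hna
  have hZcR : ∀ x ∈ R, ∀ z ∈ E ⊓ Subgroup.centralizer (E : Set G), x * z = z * x := by
    have hRn : R ≤ Subgroup.normalizer (R : Set G) := Subgroup.le_normalizer
    have hne : ¬ E ⊓ Subgroup.centralizer (E : Set G) ≤ ⊥ := by
      intro h
      rw [le_bot_iff.mp h, Subgroup.card_bot] at hZcard
      exact hpp.one_lt.ne hZcard
    obtain ⟨w, hwZ, hw1, hw⟩ := rt_exists_central_mod R hR ⊥ _ (inf_le_left.trans hER)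
      (fun x hx z hz => hZnorm x (hRn hx) z hz) hne
    have hw1' : w ≠ 1 := fun h => hw1 (by rw [h]; exact Subgroup.one_mem _)
    have hzp : Subgroup.zpowers w = E ⊓ Subgroup.centralizer (E : Set G) := by
      apply Subgroup.eq_of_le_of_card_ge ((Subgroup.zpowers_le).mpr hwZ)
      rw [hZcard, Nat.card_zpowers]
      have hdvd : orderOf w ∣ p := by
        rw [← hZcard]; exact Subgroup.orderOf_dvd_natCard _ hwZ
      rcases (Nat.dvd_prime hpp).mp hdvd with h1 | h1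
      · exact absurd (orderOf_eq_one_iff.mp h1) hw1'
      · exact h1.ge
    intro x hx z hz
    rw [← hzp] at hz
    obtain ⟨k, rfl⟩ := Subgroup.mem_zpowers_iff.mp hz
    have h1 : x * w = w * x := by
      have := hw x hx
      rw [Subgroup.mem_bot] at this
      calc x * w = (x * w * x⁻¹ * w⁻¹) * w * x := by group
        _ = w * x := by rw [this, one_mul]
    exact (Commute.zpow_right (show Commute x w from h1) k).eq
  exact
    { hR := hR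
      hER := hER
      hEmem := hEmem
      hEexp := hEexp
      hEcard := hEcard
      hZE := inf_le_left
      hZcard := hZcard
      hZcE := fun z hz e he =>
        (Subgroup.mem_centralizer_iff.mp (Subgroup.mem_inf.mp hz).2 e he).symm
      hZmem := fun e he h => Subgroup.mem_inf.mpr ⟨he, by
        rw [Subgroup.mem_centralizer_iff]
        intro e' he'
        exact (h e' he').symm⟩
      hEZ := fun a ha b hb => rt_comm_mem_center E hEcard a b ha hb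
      hZcR := hZcR
      hEnorm := hEnorm
      hZnorm := hZnorm }

/-- the derived configuration when `R` does not centralize `E / Z` -/
structure RTBad (p : ℕ) (R E Z K L M : Subgroup G) (e₁ : G) : Prop where
  hZL : Z ≤ L
  hLE : L ≤ E
  hEK : E ≤ K
  hKR : K ≤ R
  hLcard : Nat.card L = p ^ 2
  hLab : ∀ a ∈ L, ∀ b ∈ L, a * b = b * a
  hLcent : ∀ e ∈ E, (∀ l ∈ L, e * l = l * e) → e ∈ L
  hLnorm : ∀ g ∈ Subgroup.normalizer (R : Set G), ∀ l ∈ L, g * l * g⁻¹ ∈ L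
  hKnorm : ∀ g ∈ Subgroup.normalizer (R : Set G), ∀ k ∈ K, g * k * g⁻¹ ∈ K
  hMR : M ≤ R
  hMc : ∀ m ∈ M, ∀ l ∈ L, m * l = l * m
  hMmem : ∀ x ∈ R, (∀ l ∈ L, x * l = l * x) → x ∈ M
  hMnorm : ∀ g ∈ Subgroup.normalizer (R : Set G), ∀ m ∈ M, g * m * g⁻¹ ∈ M
  he₁ : e₁ ∈ E
  he₁L : e₁ ∉ L
  hc : ∀ x ∈ R, x * e₁ * x⁻¹ * e₁⁻¹ ∈ L
  hKne : ¬ R ≤ K
  hLZ : ¬ L ≤ Z
  hKmem : ∀ y, y ∈ K ↔ y ∈ R ∧ ∀ e ∈ E, e * y * e⁻¹ * y⁻¹ ∈ Z
  hLmem : ∀ y, y ∈ L ↔ y ∈ E ∧ ∀ x ∈ R, x * y * x⁻¹ * y⁻¹ ∈ Z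

theorem rt_bad [Finite G] {p : ℕ} [Fact p.Prime] {R E Z : Subgroup G} (S : RTSetup p R E Z)
    (K L : Subgroup G)
    (hK : ∀ y, y ∈ K ↔ y ∈ R ∧ ∀ e ∈ E, e * y * e⁻¹ * y⁻¹ ∈ Z)
    (hL : ∀ y, y ∈ L ↔ y ∈ E ∧ ∀ x ∈ R, x * y * x⁻¹ * y⁻¹ ∈ Z)
    (hbad : ¬ R ≤ K) :
    ∃ e₁, RTBad p R E Z K L (R ⊓ Subgroup.centralizer (L : Set G)) e₁ := by
  have hpp : p.Prime := Fact.out
  have hRn : R ≤ Subgroup.normalizer (R : Set G) := Subgroup.le_normalizer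
  have hZL : Z ≤ L := by
    intro z hz
    refine (hL z).mpr ⟨S.hZE hz, fun x hx => ?_⟩
    have : x * z * x⁻¹ * z⁻¹ = 1 := by rw [S.hZcR x hx z hz]; group
    rw [this]; exact Z.one_mem
  have hLE : L ≤ E := fun y hy => ((hL y).mp hy).1
  have hEK : E ≤ K := fun e he => (hK e).mpr ⟨S.hER he, fun e' he' => S.hEZ e' he' e he⟩
  have hKR : K ≤ R := fun y hy => ((hK y).mp hy).1
  have hLnorm : ∀ g ∈ Subgroup.normalizer (R : Set G), ∀ l ∈ L, g * l * g⁻¹ ∈ L := by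
    intro g hg
    refine rt_cent_norm R E Z L hL g ?_ (S.hEnorm g hg) (S.hZnorm g hg)
    intro x hx
    have := (Subgroup.mem_normalizer_iff.mp (Subgroup.inv_mem _ hg) x).mp hx
    simpa using this
  have hKnorm : ∀ g ∈ Subgroup.normalizer (R : Set G), ∀ k ∈ K, g * k * g⁻¹ ∈ K := by
    intro g hg
    refine rt_cent_norm E R Z K hK g ?_
      (fun y hy => (Subgroup.mem_normalizer_iff.mp hg y).mp hy) (S.hZnorm g hg)
    intro x hx
    have := S.hEnorm g⁻¹ (Subgroup.inv_mem _ hg) x hx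
    simpa using this
  have hEZne : ¬ E ≤ Z := by
    intro h
    have := Subgroup.card_le_of_le h
    rw [S.hEcard, S.hZcard] at this
    have h2 : p ^ 1 < p ^ 3 := Nat.pow_lt_pow_right hpp.one_lt (by norm_num)
    rw [pow_one] at h2
    omega
  obtain ⟨l, hlE, hlZ, hl⟩ := rt_exists_central_mod R S.hR Z E S.hER
    (fun x hx e he => S.hEnorm x (hRn hx) e he) hEZne
  have hlL : l ∈ L := (hL l).mpr ⟨hlE, hl⟩
  have hLZ : ¬ L ≤ Z := fun h => hlZ (h hlL)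
  have hEL : ¬ E ≤ L := by
    intro h
    apply hbad
    intro x hx
    refine (hK x).mpr ⟨hx, fun e he => ?_⟩
    have h1 := ((hL e).mp (h he)).2 x hx
    have e1 : e * x * e⁻¹ * x⁻¹ = (x * e * x⁻¹ * e⁻¹)⁻¹ := by group
    rw [e1]; exact Z.inv_mem h1
  have hLp : IsPGroup p L := S.hR.to_le (hLE.trans S.hER)
  obtain ⟨i, hi⟩ := IsPGroup.iff_card.mp hLp
  have hLcard : Nat.card L = p ^ 2 := by
    have h1 : Nat.card Z < Nat.card L := mc_card_lt_of_lt (lt_of_le_not_ge hZL hLZ)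
    have h2 : Nat.card L < Nat.card E := mc_card_lt_of_lt (lt_of_le_not_ge hLE hEL)
    rw [S.hZcard, hi] at h1
    rw [S.hEcard, hi] at h2
    have h3 : 1 < i := by
      have : p ^ 1 < p ^ i := by simpa using h1
      exact (Nat.pow_lt_pow_iff_right hpp.one_lt).mp this
    have h4 : i < 3 := (Nat.pow_lt_pow_iff_right hpp.one_lt).mp h2
    have : i = 2 := by omega
    rw [hi, this]
  have hLab : ∀ a ∈ L, ∀ b ∈ L, a * b = b * a := by
    intro a ha b hb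
    have hcm := IsPGroup.isMulCommutative_of_card_eq_prime_sq hLcard
    exact congrArg Subtype.val (mul_comm' (⟨a, ha⟩ : L) ⟨b, hb⟩)
  have hLcent : ∀ e ∈ E, (∀ l ∈ L, e * l = l * e) → e ∈ L := by
    intro e he hcomm
    by_contra heL
    have hT : E ⊓ Subgroup.centralizer (L : Set G) = E := by
      refine Cfsg.Agent.H3.eq_of_le_of_not_le_of_card hpp (H := L) ?_ inf_le_left ?_ ?_
      · intro y hy
        refine Subgroup.mem_inf.mpr ⟨hLE hy, ?_⟩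
        rw [Subgroup.mem_centralizer_iff]
        intro l' hl'
        exact hLab l' hl' y hy
      · intro h
        apply heL
        apply h
        refine Subgroup.mem_inf.mpr ⟨he, ?_⟩
        rw [Subgroup.mem_centralizer_iff]
        intro l' hl'
        exact (hcomm l' hl').symm
      · rw [S.hEcard, hLcard]; ring
    apply hlZ
    apply S.hZmem l hlE
    intro e' he'
    have : e' ∈ E ⊓ Subgroup.centralizer (L : Set G) := by rw [hT]; exact he'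
    exact Subgroup.mem_centralizer_iff.mp (Subgroup.mem_inf.mp this).2 l hlL
  obtain ⟨e₁, he₁, he₁L, hc⟩ := rt_exists_central_mod R S.hR L E S.hER
    (fun x hx e he => S.hEnorm x (hRn hx) e he) hEL
  refine ⟨e₁, ?_⟩
  exact
    { hZL := hZL
      hLE := hLE
      hEK := hEK
      hKR := hKR
      hLcard := hLcard
      hLab := hLab
      hLcent := hLcent
      hLnorm := hLnorm
      hKnorm := hKnorm
      hMR := inf_le_left
      hMc := fun m hm l hl =>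
        (Subgroup.mem_centralizer_iff.mp (Subgroup.mem_inf.mp hm).2 l hl).symm
      hMmem := fun x hx h => Subgroup.mem_inf.mpr ⟨hx, by
        rw [Subgroup.mem_centralizer_iff]; intro l hl; exact (h l hl).symm⟩
      hMnorm := by
        intro g hg m hm
        obtain ⟨hmR, hmC⟩ := Subgroup.mem_inf.mp hm
        refine Subgroup.mem_inf.mpr ⟨(Subgroup.mem_normalizer_iff.mp hg m).mp hmR, ?_⟩
        rw [Subgroup.mem_centralizer_iff]
        intro l hl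
        have hl' : g⁻¹ * l * g ∈ L := by
          have := hLnorm g⁻¹ (Subgroup.inv_mem _ hg) l hl
          simpa using this
        have h1 := Subgroup.mem_centralizer_iff.mp hmC _ hl'
        calc l * (g * m * g⁻¹) = g * ((g⁻¹ * l * g) * m) * g⁻¹ := by group
          _ = g * (m * (g⁻¹ * l * g)) * g⁻¹ := by rw [h1]
          _ = g * m * g⁻¹ * l := by group
      he₁ := he₁
      he₁L := he₁L
      hc := hc
      hKne := hbad
      hLZ := hLZ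
      hKmem := hK
      hLmem := hL }

/-- if `z = u l u⁻¹ l⁻¹` commutes with `u` then `u ^ i * l * (u ^ i)⁻¹ * l⁻¹ = z ^ i` -/
theorem rt_conj_pow_comm {u l : G} (h : Commute (u * l * u⁻¹ * l⁻¹) u) (i : ℕ) :
    u ^ i * l * (u ^ i)⁻¹ * l⁻¹ = (u * l * u⁻¹ * l⁻¹) ^ i := by
  induction i with
  | zero => simp
  | succ i ih =>
    have hc : Commute (u * l * u⁻¹ * l⁻¹) (u ^ i) := h.pow_right i
    calc u ^ (i + 1) * l * (u ^ (i + 1))⁻¹ * l⁻¹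
        = (u ^ i * (u * l * u⁻¹ * l⁻¹)) * l * (u ^ i)⁻¹ * l⁻¹ := by rw [pow_succ]; group
      _ = ((u * l * u⁻¹ * l⁻¹) * u ^ i) * l * (u ^ i)⁻¹ * l⁻¹ := by rw [hc.eq]
      _ = (u * l * u⁻¹ * l⁻¹) * (u ^ i * l * (u ^ i)⁻¹ * l⁻¹) := by group
      _ = (u * l * u⁻¹ * l⁻¹) ^ (i + 1) := by rw [ih, pow_succ']

/-- powers modulo a subgroup normalized by `u` -/
theorem rt_mul_pow_mod (N : Subgroup G) {u : G} (hu : ∀ n ∈ N, u⁻¹ * n * u ∈ N) (l : G)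
    (hl : l ∈ N) (k : ℕ) : ∃ l' ∈ N, (u * l) ^ k = u ^ k * l' := by
  induction k with
  | zero => exact ⟨1, N.one_mem, by simp⟩
  | succ k ih =>
    obtain ⟨l', hl', h⟩ := ih
    refine ⟨u⁻¹ * l' * u * l, N.mul_mem (hu l' hl') hl, ?_⟩
    rw [pow_succ, h, pow_succ]; group

/-- conjugating a power, modulo the centre of `E` -/
theorem rt_conj_pow_mod {p : ℕ} {R E Z : Subgroup G} (S : RTSetup p R E Z) {y u : G}
    (hu : u ∈ E) (hc : y * u * y⁻¹ * u⁻¹ ∈ E) (j : ℕ) :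
    ∃ z ∈ Z, y * u ^ j * y⁻¹ * (u ^ j)⁻¹ = z * (y * u * y⁻¹ * u⁻¹) ^ j := by
  induction j with
  | zero => exact ⟨1, Z.one_mem, by simp⟩
  | succ j ih =>
    obtain ⟨z, hz, h⟩ := ih
    have hz' := S.hEZ (u ^ j) (E.pow_mem hu j) _ hc
    have hcomm := S.hZcE _ hz' _ (E.pow_mem hc j)
    refine ⟨z * (u ^ j * (y * u * y⁻¹ * u⁻¹) * (u ^ j)⁻¹ * (y * u * y⁻¹ * u⁻¹)⁻¹),
      Z.mul_mem hz hz', ?_⟩
    calc y * u ^ (j + 1) * y⁻¹ * (u ^ (j + 1))⁻¹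
        = (y * u ^ j * y⁻¹ * (u ^ j)⁻¹) *
          (u ^ j * (y * u * y⁻¹ * u⁻¹) * (u ^ j)⁻¹ * (y * u * y⁻¹ * u⁻¹)⁻¹) *
            (y * u * y⁻¹ * u⁻¹) := by rw [pow_succ]; group
      _ = z * ((y * u * y⁻¹ * u⁻¹) ^ j *
          (u ^ j * (y * u * y⁻¹ * u⁻¹) * (u ^ j)⁻¹ * (y * u * y⁻¹ * u⁻¹)⁻¹)) *
            (y * u * y⁻¹ * u⁻¹) := by rw [h]; group
      _ = z * ((u ^ j * (y * u * y⁻¹ * u⁻¹) * (u ^ j)⁻¹ * (y * u * y⁻¹ * u⁻¹)⁻¹) *
          (y * u * y⁻¹ * u⁻¹) ^ j) * (y * u * y⁻¹ * u⁻¹) := by rw [hcomm]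
      _ = z * (u ^ j * (y * u * y⁻¹ * u⁻¹) * (u ^ j)⁻¹ * (y * u * y⁻¹ * u⁻¹)⁻¹) *
          (y * u * y⁻¹ * u⁻¹) ^ (j + 1) := by rw [pow_succ]; group

/-- an element acting on `l₀` as the `j`-th power modulo `Z` acts so on `l₀ ^ t * z` -/
theorem rt_pow_action {p : ℕ} {R E Z : Subgroup G} (S : RTSetup p R E Z) {a l₀ : G}
    (ha : a ∈ Subgroup.normalizer (R : Set G)) (hl₀ : l₀ ∈ E) {j : ℕ} {z₂ : G} (hz₂ : z₂ ∈ Z)
    (h : a * l₀ * a⁻¹ = l₀ ^ j * z₂) (t : ℕ) (z : G) (hz : z ∈ Z) :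
    a * (l₀ ^ t * z) * a⁻¹ * ((l₀ ^ t * z) ^ j)⁻¹ ∈ Z := by
  have h1 : a * (l₀ ^ t * z) * a⁻¹ = (a * l₀ * a⁻¹) ^ t * (a * z * a⁻¹) := by
    rw [conj_pow]; group
  have hc1 : Commute (l₀ ^ j) z₂ := (S.hZcE z₂ hz₂ _ (E.pow_mem hl₀ j)).symm
  have hc2 : Commute (l₀ ^ t) z := (S.hZcE z hz _ (E.pow_mem hl₀ t)).symm
  have h2 : (l₀ ^ j * z₂) ^ t = l₀ ^ (j * t) * z₂ ^ t := by rw [hc1.mul_pow, ← pow_mul]
  have h3 : (l₀ ^ t * z) ^ j = l₀ ^ (j * t) * z ^ j := by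
    rw [hc2.mul_pow, ← pow_mul, mul_comm t j]
  have hw : z₂ ^ t * (a * z * a⁻¹) * (z ^ j)⁻¹ ∈ Z :=
    Z.mul_mem (Z.mul_mem (Z.pow_mem hz₂ t) (S.hZnorm a ha z hz)) (Z.inv_mem (Z.pow_mem hz j))
  have hc3 := S.hZcE _ hw _ (E.pow_mem hl₀ (j * t))
  rw [h1, h, h2, h3]
  have e : l₀ ^ (j * t) * z₂ ^ t * (a * z * a⁻¹) * (l₀ ^ (j * t) * z ^ j)⁻¹ =
      (l₀ ^ (j * t) * (z₂ ^ t * (a * z * a⁻¹) * (z ^ j)⁻¹)) * (l₀ ^ (j * t))⁻¹ := by group
  rw [e, ← hc3]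
  simpa using hw

namespace RTBad

variable [Finite G] {p : ℕ} [Fact p.Prime] {R E Z K L M : Subgroup G} {e₁ : G}

theorem hLM (B : RTBad p R E Z K L M e₁) (S : RTSetup p R E Z) : L ≤ M :=
  fun l hl => B.hMmem l (S.hER (B.hLE hl)) (fun l' hl' => B.hLab l hl l' hl')

/-- `x ↦ x e₁ x⁻¹ e₁⁻¹` is multiplicative on `M` -/
theorem c_mul (B : RTBad p R E Z K L M e₁) {x y : G} (hx : x ∈ M) (hy : y ∈ R) :
    (x * y) * e₁ * (x * y)⁻¹ * e₁⁻¹ = (x * e₁ * x⁻¹ * e₁⁻¹) * (y * e₁ * y⁻¹ * e₁⁻¹) := by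
  have h1 := B.hMc x hx _ (B.hc y hy)
  have h2 := B.hLab _ (B.hc x (B.hMR hx)) _ (B.hc y hy)
  calc (x * y) * e₁ * (x * y)⁻¹ * e₁⁻¹
      = (x * (y * e₁ * y⁻¹ * e₁⁻¹)) * x⁻¹ * (x * e₁ * x⁻¹ * e₁⁻¹) := by group
    _ = ((y * e₁ * y⁻¹ * e₁⁻¹) * x) * x⁻¹ * (x * e₁ * x⁻¹ * e₁⁻¹) := by rw [h1]
    _ = (y * e₁ * y⁻¹ * e₁⁻¹) * (x * e₁ * x⁻¹ * e₁⁻¹) := by group
    _ = _ := h2.symm

theorem c_pow (B : RTBad p R E Z K L M e₁) {x : G} (hx : x ∈ M) (k : ℕ) :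
    x ^ k * e₁ * (x ^ k)⁻¹ * e₁⁻¹ = (x * e₁ * x⁻¹ * e₁⁻¹) ^ k := by
  induction k with
  | zero => simp
  | succ k ih => rw [pow_succ, B.c_mul (M.pow_mem hx k) (B.hMR hx), ih, pow_succ]

theorem c_inv (B : RTBad p R E Z K L M e₁) {x : G} (hx : x ∈ M) :
    x⁻¹ * e₁ * x⁻¹⁻¹ * e₁⁻¹ = (x * e₁ * x⁻¹ * e₁⁻¹)⁻¹ := by
  have h := B.c_mul hx (R.inv_mem (B.hMR hx))
  rw [mul_inv_cancel] at h
  have h1 : (1 : G) * e₁ * 1⁻¹ * e₁⁻¹ = 1 := by group
  rw [h1] at h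
  exact eq_inv_of_mul_eq_one_right h.symm

theorem exists_pow_mul_E (B : RTBad p R E Z K L M e₁) (S : RTSetup p R E Z) (e : G)
    (he : e ∈ E) : ∃ i : ℕ, ∃ l ∈ L, e = e₁ ^ i * l :=
  rt_exists_pow_mul L E B.hLE
    (fun t ht l hl => B.hLnorm t (Subgroup.le_normalizer (S.hER ht)) l hl)
    (by rw [S.hEcard, B.hLcard]; ring) B.he₁ B.he₁L e he

theorem exists_pow_mul_L (B : RTBad p R E Z K L M e₁) (S : RTSetup p R E Z) {l₀ : G}
    (hl₀ : l₀ ∈ L) (hl₀Z : l₀ ∉ Z) (u : G) (hu : u ∈ L) : ∃ i : ℕ, ∃ z ∈ Z, u = l₀ ^ i * z :=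
  rt_exists_pow_mul Z L B.hZL
    (fun t ht z hz => by
      have := S.hZcE z hz t (B.hLE ht)
      rw [← this]; simpa using hz)
    (by rw [S.hZcard, B.hLcard]; ring) hl₀ hl₀Z u hu

theorem mem_K_iff (B : RTBad p R E Z K L M e₁) (S : RTSetup p R E Z) {x : G} (hx : x ∈ M) :
    x ∈ K ↔ x * e₁ * x⁻¹ * e₁⁻¹ ∈ Z := by
  constructor
  · intro h
    have h1 := ((B.hKmem x).mp h).2 e₁ B.he₁
    have e : x * e₁ * x⁻¹ * e₁⁻¹ = (e₁ * x * e₁⁻¹ * x⁻¹)⁻¹ := by group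
    rw [e]; exact Z.inv_mem h1
  · intro hcx
    refine (B.hKmem x).mpr ⟨B.hMR hx, fun e he => ?_⟩
    obtain ⟨i, l', hl', rfl⟩ := B.exists_pow_mul_E S e he
    have hcomm : Commute (x * e₁ * x⁻¹ * e₁⁻¹) e₁ := S.hZcE _ hcx e₁ B.he₁
    have h1 : x * e₁ ^ i * x⁻¹ = (x * e₁ * x⁻¹ * e₁⁻¹) ^ i * e₁ ^ i := by
      rw [← hcomm.mul_pow, ← conj_pow]; congr 1; group
    have h2 : x * (e₁ ^ i * l') * x⁻¹ * (e₁ ^ i * l')⁻¹ = (x * e₁ * x⁻¹ * e₁⁻¹) ^ i := by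
      calc x * (e₁ ^ i * l') * x⁻¹ * (e₁ ^ i * l')⁻¹
          = (x * e₁ ^ i * x⁻¹) * ((x * l') * x⁻¹ * l'⁻¹) * (e₁ ^ i)⁻¹ := by group
        _ = (x * e₁ ^ i * x⁻¹) * ((l' * x) * x⁻¹ * l'⁻¹) * (e₁ ^ i)⁻¹ := by
            rw [B.hMc x hx l' hl']
        _ = (x * e₁ * x⁻¹ * e₁⁻¹) ^ i := by rw [h1]; group
    have e : e₁ ^ i * l' * x * (e₁ ^ i * l')⁻¹ * x⁻¹ =
        (x * (e₁ ^ i * l') * x⁻¹ * (e₁ ^ i * l')⁻¹)⁻¹ := by group
    rw [e, h2]
    exact Z.inv_mem (Z.pow_mem hcx i)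

theorem pow_mem_K (B : RTBad p R E Z K L M e₁) (S : RTSetup p R E Z) {x : G} (hx : x ∈ M) :
    x ^ p ∈ K := by
  rw [B.mem_K_iff S (M.pow_mem hx p), B.c_pow hx, S.hEexp _ (B.hLE (B.hc x (B.hMR hx)))]
  exact Z.one_mem

theorem e₁_not_mem_M (B : RTBad p R E Z K L M e₁) : e₁ ∉ M :=
  fun h => B.he₁L (B.hLcent e₁ B.he₁ (B.hMc e₁ h))

theorem exists_mul (B : RTBad p R E Z K L M e₁) (S : RTSetup p R E Z) (x : G) (hx : x ∈ R) :
    ∃ e ∈ E, ∃ m ∈ M, x = e * m := by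
  obtain ⟨l, hlL, hlZ⟩ := SetLike.not_le_iff_exists.mp B.hLZ
  have hlE := B.hLE hlL
  have hz₁ : e₁ * l * e₁⁻¹ * l⁻¹ ∈ Z := S.hEZ e₁ B.he₁ l hlE
  have hz₁ne : e₁ * l * e₁⁻¹ * l⁻¹ ≠ 1 := by
    intro h
    apply B.he₁L
    apply B.hLcent e₁ B.he₁
    intro u hu
    obtain ⟨i, z, hz, rfl⟩ := B.exists_pow_mul_L S hlL hlZ u hu
    have h1 : Commute e₁ l := by
      show e₁ * l = l * e₁
      calc e₁ * l = (e₁ * l * e₁⁻¹ * l⁻¹) * l * e₁ := by group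
        _ = l * e₁ := by rw [h, one_mul]
    have h2 : Commute e₁ z := (S.hZcE z hz e₁ B.he₁).symm
    exact ((h1.pow_right i).mul_right h2).eq
  have hZgen : ∀ z ∈ Z, ∃ i : ℕ, z = (e₁ * l * e₁⁻¹ * l⁻¹) ^ i := by
    intro z hz
    obtain ⟨i, h, hh, rfl⟩ := rt_exists_pow_mul ⊥ Z bot_le
      (fun t _ h hh => by rw [Subgroup.mem_bot] at hh ⊢; rw [hh]; group)
      (by rw [S.hZcard, Subgroup.card_bot, mul_one]) hz₁
      (by rw [Subgroup.mem_bot]; exact hz₁ne) z hz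
    rw [Subgroup.mem_bot] at hh
    exact ⟨i, by rw [hh, mul_one]⟩
  obtain ⟨i, hi⟩ := hZgen _ (((B.hLmem l).mp hlL).2 x hx)
  have hcomm : Commute (e₁ * l * e₁⁻¹ * l⁻¹) e₁ := S.hZcE _ hz₁ e₁ B.he₁
  have hel := rt_conj_pow_comm hcomm i
  refine ⟨e₁ ^ i, E.pow_mem B.he₁ i, (e₁ ^ i)⁻¹ * x, ?_, by group⟩
  have hmR : (e₁ ^ i)⁻¹ * x ∈ R := R.mul_mem (R.inv_mem (R.pow_mem (S.hER B.he₁) i)) hx
  apply B.hMmem _ hmR
  intro u hu
  obtain ⟨k, z, hz, rfl⟩ := B.exists_pow_mul_L S hlL hlZ u hu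
  have h1 : Commute ((e₁ ^ i)⁻¹ * x) l := by
    show (e₁ ^ i)⁻¹ * x * l = l * ((e₁ ^ i)⁻¹ * x)
    calc (e₁ ^ i)⁻¹ * x * l = (e₁ ^ i)⁻¹ * (x * l * x⁻¹ * l⁻¹) * l * x := by group
      _ = (e₁ ^ i)⁻¹ * (e₁ ^ i * l * (e₁ ^ i)⁻¹ * l⁻¹) * l * x := by rw [hi, hel]
      _ = l * ((e₁ ^ i)⁻¹ * x) := by group
  have h2 : Commute ((e₁ ^ i)⁻¹ * x) z := S.hZcR _ hmR z hz
  exact ((h1.pow_right k).mul_right h2).eq

theorem conj_mem_of_e₁ (B : RTBad p R E Z K L M e₁) (S : RTSetup p R E Z) {a : G}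
    (ha : a ∈ Subgroup.normalizer (R : Set G)) (h : a * e₁ * a⁻¹ * e₁⁻¹ ∈ L) (e : G)
    (he : e ∈ E) : a * e * a⁻¹ * e⁻¹ ∈ L := by
  obtain ⟨i, l, hl, rfl⟩ := B.exists_pow_mul_E S e he
  have hRn : R ≤ Subgroup.normalizer (R : Set G) := Subgroup.le_normalizer
  have he₁N : e₁ ∈ Subgroup.normalizer (R : Set G) := hRn (S.hER B.he₁)
  have hl₁ : e₁⁻¹ * (a * e₁ * a⁻¹ * e₁⁻¹) * e₁ ∈ L := by
    have := B.hLnorm e₁⁻¹ (Subgroup.inv_mem _ he₁N) _ h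
    simpa using this
  obtain ⟨l', hl', h'⟩ := rt_mul_pow_mod L (u := e₁) (fun n hn => by
    have := B.hLnorm e₁⁻¹ (Subgroup.inv_mem _ he₁N) n hn
    simpa using this) _ hl₁ i
  have h1 : a * e₁ ^ i * a⁻¹ = e₁ ^ i * l' := by
    rw [← h', ← conj_pow]; congr 1; group
  have e' : a * (e₁ ^ i * l) * a⁻¹ * (e₁ ^ i * l)⁻¹ =
      e₁ ^ i * (l' * (a * l * a⁻¹) * l⁻¹) * (e₁ ^ i)⁻¹ := by
    calc a * (e₁ ^ i * l) * a⁻¹ * (e₁ ^ i * l)⁻¹
        = (a * e₁ ^ i * a⁻¹) * (a * l * a⁻¹) * l⁻¹ * (e₁ ^ i)⁻¹ := by group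
      _ = _ := by rw [h1]; group
  rw [e']
  exact B.hLnorm _ (hRn (S.hER (E.pow_mem B.he₁ i))) _
    (L.mul_mem (L.mul_mem hl' (B.hLnorm a ha l hl)) (L.inv_mem hl))

end RTBad

/-- Key step: an element `a` of odd `p'`-order normalizing `R` which moves `M` modulo `K`
centralizes `E` modulo `L`. -/
theorem rt_centralizes_of_moves [Finite G] {p : ℕ} [Fact p.Prime] (hp3 : 3 < p)
    {R E Z K L M : Subgroup G} {e₁ : G} (S : RTSetup p R E Z) (B : RTBad p R E Z K L M e₁)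
    (a : G) (ha : a ∈ Subgroup.normalizer (R : Set G)) (hacop : (orderOf a).Coprime p)
    (haodd : Odd (orderOf a)) (m : G) (hm : m ∈ M) (hma : m * a * m⁻¹ * a⁻¹ ∉ K) :
    a * e₁ * a⁻¹ * e₁⁻¹ ∈ L := by
  have hpp : p.Prime := Fact.out
  have hp2 : p ≠ 2 := by omega
  have hRn : R ≤ Subgroup.normalizer (R : Set G) := Subgroup.le_normalizer
  have ha' : a⁻¹ ∈ Subgroup.normalizer (R : Set G) := Subgroup.inv_mem _ ha
  have hMp : IsPGroup p M := S.hR.to_le B.hMR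
  -- `M` is metacyclic
  have hMmeta : Cfsg.IsMetacyclic M := by
    apply Cfsg.Agent.S0639.result hp3 hMp
    have hle : Cfsg.omegaOne p (⊤ : Subgroup M) ≤ L.subgroupOf M := by
      unfold Cfsg.omegaOne
      rw [Subgroup.closure_le]
      rintro x ⟨-, hx⟩
      show (x : G) ∈ L
      have hx' : (x : G) ^ p = 1 := by
        have := congrArg Subtype.val hx
        simpa using this
      exact B.hLcent _ (S.hEmem _ (B.hMR x.2) hx') (fun l hl => B.hMc x x.2 l hl)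
    calc Nat.card (Cfsg.omegaOne p (⊤ : Subgroup M)) ≤ Nat.card (L.subgroupOf M) :=
          Subgroup.card_le_of_le hle
      _ = Nat.card L := Nat.card_congr (Subgroup.subgroupOfEquivOfLe (B.hLM S)).toEquiv
      _ = p ^ 2 := B.hLcard
  obtain ⟨A₀, hA₀def⟩ : ∃ A₀ : Subgroup G, A₀ = Subgroup.zpowers a := ⟨_, rfl⟩
  have haA₀ : a ∈ A₀ := by rw [hA₀def]; exact Subgroup.mem_zpowers a
  have hA₀ : A₀ ≤ Subgroup.normalizer (M : Set G) := by
    rw [hA₀def, Subgroup.zpowers_le, Subgroup.mem_normalizer_iff]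
    intro h
    constructor
    · exact B.hMnorm a ha h
    · intro hh
      have := B.hMnorm a⁻¹ ha' _ hh
      simpa [mul_assoc] using this
  have hA₀cop : (Nat.card A₀).Coprime p := by rw [hA₀def, Nat.card_zpowers]; exact hacop
  obtain ⟨hWab, -, -, -⟩ := Cfsg.Agent.S1447.result p hp2 M A₀ hMp hMmeta hA₀ hA₀cop
  obtain ⟨W, hWdef⟩ : ∃ W : Subgroup G, W = ⁅M, A₀⁆ := ⟨_, rfl⟩
  rw [← hWdef] at hWab
  have hWM : W ≤ M := by
    rw [hWdef]; exact Cfsg.Agent.H1.commutator_le_of_le_normalizer A₀ M hA₀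
  have hWnorm : ∀ b ∈ A₀, ∀ w ∈ W, b * w * b⁻¹ ∈ W := by
    intro b hb w hw
    have h1 : b ∈ Subgroup.normalizer (W : Set G) := by
      rw [hWdef]; exact Subgroup.normalizer_commutator_ge_right M A₀ hb
    exact (Subgroup.mem_normalizer_iff.mp h1 w).mp hw
  obtain ⟨x₀, hx₀def⟩ : ∃ x₀ : G, x₀ = m * a * m⁻¹ * a⁻¹ := ⟨_, rfl⟩
  rw [← hx₀def] at hma
  have hx₀W : x₀ ∈ W := by
    have := Subgroup.commutator_mem_commutator hm haA₀
    rw [commutatorElement_def] at this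
    rw [hWdef, hx₀def]; exact this
  have hx₀M : x₀ ∈ M := hWM hx₀W
  obtain ⟨l₀, hl₀def⟩ : ∃ l₀ : G, l₀ = x₀ * e₁ * x₀⁻¹ * e₁⁻¹ := ⟨_, rfl⟩
  have hl₀L : l₀ ∈ L := by rw [hl₀def]; exact B.hc x₀ (B.hMR hx₀M)
  have hl₀E : l₀ ∈ E := B.hLE hl₀L
  have hl₀Z : l₀ ∉ Z := by
    intro h
    rw [hl₀def] at h
    exact hma ((B.mem_K_iff S hx₀M).mpr h)
  have hLgen := B.exists_pow_mul_L S hl₀L hl₀Z
  obtain ⟨y₀, hy₀def⟩ : ∃ y₀ : G, y₀ = a * x₀ * a⁻¹ := ⟨_, rfl⟩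
  have hy₀M : y₀ ∈ M := by rw [hy₀def]; exact B.hMnorm a ha x₀ hx₀M
  obtain ⟨j₃, z₃, hz₃, hcy₀⟩ := hLgen _ (B.hc y₀ (B.hMR hy₀M))
  have hj₃K : y₀ * (x₀ ^ j₃)⁻¹ ∈ K := by
    have hpowM : x₀ ^ j₃ ∈ M := M.pow_mem hx₀M j₃
    have hmem : y₀ * (x₀ ^ j₃)⁻¹ ∈ M := M.mul_mem hy₀M (M.inv_mem hpowM)
    rw [B.mem_K_iff S hmem, B.c_mul hy₀M (R.inv_mem (B.hMR hpowM)), B.c_inv hpowM,
      B.c_pow hx₀M j₃, hcy₀, ← hl₀def]
    have hcm := S.hZcE z₃ hz₃ _ (E.pow_mem hl₀E j₃)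
    rw [← hcm]
    simpa using hz₃
  -- the eigenvector
  have hWp : IsPGroup p W := hMp.to_le hWM
  obtain ⟨φ, hφ⟩ : ∃ φ : MulAut W, ∀ w : W, ((φ w : W) : G) = a * w * a⁻¹ :=
    ⟨Cfsg.Agent.H3.conjHom A₀ W hWnorm ⟨a, haA₀⟩, fun w => rfl⟩
  have hφn : φ ^ (orderOf a) = 1 := by
    have hi : ∀ (i : ℕ) (w : W), (((φ ^ i) w : W) : G) = a ^ i * w * (a ^ i)⁻¹ := by
      intro i
      induction i with
      | zero => intro w; simp
      | succ i ih =>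
        intro w
        rw [pow_succ', MulAut.mul_apply, hφ, ih, pow_succ']; group
    ext w
    rw [hi, pow_orderOf_eq_one]; simp
  obtain ⟨⟨y, hyW⟩, hy'1, hy'p, hy'φ⟩ := rt_eigen_of_quotient hWp φ (orderOf a) hφn hacop
    (K.subgroupOf W)
    (fun x hx => by
      rw [Subgroup.mem_subgroupOf] at hx ⊢
      rw [hφ]; exact B.hKnorm a ha _ hx)
    ⟨x₀, hx₀W⟩ (by rw [Subgroup.mem_subgroupOf]; exact hma)
    (by rw [Subgroup.mem_subgroupOf]; exact B.pow_mem_K S hx₀M) j₃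
    (by
      rw [Subgroup.mem_subgroupOf]
      have : ((φ ⟨x₀, hx₀W⟩ * (⟨x₀, hx₀W⟩ ^ j₃)⁻¹ : W) : G) = y₀ * (x₀ ^ j₃)⁻¹ := by
        rw [Subgroup.coe_mul, hφ, hy₀def]; rfl
      rw [this]; exact hj₃K)
  have hy1 : y ≠ 1 := fun h => hy'1 (Subtype.ext h)
  have hyp : y ^ p = 1 := by simpa using congrArg Subtype.val hy'p
  have hya : a * y * a⁻¹ = y ^ j₃ := by
    have := congrArg Subtype.val hy'φ
    rw [hφ] at this
    simpa using this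
  have hyM : y ∈ M := hWM hyW
  have hyL : y ∈ L := B.hLcent y (S.hEmem y (B.hMR hyM) hyp) (fun l hl => B.hMc y hyM l hl)
  have hJ3 : (j₃ : ZMod p) ≠ 0 := by
    intro h
    rw [ZMod.natCast_eq_zero_iff] at h
    obtain ⟨t, rfl⟩ := h
    rw [pow_mul, hyp, one_pow] at hya
    apply hy1
    have : y = a⁻¹ * (a * y * a⁻¹) * a := by group
    rw [this, hya]; group
  obtain ⟨j₁, l₁, hl₁, hae₁⟩ := B.exists_pow_mul_E S _ (S.hEnorm a ha e₁ B.he₁)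
  obtain ⟨j₂, z₂, hz₂, hal₀⟩ := hLgen _ (B.hLnorm a ha l₀ hl₀L)
  have hl₀p : l₀ ^ p ∈ Z := by rw [S.hEexp l₀ hl₀E]; exact Z.one_mem
  -- first relation
  have hR1 : (j₂ : ZMod p) = (j₁ : ZMod p) * (j₃ : ZMod p) := by
    have h1 : a * l₀ * a⁻¹ = y₀ * (a * e₁ * a⁻¹) * y₀⁻¹ * (a * e₁ * a⁻¹)⁻¹ := by
      rw [hl₀def, hy₀def]; group
    rw [hae₁] at h1
    have hcm1 : l₁ * y₀⁻¹ = y₀⁻¹ * l₁ := by
      have := B.hMc y₀⁻¹ (M.inv_mem hy₀M) l₁ hl₁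
      exact this.symm
    have h2 : y₀ * (e₁ ^ j₁ * l₁) * y₀⁻¹ * (e₁ ^ j₁ * l₁)⁻¹ =
        y₀ * e₁ ^ j₁ * y₀⁻¹ * (e₁ ^ j₁)⁻¹ := by
      calc y₀ * (e₁ ^ j₁ * l₁) * y₀⁻¹ * (e₁ ^ j₁ * l₁)⁻¹
          = y₀ * e₁ ^ j₁ * ((l₁ * y₀⁻¹) * l₁⁻¹) * (e₁ ^ j₁)⁻¹ := by group
        _ = y₀ * e₁ ^ j₁ * ((y₀⁻¹ * l₁) * l₁⁻¹) * (e₁ ^ j₁)⁻¹ := by rw [hcm1]
        _ = _ := by group
    obtain ⟨z, hz, h3⟩ := rt_conj_pow_mod S B.he₁ (B.hLE (B.hc y₀ (B.hMR hy₀M))) j₁ (y := y₀)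
    rw [h2, h3, hcy₀, hal₀] at h1
    have hc1 : Commute (l₀ ^ j₃) z₃ := (S.hZcE z₃ hz₃ _ (E.pow_mem hl₀E j₃)).symm
    have h4 : (l₀ ^ j₃ * z₃) ^ j₁ = l₀ ^ (j₁ * j₃) * z₃ ^ j₁ := by
      rw [hc1.mul_pow, ← pow_mul, mul_comm j₃ j₁]
    rw [h4] at h1
    have hCB : z₃ ^ j₁ * l₀ ^ (j₁ * j₃) = l₀ ^ (j₁ * j₃) * z₃ ^ j₁ :=
      S.hZcE _ (Z.pow_mem hz₃ j₁) _ (E.pow_mem hl₀E _)
    have hBz : z₂⁻¹ * l₀ ^ (j₁ * j₃) = l₀ ^ (j₁ * j₃) * z₂⁻¹ :=
      S.hZcE _ (Z.inv_mem hz₂) _ (E.pow_mem hl₀E _)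
    have h5 : l₀ ^ j₂ * (l₀ ^ (j₁ * j₃))⁻¹ ∈ Z := by
      have : l₀ ^ j₂ * (l₀ ^ (j₁ * j₃))⁻¹ = z * z₃ ^ j₁ * z₂⁻¹ := by
        calc l₀ ^ j₂ * (l₀ ^ (j₁ * j₃))⁻¹
            = (l₀ ^ j₂ * z₂) * z₂⁻¹ * (l₀ ^ (j₁ * j₃))⁻¹ := by group
          _ = z * (l₀ ^ (j₁ * j₃) * z₃ ^ j₁) * z₂⁻¹ * (l₀ ^ (j₁ * j₃))⁻¹ := by rw [h1]
          _ = z * (z₃ ^ j₁ * l₀ ^ (j₁ * j₃)) * z₂⁻¹ * (l₀ ^ (j₁ * j₃))⁻¹ := by rw [hCB]
          _ = z * z₃ ^ j₁ * (l₀ ^ (j₁ * j₃) * z₂⁻¹) * (l₀ ^ (j₁ * j₃))⁻¹ := by group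
          _ = z * z₃ ^ j₁ * (z₂⁻¹ * l₀ ^ (j₁ * j₃)) * (l₀ ^ (j₁ * j₃))⁻¹ := by rw [hBz]
          _ = z * z₃ ^ j₁ * z₂⁻¹ := by group
      rw [this]
      exact Z.mul_mem (Z.mul_mem hz (Z.pow_mem hz₃ _)) (Z.inv_mem hz₂)
    have := rt_pow_mod Z hl₀Z hl₀p h5
    simpa using this
  -- the order of the action on `E / L`
  have hJ1n : (j₁ : ZMod p) ^ (orderOf a) = 1 := by
    have he₁N : e₁ ∈ Subgroup.normalizer (R : Set G) := hRn (S.hER B.he₁)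
    have hi : ∀ i : ℕ, ∃ l ∈ L, a ^ i * e₁ * (a ^ i)⁻¹ = e₁ ^ (j₁ ^ i) * l := by
      intro i
      induction i with
      | zero => exact ⟨1, L.one_mem, by simp⟩
      | succ i ih =>
        obtain ⟨l, hl, h⟩ := ih
        obtain ⟨l', hl', h'⟩ := rt_mul_pow_mod L (u := e₁ ^ j₁) (fun n hn => by
          have := B.hLnorm (e₁ ^ j₁)⁻¹
            (Subgroup.inv_mem _ (Subgroup.pow_mem _ he₁N j₁)) n hn
          simpa using this) l₁ hl₁ (j₁ ^ i)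
        refine ⟨l' * (a * l * a⁻¹), L.mul_mem hl' (B.hLnorm a ha l hl), ?_⟩
        calc a ^ (i + 1) * e₁ * (a ^ (i + 1))⁻¹
            = a * (a ^ i * e₁ * (a ^ i)⁻¹) * a⁻¹ := by rw [pow_succ']; group
          _ = a * (e₁ ^ (j₁ ^ i) * l) * a⁻¹ := by rw [h]
          _ = (a * e₁ * a⁻¹) ^ (j₁ ^ i) * (a * l * a⁻¹) := by rw [conj_pow]; group
          _ = (e₁ ^ j₁ * l₁) ^ (j₁ ^ i) * (a * l * a⁻¹) := by rw [hae₁]
          _ = (e₁ ^ j₁) ^ (j₁ ^ i) * l' * (a * l * a⁻¹) := by rw [h']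
          _ = e₁ ^ (j₁ ^ (i + 1)) * (l' * (a * l * a⁻¹)) := by
              rw [← pow_mul, pow_succ', mul_assoc]
    obtain ⟨l, hl, h⟩ := hi (orderOf a)
    rw [pow_orderOf_eq_one] at h
    have h5 : e₁ ^ (j₁ ^ orderOf a) * (e₁ ^ 1)⁻¹ ∈ L := by
      have h' : e₁ ^ (j₁ ^ orderOf a) = e₁ * l⁻¹ := by
        have h0 : e₁ = e₁ ^ (j₁ ^ orderOf a) * l := by simpa using h
        calc e₁ ^ (j₁ ^ orderOf a) = (e₁ ^ (j₁ ^ orderOf a) * l) * l⁻¹ := by group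
          _ = e₁ * l⁻¹ := by rw [← h0]
      rw [h', pow_one]
      exact B.hLnorm e₁ he₁N _ (L.inv_mem hl)
    have := rt_pow_mod L B.he₁L (by rw [S.hEexp e₁ B.he₁]; exact L.one_mem) h5
    simpa using this
  -- the eigenvalue of `y`
  have hcase : (j₃ : ZMod p) = (j₂ : ZMod p) ∨ (j₃ : ZMod p) = (j₁ : ZMod p) * (j₂ : ZMod p) := by
    by_cases hyZ : y ∈ Z
    · right
      have hz₁ : e₁ * l₀ * e₁⁻¹ * l₀⁻¹ ∈ Z := S.hEZ e₁ B.he₁ l₀ hl₀E
      have hcomm : Commute (e₁ * l₀ * e₁⁻¹ * l₀⁻¹) e₁ := S.hZcE _ hz₁ e₁ B.he₁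
      have hcomm' : Commute (e₁ * l₀ * e₁⁻¹ * l₀⁻¹) l₀ := S.hZcE _ hz₁ l₀ hl₀E
      have hz₁ne : e₁ * l₀ * e₁⁻¹ * l₀⁻¹ ≠ 1 := by
        intro h
        apply B.he₁L
        apply B.hLcent e₁ B.he₁
        intro u hu
        obtain ⟨i, z, hz, rfl⟩ := hLgen u hu
        have h1 : Commute e₁ l₀ := by
          show e₁ * l₀ = l₀ * e₁
          calc e₁ * l₀ = (e₁ * l₀ * e₁⁻¹ * l₀⁻¹) * l₀ * e₁ := by group
            _ = l₀ * e₁ := by rw [h, one_mul]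
        have h2 : Commute e₁ z := (S.hZcE z hz e₁ B.he₁).symm
        exact ((h1.pow_right i).mul_right h2).eq
      obtain ⟨t, h, hh, hyt⟩ := rt_exists_pow_mul ⊥ Z bot_le
        (fun t _ h hh => by rw [Subgroup.mem_bot] at hh ⊢; rw [hh]; group)
        (by rw [S.hZcard, Subgroup.card_bot, mul_one]) hz₁
        (by rw [Subgroup.mem_bot]; exact hz₁ne) y hyZ
      rw [Subgroup.mem_bot] at hh
      rw [hh, mul_one] at hyt
      -- `a z₁ a⁻¹ = z₁ ^ (j₁ * j₂)`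
      have haz : a * (e₁ * l₀ * e₁⁻¹ * l₀⁻¹) * a⁻¹ = (e₁ * l₀ * e₁⁻¹ * l₀⁻¹) ^ (j₁ * j₂) := by
        have h1 : a * (e₁ * l₀ * e₁⁻¹ * l₀⁻¹) * a⁻¹ =
            (a * e₁ * a⁻¹) * (a * l₀ * a⁻¹) * (a * e₁ * a⁻¹)⁻¹ * (a * l₀ * a⁻¹)⁻¹ := by group
        rw [h1, hae₁, hal₀]
        have hL2 : l₀ ^ j₂ * z₂ ∈ L := L.mul_mem (L.pow_mem hl₀L j₂) (B.hZL hz₂)
        have hc1 : l₁ * (l₀ ^ j₂ * z₂) = (l₀ ^ j₂ * z₂) * l₁ := B.hLab l₁ hl₁ _ hL2
        have hc2 : z₂ * (e₁ ^ j₁)⁻¹ = (e₁ ^ j₁)⁻¹ * z₂ :=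
          S.hZcE z₂ hz₂ _ (E.inv_mem (E.pow_mem B.he₁ j₁))
        have h2 : e₁ ^ j₁ * l₁ * (l₀ ^ j₂ * z₂) * (e₁ ^ j₁ * l₁)⁻¹ * (l₀ ^ j₂ * z₂)⁻¹ =
            e₁ ^ j₁ * l₀ ^ j₂ * (e₁ ^ j₁)⁻¹ * (l₀ ^ j₂)⁻¹ := by
          calc e₁ ^ j₁ * l₁ * (l₀ ^ j₂ * z₂) * (e₁ ^ j₁ * l₁)⁻¹ * (l₀ ^ j₂ * z₂)⁻¹
              = e₁ ^ j₁ * (l₁ * (l₀ ^ j₂ * z₂)) * l₁⁻¹ * (e₁ ^ j₁)⁻¹ * z₂⁻¹ * (l₀ ^ j₂)⁻¹ := by
                group
            _ = e₁ ^ j₁ * ((l₀ ^ j₂ * z₂) * l₁) * l₁⁻¹ * (e₁ ^ j₁)⁻¹ * z₂⁻¹ * (l₀ ^ j₂)⁻¹ := by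
                rw [hc1]
            _ = e₁ ^ j₁ * l₀ ^ j₂ * (z₂ * (e₁ ^ j₁)⁻¹) * z₂⁻¹ * (l₀ ^ j₂)⁻¹ := by group
            _ = e₁ ^ j₁ * l₀ ^ j₂ * ((e₁ ^ j₁)⁻¹ * z₂) * z₂⁻¹ * (l₀ ^ j₂)⁻¹ := by rw [hc2]
            _ = _ := by group
        rw [h2]
        have h3 := rt_conj_pow_comm hcomm j₁
        have h4 : e₁ ^ j₁ * l₀ * (e₁ ^ j₁)⁻¹ = (e₁ * l₀ * e₁⁻¹ * l₀⁻¹) ^ j₁ * l₀ := by
          rw [← h3]; group
        have h5 : e₁ ^ j₁ * l₀ ^ j₂ * (e₁ ^ j₁)⁻¹ =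
            (e₁ * l₀ * e₁⁻¹ * l₀⁻¹) ^ (j₁ * j₂) * l₀ ^ j₂ := by
          rw [← conj_pow, h4, (hcomm'.pow_left j₁).mul_pow, ← pow_mul]
        rw [h5]; group
      have hay : a * y * a⁻¹ = y ^ (j₁ * j₂) := by
        rw [hyt, ← conj_pow, haz, ← pow_mul, ← pow_mul, mul_comm]
      have h6 : y ^ j₃ * (y ^ (j₁ * j₂))⁻¹ ∈ (⊥ : Subgroup G) := by
        rw [Subgroup.mem_bot, ← hya, hay]; group
      have := rt_pow_mod (⊥ : Subgroup G) (t := y) (by rw [Subgroup.mem_bot]; exact hy1)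
        (by rw [Subgroup.mem_bot]; exact hyp) h6
      simpa using this
    · left
      obtain ⟨t, zy, hzy, hyt⟩ := hLgen y hyL
      have h1 := rt_pow_action S ha hl₀E hz₂ hal₀ t zy hzy
      rw [← hyt, hya] at h1
      exact rt_pow_mod Z hyZ (by rw [hyp]; exact Z.one_mem) h1
  -- arithmetic
  have hJ1 : (j₁ : ZMod p) = 1 := by
    rcases hcase with h | h
    · rw [hR1] at h
      have h0 : ((j₁ : ZMod p) - 1) * (j₃ : ZMod p) = 0 := by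
        rw [sub_mul, one_mul, ← h, sub_self]
      rcases mul_eq_zero.mp h0 with h' | h'
      · exact sub_eq_zero.mp h'
      · exact absurd h' hJ3
    · rw [hR1] at h
      have h0 : ((j₁ : ZMod p) ^ 2 - 1) * (j₃ : ZMod p) = 0 := by
        rw [sub_mul, one_mul, pow_two, mul_assoc, ← h, sub_self]
      rcases mul_eq_zero.mp h0 with h' | h'
      · have hsq : (j₁ : ZMod p) ^ 2 = 1 := sub_eq_zero.mp h'
        have h00 : ((j₁ : ZMod p) - 1) * ((j₁ : ZMod p) + 1) = 0 := by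
          have : ((j₁ : ZMod p) - 1) * ((j₁ : ZMod p) + 1) = (j₁ : ZMod p) ^ 2 - 1 := by ring
          rw [this, hsq, sub_self]
        rcases mul_eq_zero.mp h00 with h1 | h1
        · exact sub_eq_zero.mp h1
        · exfalso
          have hneg : (j₁ : ZMod p) = -1 := eq_neg_of_add_eq_zero_left h1
          rw [hneg, haodd.neg_one_pow] at hJ1n
          have h2 : ((2 : ℕ) : ZMod p) = 0 := by
            have : (2 : ZMod p) = 1 - (-1) := by ring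
            push_cast
            rw [this, hJ1n, sub_self]
          rw [ZMod.natCast_eq_zero_iff] at h2
          have := Nat.le_of_dvd (by norm_num) h2
          omega
      · exact absurd h' hJ3
  have hmod : j₁ ≡ 1 [MOD p] := by
    rw [← ZMod.natCast_eq_natCast_iff]; simpa using hJ1
  have hpow : e₁ ^ j₁ = e₁ := rt_pow_eq_of_modEq_one (S.hEexp e₁ B.he₁) hmod
  rw [hpow] at hae₁
  rw [hae₁]
  have e : e₁ * l₁ * e₁⁻¹ = e₁ * l₁ * e₁⁻¹ := rfl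
  exact B.hLnorm e₁ (hRn (S.hER B.he₁)) l₁ hl₁

/-- With `E = Ω₁(R)` nonabelian of order `p ^ 3` and `R = [R, A]` for a `p'`-group `A` of odd
order, `R` centralizes `E / Z(E)`. -/
theorem rt_le_K [Finite G] {p : ℕ} [Fact p.Prime] (hp3 : 3 < p) {R E Z : Subgroup G}
    (S : RTSetup p R E Z) (A : Subgroup G) (hA : A ≤ Subgroup.normalizer (R : Set G))
    (hcop : (Nat.card A).Coprime p) (hAodd : Odd (Nat.card A)) (hRA : ⁅R, A⁆ = R) :
    ∀ x ∈ R, ∀ e ∈ E, e * x * e⁻¹ * x⁻¹ ∈ Z := by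
  have hRZ : ∀ y ∈ R, ∀ z ∈ Z, y * z * y⁻¹ ∈ Z := fun y hy z hz => by
    rw [S.hZcR y hy z hz]; simpa using hz
  have hEZ' : ∀ y ∈ E, ∀ z ∈ Z, y * z * y⁻¹ ∈ Z := fun y hy z hz => hRZ y (S.hER hy) z hz
  obtain ⟨K, hK⟩ : ∃ K : Subgroup G, ∀ y, y ∈ K ↔ y ∈ R ∧ ∀ e ∈ E, e * y * e⁻¹ * y⁻¹ ∈ Z :=
    ⟨rtCent E R Z hRZ, fun y => Iff.rfl⟩
  obtain ⟨L, hL⟩ : ∃ L : Subgroup G, ∀ y, y ∈ L ↔ y ∈ E ∧ ∀ x ∈ R, x * y * x⁻¹ * y⁻¹ ∈ Z :=
    ⟨rtCent R E Z hEZ', fun y => Iff.rfl⟩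
  by_contra hcon
  have hbad : ¬ R ≤ K := by
    intro h
    apply hcon
    intro x hx e he
    exact ((hK x).mp (h hx)).2 e he
  obtain ⟨e₁, B⟩ := rt_bad S K L hK hL hbad
  obtain ⟨M, hMdef⟩ : ∃ M : Subgroup G, M = R ⊓ Subgroup.centralizer (L : Set G) := ⟨_, rfl⟩
  rw [← hMdef] at B
  have hkey : ∀ a ∈ A, (∃ m ∈ M, m * a * m⁻¹ * a⁻¹ ∉ K) → a * e₁ * a⁻¹ * e₁⁻¹ ∈ L := by
    rintro a haA ⟨m, hm, hma⟩
    have hdvd : orderOf a ∣ Nat.card A := Subgroup.orderOf_dvd_natCard _ haA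
    exact rt_centralizes_of_moves hp3 S B a (hA haA) (Nat.Coprime.coprime_dvd_left hdvd hcop)
      (hAodd.of_dvd_nat hdvd) m hm hma
  have h2 : ∃ a ∈ A, a * e₁ * a⁻¹ * e₁⁻¹ ∉ L := by
    by_contra hno
    push Not at hno
    have hle : ⁅R, A⁆ ≤ M := by
      rw [Subgroup.commutator_le]
      intro r hr a haA
      rw [commutatorElement_def]
      obtain ⟨e, he, m, hm, rfl⟩ := B.exists_mul S r hr
      have haN := hA haA
      have h1 : m * a * m⁻¹ * a⁻¹ ∈ M := by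
        have := B.hMnorm a haN m⁻¹ (M.inv_mem hm)
        have e' : m * a * m⁻¹ * a⁻¹ = m * (a * m⁻¹ * a⁻¹) := by group
        rw [e']; exact M.mul_mem hm this
      have h2 : e * a * e⁻¹ * a⁻¹ ∈ M := by
        have h3 := B.conj_mem_of_e₁ S haN (hno a haA) e he
        have e' : e * a * e⁻¹ * a⁻¹ = (a * e * a⁻¹ * e⁻¹)⁻¹ := by group
        rw [e']; exact B.hLM S (L.inv_mem h3)
      have e' : e * m * a * (e * m)⁻¹ * a⁻¹ =
          e * (m * a * m⁻¹ * a⁻¹) * e⁻¹ * (e * a * e⁻¹ * a⁻¹) := by group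
      rw [e']
      exact M.mul_mem (B.hMnorm e (Subgroup.le_normalizer (S.hER he)) _ h1) h2
    rw [hRA] at hle
    exact B.e₁_not_mem_M (hle (S.hER B.he₁))
  have h3 : ∃ a ∈ A, ∃ m ∈ M, m * a * m⁻¹ * a⁻¹ ∉ K := by
    by_contra hno
    push Not at hno
    have hle : ⁅R, A⁆ ≤ K := by
      rw [Subgroup.commutator_le]
      intro r hr a haA
      rw [commutatorElement_def]
      obtain ⟨e, he, m, hm, rfl⟩ := B.exists_mul S r hr
      have haN := hA haA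
      have h1 : m * a * m⁻¹ * a⁻¹ ∈ K := hno a haA m hm
      have h2 : e * a * e⁻¹ * a⁻¹ ∈ K := by
        have e' : e * a * e⁻¹ * a⁻¹ = e * (a * e⁻¹ * a⁻¹) := by group
        rw [e']
        exact B.hEK (E.mul_mem he (S.hEnorm a haN _ (E.inv_mem he)))
      have e' : e * m * a * (e * m)⁻¹ * a⁻¹ =
          e * (m * a * m⁻¹ * a⁻¹) * e⁻¹ * (e * a * e⁻¹ * a⁻¹) := by group
      rw [e']
      exact K.mul_mem (B.hKnorm e (Subgroup.le_normalizer (S.hER he)) _ h1) h2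
    rw [hRA] at hle
    exact hbad hle
  obtain ⟨a, haA, ha2⟩ := h2
  obtain ⟨b, hbA, m, hm, hb3⟩ := h3
  have ha3 : ∀ m ∈ M, m * a * m⁻¹ * a⁻¹ ∈ K := by
    by_contra hno
    push Not at hno
    obtain ⟨m', hm', h⟩ := hno
    exact ha2 (hkey a haA ⟨m', hm', h⟩)
  have hb2 : b * e₁ * b⁻¹ * e₁⁻¹ ∈ L := hkey b hbA ⟨m, hm, hb3⟩
  have hab3 : ∃ m ∈ M, m * (a * b) * m⁻¹ * (a * b)⁻¹ ∉ K := by
    refine ⟨m, hm, fun h => hb3 ?_⟩
    have e' : m * b * m⁻¹ * b⁻¹ =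
        a⁻¹ * ((m * a * m⁻¹ * a⁻¹)⁻¹ * (m * (a * b) * m⁻¹ * (a * b)⁻¹)) * a⁻¹⁻¹ := by group
    rw [e']
    exact B.hKnorm a⁻¹ (Subgroup.inv_mem _ (hA haA)) _ (K.mul_mem (K.inv_mem (ha3 m hm)) h)
  have hab2 : (a * b) * e₁ * (a * b)⁻¹ * e₁⁻¹ ∈ L := hkey (a * b) (A.mul_mem haA hbA) hab3
  apply ha2
  have e' : a * e₁ * a⁻¹ * e₁⁻¹ =
      (a * (b * e₁ * b⁻¹ * e₁⁻¹) * a⁻¹)⁻¹ * ((a * b) * e₁ * (a * b)⁻¹ * e₁⁻¹) := by group
  rw [e']
  exact L.mul_mem (L.inv_mem (B.hLnorm a (hA haA) _ hb2)) hab2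

end Gsub

/-- A rank-two `p`-group `R = [R, A]` with `A` an odd-order `p'`-group of operators: `p > 3`
and `R` is abelian or the central product of an extraspecial group of order `p ^ 3` and
exponent `p` with a cyclic group. -/
theorem rt_main {G : Type*} [Group G] [Finite G] (p : ℕ) [Fact p.Prime] (hp : p ≠ 2)
    (R A : Subgroup G) (hR : IsPGroup p R) (hR1 : R ≠ ⊥) (hr : Cfsg.PRankLE p 2 R)
    (hA : A ≤ Subgroup.normalizer (R : Set G)) (hcop : (Nat.card A).Coprime p)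
    (hAodd : Odd (Nat.card A)) (hRA : ⁅R, A⁆ = R) :
    3 < p ∧ (IsMulCommutative R ∨ ∃ R₁ R₂ : Subgroup G, R₁ ⊔ R₂ = R ∧
      (∀ a ∈ R₁, ∀ b ∈ R₂, a * b = b * a) ∧ ¬ IsMulCommutative R₁ ∧ Nat.card R₁ = p ^ 3 ∧
      Monoid.exponent R₁ = p ∧ IsCyclic R₂ ∧
      Subgroup.closure {x : G | x ∈ R₂ ∧ x ^ p = 1} = ⁅R₁, R₁⁆) := by
  have hpp : p.Prime := Fact.out
  have hp3 : 3 < p := by
    by_contra hle
    have hp3' : p = 3 := by
      have := hpp.two_le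
      omega
    have hX := card_autImage_dvd R A hA
    by_cases hX1 : Nat.card (autImage R A) = 1
    · have hbot : autImage R A = ⊥ := Subgroup.card_eq_one.mp hX1
      have hne : (⊥ : Subgroup R) ≠ ⊤ := by
        intro h
        apply hR1
        rw [eq_bot_iff]
        intro x hx
        have : (⟨x, hx⟩ : R) ∈ (⊥ : Subgroup R) := by rw [h]; trivial
        rw [Subgroup.mem_bot] at this ⊢
        exact congrArg Subtype.val this
      refine commutator_ne_of_proper R A hA ⊥ hne ?_ hRA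
      intro φ hφ s
      rw [hbot, Subgroup.mem_bot] at hφ
      rw [hφ, Subgroup.mem_bot]; simp
    · obtain ⟨q, hq, hqX⟩ := Nat.exists_prime_and_dvd hX1
      have hqA : q ∣ Nat.card A := hqX.trans hX
      have hqp : q ≠ p := by
        rintro rfl
        have := Nat.Coprime.eq_one_of_dvd hcop.symm hqA
        exact hq.one_lt.ne' this
      have hqAut : q ∣ Nat.card (MulAut R) := hqX.trans (Subgroup.card_subgroup_dvd_card _)
      obtain ⟨-, hlt⟩ := Cfsg.Agent.S0640.result hp hR hr q hq hqp hqAut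
      have hq2 : q = 2 := by have := hq.two_le; omega
      rw [hq2] at hqA
      exact (Nat.not_even_iff_odd.mpr hAodd) (even_iff_two_dvd.mpr hqA)
  refine ⟨hp3, ?_⟩
  have hrk' : ∀ E' : Subgroup R, Cfsg.IsElementaryAbelian p E' → Nat.card E' ≤ p ^ 2 :=
    fun E' h => hr E' h.1 h.2
  obtain ⟨E, hEmem'⟩ : ∃ E : Subgroup G, ∀ x, x ∈ E ↔ x ∈ R ∧ x ^ p = 1 := by
    refine ⟨{ carrier := {x | x ∈ R ∧ x ^ p = 1}
              mul_mem' := ?_
              one_mem' := ⟨R.one_mem, one_pow p⟩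
              inv_mem' := ?_ }, fun x => Iff.rfl⟩
    · rintro a b ⟨ha, hap⟩ ⟨hb, hbp⟩
      refine ⟨R.mul_mem ha hb, ?_⟩
      have h := Cfsg.Agent.S0128.result hp3 hR hrk' ((⟨a, ha⟩ : R) * ⟨b, hb⟩)
        (Subgroup.mul_mem _
          (Subgroup.subset_closure (show (⟨a, ha⟩ : R) ^ p = 1 from Subtype.ext hap))
          (Subgroup.subset_closure (show (⟨b, hb⟩ : R) ^ p = 1 from Subtype.ext hbp)))
      exact congrArg Subtype.val h
    · rintro a ⟨ha, hap⟩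
      exact ⟨R.inv_mem ha, by rw [inv_pow, hap, inv_one]⟩
  have hER : E ≤ R := fun x hx => ((hEmem' x).mp hx).1
  have hEmem : ∀ x ∈ R, x ^ p = 1 → x ∈ E := fun x hx h => (hEmem' x).mpr ⟨hx, h⟩
  have hEexp : ∀ x ∈ E, x ^ p = 1 := fun x hx => ((hEmem' x).mp hx).2
  have hr' : ∀ B : Subgroup G, B ≤ R → (∀ a ∈ B, ∀ b ∈ B, a * b = b * a) →
      (∀ a ∈ B, a ^ p = 1) → Nat.card B ≤ p ^ 2 := by
    intro B hBR hBc hBe
    have h1 := hr (B.subgroupOf R)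
      ⟨⟨fun a b => Subtype.ext (Subtype.ext (hBc a.1 a.2 b.1 b.2))⟩⟩
      (fun a ha => Subtype.ext (by simpa using hBe a ha))
    rwa [Nat.card_congr (Subgroup.subgroupOfEquivOfLe hBR).toEquiv] at h1
  have hEp : IsPGroup p E := hR.to_le hER
  have hEcard3 : Nat.card E ≤ p ^ 3 := by
    apply Cfsg.Agent.H3.card_le_cube_of_exponent_of_rank_two hEp
    intro A' hA'
    have h1 := hr' (A'.map E.subtype) (by rintro _ ⟨a, -, rfl⟩; exact hER a.2)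
      (by rintro _ ⟨a, ha, rfl⟩ _ ⟨b, hb, rfl⟩; exact congrArg Subtype.val (hA' a ha b hb))
      (by rintro _ ⟨a, -, rfl⟩; exact hEexp a a.2)
    rwa [Subgroup.card_subtype] at h1
  by_cases hE2 : Nat.card E ≤ p ^ 2
  · left
    have hRm : Cfsg.IsMetacyclic R := by
      apply Cfsg.Agent.S0639.result hp3 hR
      have hle : Cfsg.omegaOne p (⊤ : Subgroup R) ≤ E.subgroupOf R := by
        unfold Cfsg.omegaOne
        rw [Subgroup.closure_le]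
        rintro x ⟨-, hx⟩
        show (x : G) ∈ E
        exact hEmem _ x.2 (by simpa using congrArg Subtype.val hx)
      calc Nat.card (Cfsg.omegaOne p (⊤ : Subgroup R)) ≤ Nat.card (E.subgroupOf R) :=
            Subgroup.card_le_of_le hle
        _ = Nat.card E := Nat.card_congr (Subgroup.subgroupOfEquivOfLe hER).toEquiv
        _ ≤ p ^ 2 := hE2
    exact ⟨⟨comm_of_commutator_eq hp R A hR hRm hA hcop hRA⟩⟩
  · right
    push Not at hE2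
    obtain ⟨i, hi⟩ := IsPGroup.iff_card.mp hEp
    have hEcard : Nat.card E = p ^ 3 := by
      rw [hi] at hE2 hEcard3
      have h1 : 2 < i := (Nat.pow_lt_pow_iff_right hpp.one_lt).mp hE2
      have h2 : i ≤ 3 := (Nat.pow_le_pow_iff_right hpp.one_lt).mp hEcard3
      have : i = 3 := by omega
      rw [hi, this]
    have hna : ∃ a ∈ E, ∃ b ∈ E, a * b ≠ b * a := by
      by_contra hno
      push Not at hno
      have := hr' E hER hno hEexp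
      omega
    have S := rt_setup R E hR hER hEmem hEexp hEcard hna
    obtain ⟨Z, hZdef⟩ : ∃ Z : Subgroup G, Z = E ⊓ Subgroup.centralizer (E : Set G) := ⟨_, rfl⟩
    rw [← hZdef] at S
    have hKR := rt_le_K hp3 S A hA hcop hAodd hRA
    obtain ⟨C, hCdef⟩ : ∃ C : Subgroup G, C = R ⊓ Subgroup.centralizer (E : Set G) := ⟨_, rfl⟩
    have hCR : C ≤ R := by rw [hCdef]; exact inf_le_left
    have hZC : Z ≤ C := by
      rw [hZdef, hCdef]; exact inf_le_inf_right _ hER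
    have hCset : {x : G | x ∈ C ∧ x ^ p = 1} = (Z : Set G) := by
      ext x
      constructor
      · rintro ⟨hxC, hxp⟩
        rw [hCdef] at hxC
        rw [SetLike.mem_coe, hZdef]
        exact Subgroup.mem_inf.mpr
          ⟨hEmem x (Subgroup.mem_inf.mp hxC).1 hxp, (Subgroup.mem_inf.mp hxC).2⟩
      · intro hx
        exact ⟨hZC hx, hEexp x (S.hZE hx)⟩
    refine ⟨E, C, ?_, ?_, ?_, hEcard, ?_, ?_, ?_⟩
    · apply le_antisymm (sup_le hER hCR)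
      intro x hx
      obtain ⟨E', hE'def⟩ : ∃ E' : Subgroup R, E' = E.subgroupOf R := ⟨_, rfl⟩
      have hE'mem : ∀ y : R, y ∈ E' ↔ (y : G) ∈ E := fun y => by
        rw [hE'def]; exact Subgroup.mem_subgroupOf
      have hE'card : Nat.card E' = p ^ 3 := by
        rw [hE'def, Nat.card_congr (Subgroup.subgroupOfEquivOfLe hER).toEquiv, hEcard]
      have hE'na : ∃ a ∈ E', ∃ b ∈ E', a * b ≠ b * a := by
        obtain ⟨a, ha, b, hb, hab⟩ := hna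
        refine ⟨⟨a, hER ha⟩, (hE'mem _).mpr ha, ⟨b, hER hb⟩, (hE'mem _).mpr hb, ?_⟩
        intro h
        exact hab (congrArg Subtype.val h)
      have hcen := rt_center_card_type E' hE'card hE'na
      have hcomm : ⁅(⊤ : Subgroup R), E'⁆ ≤ E' ⊓ Subgroup.centralizer (E' : Set R) := by
        rw [Subgroup.commutator_le]
        intro y _ e he
        have heE : (e : G) ∈ E := (hE'mem e).mp he
        have h1 : ((⁅y, e⁆ : R) : G) ∈ Z := by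
          have h2 := hKR y y.2 e heE
          have e' : ((⁅y, e⁆ : R) : G) = ((e : G) * y * (e : G)⁻¹ * (y : G)⁻¹)⁻¹ := by
            rw [commutatorElement_def]; push_cast; group
          rw [e']; exact Z.inv_mem h2
        rw [hZdef] at h1
        refine Subgroup.mem_inf.mpr ⟨(hE'mem _).mpr (Subgroup.mem_inf.mp h1).1, ?_⟩
        rw [Subgroup.mem_centralizer_iff]
        intro h hh
        apply Subtype.ext
        push_cast
        exact Subgroup.mem_centralizer_iff.mp (Subgroup.mem_inf.mp h1).2 _ ((hE'mem h).mp hh)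
      have htop := Cfsg.Agent.H3.extraspecial_sup_centralizer hR E' hcen hcomm
      have hxtop : (⟨x, hx⟩ : R) ∈ E' ⊔ Subgroup.centralizer (E' : Set R) := by
        rw [htop]; trivial
      have hmap : (E' ⊔ Subgroup.centralizer (E' : Set R)).map R.subtype ≤ E ⊔ C := by
        rw [Subgroup.map_sup]
        apply sup_le_sup
        · rintro _ ⟨y, hy, rfl⟩
          exact (hE'mem y).mp hy
        · rintro _ ⟨y, hy, rfl⟩
          rw [hCdef]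
          refine Subgroup.mem_inf.mpr ⟨y.2, ?_⟩
          rw [Subgroup.mem_centralizer_iff]
          intro e he
          have := Subgroup.mem_centralizer_iff.mp hy ⟨e, hER he⟩ ((hE'mem _).mpr he)
          exact congrArg Subtype.val this
      exact hmap (Subgroup.mem_map_of_mem R.subtype hxtop)
    · intro a ha b hb
      rw [hCdef] at hb
      exact Subgroup.mem_centralizer_iff.mp (Subgroup.mem_inf.mp hb).2 a ha
    · intro hcm
      obtain ⟨a, ha, b, hb, hab⟩ := hna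
      exact hab (congrArg Subtype.val (mul_comm' (⟨a, ha⟩ : E) ⟨b, hb⟩))
    · have hdvd : Monoid.exponent E ∣ p := Monoid.exponent_dvd_of_forall_pow_eq_one
        (fun g => Subtype.ext (by simpa using hEexp g g.2))
      rcases (Nat.dvd_prime hpp).mp hdvd with h1 | h1
      · exfalso
        have hsub : Subsingleton E := Monoid.exp_eq_one_iff.mp h1
        have h2 : Nat.card E ≤ 1 := Finite.card_le_one_iff_subsingleton.mpr hsub
        rw [hEcard] at h2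
        have h3 : 1 < p ^ 3 := Nat.one_lt_pow (by norm_num) hpp.one_lt
        omega
      · exact h1
    · by_contra hnc
      have hCp : IsPGroup p C := hR.to_le hCR
      have hCm : Cfsg.IsMetacyclic C := by
        apply Cfsg.Agent.S0639.result hp3 hCp
        have hle : Cfsg.omegaOne p (⊤ : Subgroup C) ≤ Z.subgroupOf C := by
          unfold Cfsg.omegaOne
          rw [Subgroup.closure_le]
          rintro x ⟨-, hx⟩
          show (x : G) ∈ Z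
          have : (x : G) ∈ {x : G | x ∈ C ∧ x ^ p = 1} :=
            ⟨x.2, by simpa using congrArg Subtype.val hx⟩
          rw [hCset] at this
          exact this
        calc Nat.card (Cfsg.omegaOne p (⊤ : Subgroup C)) ≤ Nat.card (Z.subgroupOf C) :=
              Subgroup.card_le_of_le hle
          _ = Nat.card Z := Nat.card_congr (Subgroup.subgroupOfEquivOfLe hZC).toEquiv
          _ = p := S.hZcard
          _ ≤ p ^ 2 := by nlinarith [hpp.one_lt]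
      have h1 := ncard_pow_eq_one_of_not_cyclic hp C hCp hCm hnc
      rw [hCset] at h1
      have h2 : (Z : Set G).ncard = p := by
        rw [← S.hZcard]; exact (Nat.card_coe_set_eq (Z : Set G)).symm
      rw [h2] at h1
      have := hpp.one_lt
      nlinarith
    · rw [hCset, Subgroup.closure_eq]
      symm
      have hle : ⁅E, E⁆ ≤ Z := by
        rw [Subgroup.commutator_le]
        intro a ha b hb
        rw [commutatorElement_def]
        exact S.hEZ a ha b hb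
      apply Subgroup.eq_of_le_of_card_ge hle
      rw [S.hZcard]
      have hdvd : Nat.card (⁅E, E⁆ : Subgroup G) ∣ p := by
        rw [← S.hZcard]; exact Subgroup.card_dvd_of_le hle
      rcases (Nat.dvd_prime hpp).mp hdvd with h1 | h1
      · exfalso
        have hbot : ⁅E, E⁆ = ⊥ := Subgroup.card_eq_one.mp h1
        obtain ⟨a, ha, b, hb, hab⟩ := hna
        have : ⁅a, b⁆ ∈ (⊥ : Subgroup G) := by
          rw [← hbot]; exact Subgroup.commutator_mem_commutator ha hb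
        rw [Subgroup.mem_bot, commutatorElement_eq_one_iff_mul_comm] at this
        exact hab this
      · exact h1.ge

end Cfsg.Agent.H15
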