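import Mathlib
import Cfsg.Agent.Lib.Helper30.BG134Defs
import Cfsg.Agent.H92.BG123
import Cfsg.Agent.H58.BG10FG
import Cfsg.Agent.H57.BG126
import Cfsg.Agent.H31.BG8b
import Cfsg.Agent.H58.Sig2
import Cfsg.Agent.Lib.Helper30.Trans
import Cfsg.Agent.Lib.Helper30.PiCore

set_option autoImplicit false

/-!
# B&G Theorem 13.4 (S1428, helper30's project BG134), piece B3B

In a configuration with `q ∈ σ(H)`, `r ∈ τ₁(H)` and `H` the only maximal subgroup over `C_H(Q1)`: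
`r ∈ τ₁(M)`, `M_α ≠ 1`, `C_M(Q1) ≤ H` and `M_α ∩ H ≤ C(Q1)`.
-/

namespace Cfsg.Agent.H15.BG134

open Cfsg Subgroup Cfsg.Agent.H58.BG10 Cfsg.Agent.H57.BG12 Cfsg.Agent.H76.BG12
  Cfsg.Agent.H47.BG12 Cfsg.Agent.Lib.Helper30.BG134 Cfsg.Agent.H63.Sig
open scoped Pointwise commutatorElement

universe u

variable {G : Type u} [Group G]

/-- `M` normalizes `M_α`, elementwise. -/
theorem conj_mem_alphaCore {M : Subgroup G} {m x : G} (hm : m ∈ M) (hx : x ∈ alphaCore M) :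
    m * x * m⁻¹ ∈ alphaCore M :=
  ((Subgroup.mem_normalizer_iff.mp
    (Cfsg.Agent.Lib.Helper30.le_normalizer_piCoreOf (alpha M) M hm)) x).mp hx

/-- If `M = N K` with `N` normalized by `M`, then `M' ≤ N K'`. -/
theorem commutator_le_sup {N K M : Subgroup G} (hKM : K ≤ M)
    (hconj : ∀ m ∈ M, ∀ x ∈ N, m * x * m⁻¹ ∈ N)
    (hprod : ∀ m ∈ M, ∃ a ∈ N, ∃ n ∈ K, m = a * n) : ⁅M, M⁆ ≤ N ⊔ ⁅K, K⁆ := by
  rw [Subgroup.commutator_le]
  intro g₁ hg₁ g₂ hg₂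
  obtain ⟨a₁, ha₁, k₁, hk₁, rfl⟩ := hprod g₁ hg₁
  obtain ⟨a₂, ha₂, k₂, hk₂, rfl⟩ := hprod g₂ hg₂
  have hk₁M := hKM hk₁
  have hk₂M := hKM hk₂
  have e : ⁅a₁ * k₁, a₂ * k₂⁆ = (a₁ * (k₁ * a₂ * k₁⁻¹) *
      ((k₁ * k₂ * k₁⁻¹) * a₁⁻¹ * (k₁ * k₂ * k₁⁻¹)⁻¹) *
      ((k₁ * k₂ * k₁⁻¹ * k₂⁻¹) * a₂⁻¹ * (k₁ * k₂ * k₁⁻¹ * k₂⁻¹)⁻¹)) * ⁅k₁, k₂⁆ := by
    rw [commutatorElement_def, commutatorElement_def]; group
  rw [e]
  refine mul_mem (Subgroup.mem_sup_left ?_)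
    (Subgroup.mem_sup_right (Subgroup.commutator_mem_commutator hk₁ hk₂))
  refine mul_mem (mul_mem (mul_mem ha₁ (hconj _ hk₁M _ ha₂)) (hconj _ ?_ _ (inv_mem ha₁)))
    (hconj _ ?_ _ (inv_mem ha₂))
  · exact mul_mem (mul_mem hk₁M hk₂M) (inv_mem hk₁M)
  · exact mul_mem (mul_mem (mul_mem hk₁M hk₂M) (inv_mem hk₁M)) (inv_mem hk₂M)

/-- A Sylow `q`-subgroup `S` of `H`, `q ∈ σ(H)`, is a Sylow subgroup of `G` with `N_G(S) ≤ H`. -/
theorem sylow_facts [Finite G] {H S : Subgroup G} {q : ℕ} [Fact q.Prime] (hq : q ∈ sigma H)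
    (hSq : IsPGroup q S) (hSH : S ≤ H) (hidx : ¬ q ∣ S.relIndex H) :
    normalizer (S : Set G) ≤ H ∧ ¬ q ∣ S.index := by
  have hq' := hq
  obtain ⟨_, _, P0, hN⟩ := hq
  obtain ⟨T0, hT0⟩ := Cfsg.Agent.H31.BG8.sylow_of_normalizer_le P0 hN
  have hS' : IsPGroup q (S.subgroupOf H) := hSq.comap_subtype
  obtain ⟨T, hT⟩ : ∃ T : Sylow q H, (T : Subgroup H) = S.subgroupOf H :=
    ⟨hS'.toSylow hidx, IsPGroup.toSylow_coe hS' hidx⟩
  have hcard : Nat.card S = Nat.card (T0 : Subgroup G) := by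
    have h1 : Nat.card (T : Subgroup H) = Nat.card (P0 : Subgroup H) := by
      rw [Sylow.card_eq_multiplicity, Sylow.card_eq_multiplicity]
    have h2 : Nat.card (S.subgroupOf H) = Nat.card S :=
      Nat.card_congr (Subgroup.subgroupOfEquivOfLe hSH).toEquiv
    have h3 : Nat.card (T0 : Subgroup G) = Nat.card (P0 : Subgroup H) := by
      rw [hT0, Subgroup.card_map_of_injective H.subtype_injective]
    rw [← h2, h3, ← hT]
    exact h1
  have hidxG : ¬ q ∣ S.index := by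
    have e1 := Subgroup.index_mul_card S
    have e2 := Subgroup.index_mul_card (T0 : Subgroup G)
    have hpos : 0 < Nat.card (T0 : Subgroup G) := Nat.card_pos
    have e3 : S.index = (T0 : Subgroup G).index := by
      rw [hcard] at e1
      exact Nat.eq_of_mul_eq_mul_right hpos (e1.trans e2.symm)
    rw [e3]
    exact T0.not_dvd_index
  obtain ⟨TS, hTS⟩ : ∃ TS : Sylow q G, (TS : Subgroup G) = S :=
    ⟨hSq.toSylow hidxG, IsPGroup.toSylow_coe hSq hidxG⟩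
  have h4 := Cfsg.Agent.H76.BG12.normalizer_le_of_sigma hq' TS (by rw [hTS]; exact hSH)
  rw [hTS] at h4
  exact ⟨h4, hidxG⟩

theorem b3b [Finite G] (hG : IsMinSimpleOddOrder G) (h03 : St1403 G) (h05 : St1405 G)
    (h50 : St1350 G) (hSC : StSigComm G) (h24 : St1424 G) (hD1 : StEmbD1 G)
    (hHA : StHallAlpha G) (hAF : StAlphaFrat G) : StB3b G := by
  intro M E H P R Q1 p r q cfg hqH hrH huniq
  have hM := cfg.hM
  have hH := cfg.hH
  have : Fact q.Prime := ⟨cfg.hq⟩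
  have : Fact r.Prime := ⟨cfg.hr⟩
  have hHM : H ≠ M := fun h => cfg.hnc 1 (by rw [map_conj_eq_smul, cj_one]; exact h)
  have hQ1M : Q1 ≤ M := cfg.hQ1M.trans (sigmaCore_le_self M)
  have hQ1top : Q1 ≠ ⊤ := fun h => hH.1 (top_le_iff.mp (h ▸ cfg.hQ1H))
  -- `N_G(Q1) ≤ H`
  have hNQ1 : normalizer (Q1 : Set G) ≤ H := by
    have hne := Cfsg.Agent.Lib.Helper30.minSimple_normalizer_ne_top hG cfg.hQ1 hQ1top
    obtain ⟨L, hL, hNL⟩ := exists_coatom_ge hne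
    have := huniq L hL (inf_le_right.trans ((centralizer_le_normalizer _).trans hNL))
    rw [← this]; exact hNL
  have hC : M ⊓ centralizer (Q1 : Set G) ≤ H :=
    inf_le_right.trans ((centralizer_le_normalizer _).trans hNQ1)
  -- the Sylow `q`-subgroup `S'` of `M ∩ H` containing `Q1`
  have hQ1MH : Q1 ≤ M ⊓ H := le_inf hQ1M cfg.hQ1H
  obtain ⟨S, hS⟩ := exists_sylow_map_ge cfg.hQ1q hQ1MH
  obtain ⟨S', hS'def⟩ : ∃ S' : Subgroup G,
      S' = (S : Subgroup ↥(M ⊓ H)).map (M ⊓ H).subtype := ⟨_, rfl⟩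
  obtain ⟨-, hNS'M, hidxH⟩ :=
    h24 M hM q cfg.hqM Q1 cfg.hQ1q cfg.hQ1 hQ1M H hH hHM hNQ1 S hS
  rw [← hS'def] at hS hNS'M hidxH
  have hS'q : IsPGroup q S' := by rw [hS'def]; exact S.isPGroup'.map _
  have hS'MH : S' ≤ M ⊓ H := by rw [hS'def]; exact Subgroup.map_subtype_le _
  have hS'M : S' ≤ M := hS'MH.trans inf_le_left
  have hS'H : S' ≤ H := hS'MH.trans inf_le_right
  obtain ⟨hNS'H, hidxG⟩ := sylow_facts hqH hS'q hS'H hidxH
  have hidxM : ¬ q ∣ S'.relIndex M := fun h =>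
    hidxG (h.trans (Dvd.intro _ (Subgroup.relIndex_mul_index hS'M)))
  -- `M = M_α (H ∩ M)`
  have hprod : ∀ m ∈ M, ∃ a ∈ alphaCore M, ∃ n ∈ H ⊓ M, m = a * n :=
    hD1 H M hM q cfg.hqM S' hS'q hS'M hidxM hNS'H
  have hα : alphaCore M ≠ ⊥ := by
    intro h0
    apply hHM
    have hMH : M ≤ H := by
      intro m hm
      obtain ⟨a, ha, n, hn, rfl⟩ := hprod m hm
      rw [h0, Subgroup.mem_bot] at ha
      rw [ha, one_mul]; exact hn.1
    exact (hM.le_iff.mp hMH).resolve_left hH.1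
  -- primes
  have hαM : ∀ t, t ∈ alpha M → t ∈ sigma M := fun t ht => alpha_subset_sigma hG h03 hM ht
  have hrαM : r ∉ alpha M := fun h => cfg.hrM (hαM r h)
  have hqαM : q ∉ alpha M := by
    intro h
    obtain ⟨g, hg⟩ := Cfsg.Agent.H92.BG12.conj_of_alpha_sigma hG h03 hM hH h hqH
    apply cfg.hnc g⁻¹
    rw [map_conj_eq_smul, hg, cj_inv_cj]
  have hαdisj : ∀ t, t ∈ alpha M → t ∉ alpha H := by
    intro t htM htH
    obtain ⟨g, hg⟩ := Cfsg.Agent.H92.BG12.conj_of_alpha_sigma hG h03 hH hM htH (hαM t htM)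
    exact cfg.hnc g hg
  have hαcardM : ∀ t : ℕ, t.Prime → t ∣ Nat.card (alphaCore M) → t ∈ alpha M :=
    (h05 M hM).1.2.1
  have hαcardH : ∀ t : ℕ, t.Prime → t ∣ Nat.card (alphaCore H) → t ∈ alpha H :=
    (h05 H hH).1.2.1
  -- `r ∈ τ₁(M)`
  have hRM : R ≤ M := cfg.hRE.trans cfg.hE.1
  have hrdvd : r ∣ Nat.card M := cfg.hR ▸ Subgroup.card_dvd_of_le hRM
  have hder : ¬ r ∣ Nat.card ↥⁅M, M⁆ := by
    intro hdvd
    have h1 : ⁅M, M⁆ ≤ alphaCore M ⊔ ⁅H ⊓ M, H ⊓ M⁆ :=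
      commutator_le_sup inf_le_right (fun m hm x hx => conj_mem_alphaCore hm hx) hprod
    have h2 : r ∣ Nat.card ↥(alphaCore M ⊔ ⁅H ⊓ M, H ⊓ M⁆) :=
      hdvd.trans (Subgroup.card_dvd_of_le h1)
    have hnorm : ⁅H ⊓ M, H ⊓ M⁆ ≤ normalizer (alphaCore M : Set G) :=
      ((Subgroup.commutator_le_self (H ⊓ M)).trans inf_le_right).trans
        (Cfsg.Agent.Lib.Helper30.le_normalizer_piCoreOf (alpha M) M)
    have h3 := h2.trans (Cfsg.Agent.H58.card_sup_dvd hnorm)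
    rcases (Nat.Prime.dvd_mul cfg.hr).mp h3 with h4 | h4
    · exact hrαM (hαcardM r cfg.hr h4)
    · exact hrH.2.2.2.1 (h4.trans (Subgroup.card_dvd_of_le
        (Subgroup.commutator_mono inf_le_left inf_le_left)))
  have hrank : PRankLE r 1 ↥M := by
    intro A hA hAr
    by_contra hcon
    push Not at hcon
    obtain ⟨Y, hYdef⟩ : ∃ Y : Subgroup G, Y = A.map M.subtype := ⟨_, rfl⟩
    have hYM : Y ≤ M := by rw [hYdef]; exact Subgroup.map_subtype_le _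
    have hYcard : Nat.card Y = Nat.card A := by
      rw [hYdef]; exact Subgroup.card_map_of_injective M.subtype_injective
    have hYr : ∀ y ∈ Y, y ^ r = 1 := by
      rw [hYdef]; rintro _ ⟨a, ha, rfl⟩; rw [← map_pow, hAr a ha, map_one]
    have hYcomm : ∀ a ∈ Y, ∀ b ∈ Y, a * b = b * a := by
      rw [hYdef]; rintro _ ⟨a, ha, rfl⟩ _ ⟨b, hb, rfl⟩
      rw [← map_mul, ← map_mul]
      congr 1
      exact congrArg Subtype.val (mul_comm' (⟨a, ha⟩ : A) ⟨b, hb⟩)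
    have hYp : IsPGroup r Y := fun y => ⟨1, by rw [pow_one]; exact Subtype.ext (hYr y y.2)⟩
    have hprimes : ∀ t : ℕ, t.Prime → t ∣ Nat.card Y → t ∉ alpha M := by
      intro t ht htd
      obtain ⟨n, hn⟩ := IsPGroup.iff_card.mp hYp
      rw [hn] at htd
      have := (Nat.prime_dvd_prime_iff_eq ht cfg.hr).mp (ht.dvd_of_dvd_pow htd)
      rw [this]; exact hrαM
    obtain ⟨g, hgM, hgY⟩ := hHA M hM (H ⊓ M) inf_le_right hprod Y hYM hprimes
    have hY'H : MulAut.conj g • Y ≤ H := hgY.trans inf_le_left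
    have hY'r : ∀ y ∈ MulAut.conj g • Y, y ^ r = 1 := by
      rw [← map_conj_eq_smul]; rintro _ ⟨a, ha, rfl⟩; rw [← map_pow, hYr a ha, map_one]
    have hY'comm : ∀ a ∈ MulAut.conj g • Y, ∀ b ∈ MulAut.conj g • Y, a * b = b * a := by
      rw [← map_conj_eq_smul]; rintro _ ⟨a, ha, rfl⟩ _ ⟨b, hb, rfl⟩
      rw [← map_mul, ← map_mul, hYcomm a ha b hb]
    have hBcomm : IsMulCommutative ((MulAut.conj g • Y).subgroupOf H) :=
      ⟨⟨fun a b => Subtype.ext (Subtype.ext (hY'comm _ a.2 _ b.2))⟩⟩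
    have hBr : ∀ b ∈ (MulAut.conj g • Y).subgroupOf H, b ^ r = 1 := fun b hb =>
      Subtype.ext (hY'r _ hb)
    have hBcard : Nat.card ((MulAut.conj g • Y).subgroupOf H) = Nat.card A := by
      rw [Nat.card_congr (Subgroup.subgroupOfEquivOfLe hY'H).toEquiv, card_cj, hYcard]
    have := hrH.2.2.2.2 _ hBcomm hBr
    rw [hBcard] at this
    exact absurd this (not_le.mpr hcon)
  -- `M_α ∩ H ≤ C(Q1)`
  have hcent : alphaCore M ⊓ H ≤ centralizer (Q1 : Set G) := by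
    have hS'σ : S' ≤ sigmaCore H :=
      Cfsg.Agent.H92.BG12.le_sigmaCore_of_mem h50 hH hqH hS'q hS'H
    have hS'c : S' ≤ ⁅H, H⁆ :=
      hS'σ.trans (Cfsg.Agent.H76.BG10.sigmaCore_le_commutator hSC H hH)
    have hfrat := hAF H hH q S' hS'q hS'H hidxH hS'c
    have hcop : (Nat.card (alphaCore M)).Coprime (Nat.card ↥(alphaCore H ⊔ S')) := by
      have hdvd : Nat.card ↥(alphaCore H ⊔ S') ∣ Nat.card (alphaCore H) * Nat.card S' :=
        Cfsg.Agent.H58.card_sup_dvd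
          (hS'H.trans (Cfsg.Agent.Lib.Helper30.le_normalizer_piCoreOf (alpha H) H))
      apply Nat.Coprime.coprime_dvd_right hdvd
      apply Nat.Coprime.mul_right
      · exact Nat.coprime_of_dvd fun t ht h1 h2 =>
          hαdisj t (hαcardM t ht h1) (hαcardH t ht h2)
      · obtain ⟨n, hn⟩ := IsPGroup.iff_card.mp hS'q
        rw [hn]
        apply Nat.Coprime.pow_right
        exact ((Nat.Prime.coprime_iff_not_dvd cfg.hq).mpr
          (fun h => hqαM (hαcardM q cfg.hq h))).symm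
    intro c hc
    rw [Subgroup.mem_centralizer_iff]
    intro y hy
    have hyS : y ∈ S' := hS hy
    obtain ⟨a, ha, n, hn, hcan⟩ := hfrat c hc.2
    have hs' : n * y * n⁻¹ ∈ S' := (Subgroup.mem_normalizer_iff.mp hn.2 y).mp hyS
    have hx1 : c * y * c⁻¹ * y⁻¹ ∈ alphaCore M := by
      have e : c * y * c⁻¹ * y⁻¹ = c * (y * c⁻¹ * y⁻¹) := by group
      rw [e]
      exact mul_mem hc.1 (conj_mem_alphaCore (hS'M hyS) (inv_mem hc.1))
    have hx2 : c * y * c⁻¹ * y⁻¹ ∈ alphaCore H ⊔ S' := by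
      have e : c * y * c⁻¹ * y⁻¹ = (a * ((n * y * n⁻¹) * a⁻¹ * (n * y * n⁻¹)⁻¹)) *
          ((n * y * n⁻¹) * y⁻¹) := by
        rw [hcan]; group
      rw [e]
      exact mul_mem (Subgroup.mem_sup_left (mul_mem ha
        (conj_mem_alphaCore (hS'H hs') (inv_mem ha))))
        (Subgroup.mem_sup_right (mul_mem hs' (inv_mem hyS)))
    have hx : c * y * c⁻¹ * y⁻¹ = 1 := by
      have hbot := (Subgroup.disjoint_of_coprime_natCard hcop).eq_bot
      have hmem : c * y * c⁻¹ * y⁻¹ ∈ alphaCore M ⊓ (alphaCore H ⊔ S') := ⟨hx1, hx2⟩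
      rw [hbot] at hmem
      exact Subgroup.mem_bot.mp hmem
    exact (mul_inv_eq_iff_eq_mul.mp (mul_inv_eq_one.mp hx)).symm
  exact ⟨⟨cfg.hr, cfg.hrM, hrdvd, hder, hrank⟩, hα, hC, hcent⟩

example [Finite G] (hG : IsMinSimpleOddOrder G) (h03 : St1403 G) (h05 : St1405 G)
    (h50 : St1350 G) (hSC : StSigComm G) (h24 : St1424 G) (hD1 : StEmbD1 G)
    (hHA : StHallAlpha G) (hAF : StAlphaFrat G) :
    Cfsg.Agent.Lib.Helper30.BG134.StB3b G := b3b hG h03 h05 h50 hSC h24 hD1 hHA hAF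

end Cfsg.Agent.H15.BG134
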