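import Cfsg.Agent.H87.CrDefs
import Cfsg.Agent.H15.CrIMG

set_option autoImplicit false

/-!
# Craven's theorem (S5141), piece EXT

Every map of `F` on a subgroup `Q ≤ T` centric in `E` extends to a map of `F` on `Q C_S(T)`.
-/

namespace Cfsg.Agent.H15.Cr

open Cfsg Cfsg.FusionSystem Cfsg.Agent.H86 Cfsg.Agent.H87 Cfsg.Agent.H87.Cr

variable {Ω : Type*} [Group Ω] {S T : Subgroup Ω}

/-- `C_S(T) ≤ C_S(Q)` for `Q ≤ T`. -/
theorem cent_le_cent {Q : Subgroup Ω} (hQT : Q ≤ T) : centralizerIn S T ≤ centralizerIn S Q := by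
  intro c hc
  rw [mem_centralizerIn_iff] at hc ⊢
  exact ⟨hc.1, fun x hx => hc.2 x (hQT hx)⟩

/-- `Q C_S(T) ≤ N_S(Q)` for `Q ≤ T ≤ S`. -/
theorem sup_cent_le_normalizerIn {Q : Subgroup Ω} (hTS : T ≤ S) (hQT : Q ≤ T) :
    Q ⊔ centralizerIn S T ≤ normalizerIn S Q :=
  sup_le (H86.le_normalizerIn (hQT.trans hTS))
    ((cent_le_cent hQT).trans (H86.centralizerIn_le_normalizerIn S Q))

theorem exists_ext [Finite S] {p : ℕ} [Fact p.Prime] (hS : IsPGroup p S) {F : FusionSystem S}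
    {E : FusionSystem T} (hE : E.IsWeaklyNormalIn F p) {Q : Subgroup Ω} (hQ : E.IsCentric Q)
    {f : Ω → Ω} (hf : Mor F Q f) :
    ∃ l, Mor F (Q ⊔ centralizerIn S T) l ∧ ∀ x ∈ Q, l x = f x := by
  have hTS : T ≤ S := hE.2.2.2.1.1
  obtain ⟨hsub, hsc, hai, hfr⟩ := (isInvariantIn_iff hTS).1 hE.2.2
  have hF := hE.2.1
  have hQT : Q ≤ T := hQ.1
  have hQ'c : E.IsCentric (imgS Q f) := centric_img hE hQ hf
  have hQ'T : imgS Q f ≤ T := hQ'c.1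
  have hQ'S : imgS Q f ≤ S := hQ'T.trans hTS
  obtain ⟨Q'', hconj, hfn⟩ := exists_fullyNormalized_conj F hQ'S
  obtain ⟨hfc, hfa⟩ := saturated_fullyNormalized hS hF hfn
  have hrec : F.IsReceptive Q'' := saturated_receptive_of_fullyCentralized hS hF hfc
  obtain ⟨ζ, hζ, hζmaps, hζimg⟩ := exists_normalizer_map hS hfa hrec hconj
  have hQ'N : imgS Q f ≤ normalizerIn S (imgS Q f) := H86.le_normalizerIn hQ'S
  have hfQ' : ∀ x ∈ Q, f x ∈ normalizerIn S (imgS Q f) := fun x hx =>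
    hQ'N (hf.mem_imgS_of_mem hx)
  have hζf : Mor F Q (ζ ∘ f) := hf.comp hζ hfQ'
  have hζfimg : imgS Q (ζ ∘ f) = Q'' := by rw [hf.imgS_comp hζ hfQ', hζimg]
  have hQN : Q ⊔ centralizerIn S T ≤ normalizerIn S Q := sup_cent_le_normalizerIn hTS hQT
  obtain ⟨l₁, hl₁, hl₁f⟩ := receptive_extend hrec hζf hζfimg
    (le_sup_left : Q ≤ Q ⊔ centralizerIn S T) (fun g hg => by
      have hgN := mem_normalizerIn_iff.1 (hQN hg)
      refine ⟨hgN.1, hgN.2, ?_⟩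
      obtain ⟨q, hq, c, hc, rfl⟩ := mem_sup_cent hQT hg
      refine ⟨ζ (f q), hζ.mem (hfQ' q hq), fun x hx => ?_⟩
      have hcx : x * c = c * x := (mem_centralizerIn_iff.1 hc).2 x (hQT hx)
      have e : q * c * x * (q * c)⁻¹ = q * x * q⁻¹ := by
        calc q * c * x * (q * c)⁻¹ = q * (c * x) * c⁻¹ * q⁻¹ := by group
          _ = q * (x * c) * c⁻¹ * q⁻¹ := by rw [hcx]
          _ = q * x * q⁻¹ := by group
      rw [e]
      show ζ (f (q * x * q⁻¹)) = ζ (f q) * ζ (f x) * (ζ (f q))⁻¹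
      rw [hf.map_mul (Q.mul_mem hq hx) (Q.inv_mem hq), hf.map_mul hq hx, hf.map_inv hq,
        hζ.map_mul (Subgroup.mul_mem _ (hfQ' q hq) (hfQ' x hx))
          (Subgroup.inv_mem _ (hfQ' q hq)),
        hζ.map_mul (hfQ' q hq) (hfQ' x hx), hζ.map_inv (hfQ' q hq)])
  have hQ'X : imgS Q f ⊔ centralizerIn S T ≤ normalizerIn S (imgS Q f) :=
    sup_cent_le_normalizerIn hTS hQ'T
  have hζ' : Mor F (imgS Q f ⊔ centralizerIn S T) ζ := hζ.restrict hQ'X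
  have h1 : imgS (Q ⊔ centralizerIn S T) l₁ = Q'' ⊔ centralizerIn S T := by
    rw [(img_cent hS hE hQ hl₁).2,
      Mor.imgS_congr (hl₁.restrict le_sup_left) hl₁f, hζfimg]
  have h2 : imgS (imgS Q f ⊔ centralizerIn S T) ζ = Q'' ⊔ centralizerIn S T := by
    rw [(img_cent hS hE hQ'c hζ').2, hζimg]
  have hmaps : ∀ x ∈ Q ⊔ centralizerIn S T, l₁ x ∈ imgS (imgS Q f ⊔ centralizerIn S T) ζ := by
    intro x hx
    rw [h2, ← h1]
    exact hl₁.mem_imgS_of_mem hx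
  refine ⟨invOn (imgS Q f ⊔ centralizerIn S T) ζ ∘ l₁, hl₁.comp hζ'.inv hmaps, fun x hx => ?_⟩
  show invOn (imgS Q f ⊔ centralizerIn S T) ζ (l₁ x) = f x
  rw [hl₁f x hx]
  exact invOn_apply hζ'.injOn (Subgroup.mem_sup_left (hf.mem_imgS_of_mem hx))

end Cfsg.Agent.H15.Cr

section Verbatim
open Cfsg Cfsg.FusionSystem Cfsg.Agent.H86 Cfsg.Agent.H87 Cfsg.Agent.H87.Cr Cfsg.Agent.H15.Cr
variable {Ω : Type*} [Group Ω] {S T : Subgroup Ω}
example [Finite S] {p : ℕ} [Fact p.Prime] (hS : IsPGroup p S) {F : FusionSystem S} {E : FusionSystem T} (hE : E.IsWeaklyNormalIn F p) {Q : Subgroup Ω} (hQ : E.IsCentric Q) {f : Ω → Ω} (hf : Mor F Q f) : ∃ l, Mor F (Q ⊔ centralizerIn S T) l ∧ ∀ x ∈ Q, l x = f x := exists_ext hS hE hQ hf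
end Verbatim
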