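import Cfsg.Agent.H75.ESDefs

set_option autoImplicit false

/-!
# S6002 (helper75), piece TAU

A root of `τ² + τ - 1` in the prime field `F_p`, `p ≡ ±1 (mod 5)` (quadratic reciprocity).
-/

namespace Cfsg.Agent.H15.ES

open Cfsg.Agent.H75.ES

universe u

theorem four_eq_two_mul_two : ((4 : ℕ) : ZMod 5) = 2 * 2 := by decide

theorem tau : StTau.{u} := by
  intro F _ _ p _ hcard hp
  have hpp : p.Prime := Fact.out
  have hp2 : p ≠ 2 := by rintro rfl; omega
  have hchar : CharP F p := charP_of_card_eq_prime hcard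
  have h5 : Fact (Nat.Prime 5) := ⟨by norm_num⟩
  have hsq5 : IsSquare ((p : ℕ) : ZMod 5) := by
    rcases hp with h | h
    · refine ⟨1, ?_⟩
      have : ((p : ℕ) : ZMod 5) = ((1 : ℕ) : ZMod 5) :=
        (ZMod.natCast_eq_natCast_iff' p 1 5).mpr (by omega)
      rw [this]; simp
    · refine ⟨2, ?_⟩
      have : ((p : ℕ) : ZMod 5) = ((4 : ℕ) : ZMod 5) :=
        (ZMod.natCast_eq_natCast_iff' p 4 5).mpr (by omega)
      rw [this]
      exact four_eq_two_mul_two
  have hsq : IsSquare (((5 : ℕ) : ZMod p)) :=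
    (ZMod.exists_sq_eq_prime_iff_of_mod_four_eq_one (p := 5) (q := p) (by norm_num) hp2).mp hsq5
  obtain ⟨s0, hs0⟩ := hsq
  let φ : ZMod p →+* F := ZMod.castHom (dvd_refl p) F
  have hs : φ s0 * φ s0 = 5 := by
    rw [← map_mul, ← hs0, map_natCast]; norm_num
  have h2 : (2 : F) ≠ 0 := by
    intro h
    have h' : ((2 : ℕ) : F) = 0 := by exact_mod_cast h
    rw [CharP.cast_eq_zero_iff F p] at h'
    have := Nat.le_of_dvd (by norm_num) h'
    have := hpp.two_le
    omega
  refine ⟨(φ s0 - 1) / 2, ?_⟩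
  field_simp
  linear_combination hs

example : Cfsg.Agent.H75.ES.StTau.{u} := tau

end Cfsg.Agent.H15.ES
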