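import Cfsg.Agent.H75.ESDefs
import Cfsg.Agent.H17.Symp

set_option autoImplicit false

/-!
# S6002 (helper75), piece X3

An element of `Sp_4(F)` of order dividing three with traces one: `A ⊕ 1` with `A` of order three
in `SL_2`, acting on the first hyperbolic plane.
-/

namespace Cfsg.Agent.H15.ES

open Cfsg.Agent.H75.ES

universe u

variable {F : Type u} [Field F]

/-- The embedding of `2 × 2` matrices, acting on the first hyperbolic plane. -/
def emb (A : Matrix (Fin 2) (Fin 2) F) : M4 F :=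
  Matrix.fromBlocks (Matrix.diagonal ![A 0 0, 1]) (Matrix.diagonal ![A 0 1, 0])
    (Matrix.diagonal ![A 1 0, 0]) (Matrix.diagonal ![A 1 1, 1])

theorem emb_mul (A B : Matrix (Fin 2) (Fin 2) F) : emb (A * B) = emb A * emb B := by
  unfold emb
  rw [Matrix.fromBlocks_multiply]
  simp only [Matrix.diagonal_mul_diagonal, Matrix.diagonal_add]
  congr 1 <;> (congr 1; funext i; fin_cases i <;> simp [Matrix.mul_apply, Fin.sum_univ_two])

theorem emb_one : emb (1 : Matrix (Fin 2) (Fin 2) F) = 1 := by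
  unfold emb
  rw [← Matrix.fromBlocks_one]
  congr 1
  · rw [← Matrix.diagonal_one]; congr 1; funext i; fin_cases i <;> simp
  · rw [← Matrix.diagonal_zero]; congr 1; funext i; fin_cases i <;> simp
  · rw [← Matrix.diagonal_zero]; congr 1; funext i; fin_cases i <;> simp
  · rw [← Matrix.diagonal_one]; congr 1; funext i; fin_cases i <;> simp

theorem emb_symp (A : Matrix (Fin 2) (Fin 2) F) (hA : A 0 0 * A 1 1 - A 0 1 * A 1 0 = 1) :
    (emb A).transpose * Matrix.J (Fin 2) F * emb A = Matrix.J (Fin 2) F := by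
  unfold emb Matrix.J
  rw [Matrix.fromBlocks_transpose, Matrix.fromBlocks_multiply, Matrix.fromBlocks_multiply]
  simp only [Matrix.diagonal_transpose, Matrix.mul_zero, Matrix.mul_one, Matrix.mul_neg,
    zero_add, add_zero, Matrix.neg_mul, Matrix.diagonal_mul_diagonal]
  congr 1
  · rw [← Matrix.diagonal_zero]
    simp only [Matrix.diagonal_neg, Matrix.diagonal_add]
    congr 1; funext i; fin_cases i <;> (simp; try ring)
  · rw [← Matrix.diagonal_one]
    simp only [Matrix.diagonal_neg, Matrix.diagonal_add]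
    congr 1; funext i; fin_cases i
    · simp; linear_combination -hA
    · simp
  · rw [← Matrix.diagonal_one]
    simp only [Matrix.diagonal_neg, Matrix.diagonal_add]
    congr 1; funext i; fin_cases i
    · simp; linear_combination hA
    · simp
  · rw [← Matrix.diagonal_zero]
    simp only [Matrix.diagonal_neg, Matrix.diagonal_add]
    congr 1; funext i; fin_cases i <;> (simp; try ring)

theorem emb_trace (A : Matrix (Fin 2) (Fin 2) F) :
    Matrix.trace (emb A) = A 0 0 + A 1 1 + 2 := by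
  unfold emb Matrix.trace
  rw [Fintype.sum_sum_type, Fin.sum_univ_two, Fin.sum_univ_two]
  simp [Matrix.diag]
  ring

theorem emb_pow (A : Matrix (Fin 2) (Fin 2) F) (n : ℕ) : emb (A ^ n) = emb A ^ n := by
  induction n with
  | zero => rw [pow_zero, pow_zero, emb_one]
  | succ n ih => rw [pow_succ, pow_succ, emb_mul, ih]

/-- The unit of `GL_4` attached to an invertible `2 × 2` matrix. -/
def embU (A B : Matrix (Fin 2) (Fin 2) F) (hAB : A * B = 1) (hBA : B * A = 1) : G4 F :=
  ⟨emb A, emb B, by rw [← emb_mul, hAB, emb_one], by rw [← emb_mul, hBA, emb_one]⟩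

theorem embU_mem (A B : Matrix (Fin 2) (Fin 2) F) (hAB : A * B = 1) (hBA : B * A = 1)
    (hA : A 0 0 * A 1 1 - A 0 1 * A 1 0 = 1) : embU A B hAB hBA ∈ Cfsg.spGL 2 F := by
  show ∀ u v, Cfsg.sympForm 2 F (Matrix.mulVec (emb A) u) (Matrix.mulVec (emb A) v)
    = Cfsg.sympForm 2 F u v
  intro u v
  rw [Cfsg.Agent.H17.sympForm_mulVec, emb_symp A hA]
  rfl

theorem embU_pow (A B : Matrix (Fin 2) (Fin 2) F) (hAB : A * B = 1) (hBA : B * A = 1) (n : ℕ)
    (hn : A ^ n = 1) : embU A B hAB hBA ^ n = 1 := by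
  apply Units.ext
  rw [Units.val_pow_eq_pow_val, Units.val_one]
  show emb A ^ n = 1
  rw [← emb_pow, hn, emb_one]

theorem x3 : StX3.{u} := by
  intro F _
  have hAB : (!![0, -1; 1, -1] : Matrix (Fin 2) (Fin 2) F) * !![-1, 1; -1, 0] = 1 := by
    simp [Matrix.one_fin_two]
  have hBA : (!![-1, 1; -1, 0] : Matrix (Fin 2) (Fin 2) F) * !![0, -1; 1, -1] = 1 := by
    simp [Matrix.one_fin_two]
  have h3 : (!![0, -1; 1, -1] : Matrix (Fin 2) (Fin 2) F) ^ 3 = 1 := by
    simp [pow_succ, Matrix.one_fin_two]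
  refine ⟨embU _ _ hAB hBA, embU_mem _ _ hAB hBA (by simp), embU_pow _ _ hAB hBA 3 h3, ?_, ?_⟩
  · show Matrix.trace (emb (!![0, -1; 1, -1] : Matrix (Fin 2) (Fin 2) F)) = 1
    rw [emb_trace]
    simp
    ring
  · show Matrix.trace (emb (!![-1, 1; -1, 0] : Matrix (Fin 2) (Fin 2) F)) = 1
    rw [emb_trace]
    simp
    ring

example : Cfsg.Agent.H75.ES.StX3.{u} := x3

end Cfsg.Agent.H15.ES
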