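import Cfsg.Agent.H15.ESX3

set_option autoImplicit false

/-!
# S6002 (helper75), piece X5

An element of `Sp_4(F)` of order dividing five with traces `2 + τ`, where `τ² + τ - 1 = 0`.
-/

namespace Cfsg.Agent.H15.ES

open Cfsg.Agent.H75.ES

universe u

theorem x5 : StX5.{u} := by
  intro F _ τ hτ
  have hAB : (!![0, -1; 1, τ] : Matrix (Fin 2) (Fin 2) F) * !![τ, 1; -1, 0] = 1 := by
    simp [Matrix.one_fin_two]
  have hBA : (!![τ, 1; -1, 0] : Matrix (Fin 2) (Fin 2) F) * !![0, -1; 1, τ] = 1 := by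
    simp [Matrix.one_fin_two]
  have h2 : (!![0, -1; 1, τ] : Matrix (Fin 2) (Fin 2) F) ^ 2 = !![-1, -τ; τ, -τ] := by
    rw [pow_two, Matrix.mul_fin_two]
    congr 1
    ext i j
    fin_cases i <;> fin_cases j
    · simp
    · simp
    · simp
    · simp; linear_combination hτ
  have h4 : (!![0, -1; 1, τ] : Matrix (Fin 2) (Fin 2) F) ^ 4 = !![τ, 1; -1, 0] := by
    rw [show 4 = 2 * 2 from rfl, pow_mul, h2, pow_two, Matrix.mul_fin_two]
    ext i j
    fin_cases i <;> fin_cases j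
    · simp; linear_combination -hτ
    · simp; linear_combination hτ
    · simp; linear_combination -hτ
    · simp
  have h5 : (!![0, -1; 1, τ] : Matrix (Fin 2) (Fin 2) F) ^ 5 = 1 := by
    rw [pow_succ, h4, hBA]
  refine ⟨embU _ _ hAB hBA, embU_mem _ _ hAB hBA (by simp), embU_pow _ _ hAB hBA 5 h5, ?_, ?_⟩
  · show Matrix.trace (emb (!![0, -1; 1, τ] : Matrix (Fin 2) (Fin 2) F)) = 2 + τ
    rw [emb_trace]
    simp
    ring
  · show Matrix.trace (emb (!![τ, 1; -1, 0] : Matrix (Fin 2) (Fin 2) F)) = 2 + τ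
    rw [emb_trace]
    simp
    ring

example : Cfsg.Agent.H75.ES.StX5.{u} := x5

end Cfsg.Agent.H15.ES
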