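import Mathlib
import Cfsg.Agent.H99.EmDefs
import Cfsg.Agent.H49.InvOmega
import Cfsg.Agent.H49.SimpleForms
import Cfsg.Agent.H49.MinusForm

/-!
# EM-BRIDGE (helper15, for helper99): the standard minus space `(F^(MI k), H49.QMin k F a b)`
and the translation of the notions of the frozen statement S5990.
-/

set_option autoImplicit false
open scoped MatrixGroups
open scoped Matrix

namespace Cfsg.Agent.H15.Em

open Cfsg.Agent.H45 Cfsg.Agent.H42.Spd Cfsg.Agent.H42.Ti Cfsg.Agent.H48.Ep Cfsg.Agent.H77.Tq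
  Cfsg.Agent.H77.Tm Cfsg.Agent.H99.Em Module

universe u

/-- The frozen nondegeneracy condition is `QNd` for the bundled minus form. -/
theorem nd_iffM {F : Type u} [Field F] (k : ℕ) (a b : F) (W : Submodule F (MI k → F)) :
    Cfsg.Geo.IsNondegenerateOn (QuadraticMap.polar (Cfsg.quadFormMinus k F a b)) W ↔
      QNd (Cfsg.Agent.H49.QMin k F a b) W := by
  have hB : ∀ x y, QuadraticMap.polarBilin (Cfsg.Agent.H49.QMin k F a b) x y =
      QuadraticMap.polar (Cfsg.quadFormMinus k F a b) x y := by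
    intro x y
    rw [QuadraticMap.polarBilin_apply_apply, Cfsg.Agent.H49.QMin_coe]
  unfold QNd Cfsg.Geo.IsNondegenerateOn
  constructor
  · intro hW
    rw [eq_bot_iff]
    rintro w ⟨hw1, hw2⟩
    rw [Submodule.mem_bot]
    by_contra hne
    obtain ⟨⟨x, hx, hxw⟩, -⟩ := hW w hw1 hne
    apply hxw
    rw [← hB]
    exact hw2 x hx
  · intro hW w hw hne
    have h1 : ∃ x ∈ W, QuadraticMap.polar (Cfsg.quadFormMinus k F a b) x w ≠ 0 := by
      by_contra hcon
      apply hne
      have h3 : w ∈ W ⊓ perp (QuadraticMap.polarBilin (Cfsg.Agent.H49.QMin k F a b)) W := by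
        refine ⟨hw, fun u hu => ?_⟩
        by_contra hne'
        exact hcon ⟨u, hu, by rw [← hB]; exact hne'⟩
      rw [hW] at h3
      exact (Submodule.mem_bot F).mp h3
    refine ⟨h1, ?_⟩
    obtain ⟨x, hx, hxw⟩ := h1
    exact ⟨x, hx, by rw [QuadraticMap.polar_comm]; exact hxw⟩

/-- The frozen plus-type condition is `QPlus` for the bundled minus form. -/
theorem plus_iffM {F : Type u} [Field F] (k : ℕ) (a b : F) (W : Submodule F (MI k → F)) :
    Cfsg.Geo.IsPlusTypeOn (Cfsg.quadFormMinus k F a b) W ↔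
      QPlus (Cfsg.Agent.H49.QMin k F a b) W := Iff.rfl

/-- **EM-BRIDGE**. -/
theorem bridge : Cfsg.Agent.H99.Em.StBridge.{u} := by
  intro F _ _ k m a b hab
  have hd : a ^ 2 - 4 * b ≠ 0 := Cfsg.Agent.H49.disc_ne_zero_of_aniso a b hab
  have hB : ∀ x y, QuadraticMap.polarBilin (Cfsg.Agent.H49.QMin k F a b) x y =
      QuadraticMap.polar (Cfsg.quadFormMinus k F a b) x y := by
    intro x y
    rw [QuadraticMap.polarBilin_apply_apply, Cfsg.Agent.H49.QMin_coe]
  have hdim : finrank F (MI k → F) = 2 * k + 2 := by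
    have h1 := Cfsg.Agent.H49.finrank_minus (F := F) k
    rw [h1]
    ring
  refine ⟨?_, ?_, hdim, ?_, ?_⟩
  · rw [← nd_iffM]
    intro u _ hu
    have h1 : ∃ x ∈ (⊤ : Submodule F (MI k → F)),
        QuadraticMap.polar (Cfsg.quadFormMinus k F a b) x u ≠ 0 := by
      by_contra hcon
      apply hu
      apply (Cfsg.Agent.H49.QMin_nondeg k a b hd).1 u
      intro y
      by_contra hne
      exact hcon ⟨y, Submodule.mem_top, by
        rw [QuadraticMap.polar_comm, ← hB]; exact hne⟩
    refine ⟨h1, ?_⟩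
    obtain ⟨x, hx, hxw⟩ := h1
    exact ⟨x, hx, by rw [QuadraticMap.polar_comm]; exact hxw⟩
  · rintro ⟨U, -, hU, hUdim⟩
    have h1 := Cfsg.Agent.H49.QMin_ts_le k a b hab hd U hU
    rw [finrank_top, hdim] at hUdim
    omega
  · intro W
    unfold IsEW
    rw [nd_iffM k a b W, plus_iffM k a b W]
  · intro g
    rw [Cfsg.Agent.H49.mem_isometryGroup_iff]
    constructor
    · intro h v
      rw [Matrix.toLin'_apply]
      exact h v
    · intro h v
      have h3 := h v
      rwa [Matrix.toLin'_apply] at h3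

example : Cfsg.Agent.H99.Em.StBridge.{u} := bridge

end Cfsg.Agent.H15.Em

#print axioms Cfsg.Agent.H15.Em.bridge
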