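import Cfsg.Agent.H77.FxDefs

set_option autoImplicit false

/-!
# S5975 (helper77), piece CONJK

Conjugating the field subalgebra `K` by a symplectic matrix `g` gives a subalgebra `K'` with the
same standing hypotheses, and `x ∈ N(K')` whenever `g⁻¹ x g ∈ N(K)`.
-/

namespace Cfsg.Agent.H15.Fx

open Cfsg.Agent.H77.Fx Matrix

universe u

variable {F : Type u} [Field F] {d : ℕ}

/-- Conjugation by an invertible matrix as an algebra endomorphism. -/
noncomputable def conjAlg (g : Matrix.GeneralLinearGroup (Fin d ⊕ Fin d) F) :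
    Mat d F →ₐ[F] Mat d F where
  toFun a := (g : Mat d F) * a * ((g⁻¹ : Matrix.GeneralLinearGroup (Fin d ⊕ Fin d) F) : Mat d F)
  map_one' := by rw [mul_one, Units.mul_inv]
  map_mul' a b := by
    simp only [mul_assoc, Units.inv_mul_cancel_left]
  map_zero' := by rw [mul_zero, zero_mul]
  map_add' a b := by rw [mul_add, add_mul]
  commutes' r := by
    rw [Algebra.algebraMap_eq_smul_one, mul_smul_comm, smul_mul_assoc, mul_one, Units.mul_inv]

theorem conjAlg_apply (g : Matrix.GeneralLinearGroup (Fin d ⊕ Fin d) F) (a : Mat d F) :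
    conjAlg g a = (g : Mat d F) * a *
      ((g⁻¹ : Matrix.GeneralLinearGroup (Fin d ⊕ Fin d) F) : Mat d F) := rfl

theorem conjAlg_leftInverse (g : Matrix.GeneralLinearGroup (Fin d ⊕ Fin d) F) (a : Mat d F) :
    ((g⁻¹ : Matrix.GeneralLinearGroup (Fin d ⊕ Fin d) F) : Mat d F) * conjAlg g a *
      (g : Mat d F) = a := by
  rw [conjAlg_apply]
  simp only [mul_assoc, Units.inv_mul_cancel_left, Units.inv_mul, mul_one]

theorem conjAlg_rightInverse (g : Matrix.GeneralLinearGroup (Fin d ⊕ Fin d) F) (m : Mat d F) :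
    conjAlg g (((g⁻¹ : Matrix.GeneralLinearGroup (Fin d ⊕ Fin d) F) : Mat d F) * m *
      (g : Mat d F)) = m := by
  rw [conjAlg_apply]
  simp only [mul_assoc, Units.mul_inv_cancel_left, Units.mul_inv, mul_one]

theorem mem_map_conjAlg {K : Subalgebra F (Mat d F)}
    (g : Matrix.GeneralLinearGroup (Fin d ⊕ Fin d) F) (m : Mat d F) :
    m ∈ K.map (conjAlg g) ↔
      ((g⁻¹ : Matrix.GeneralLinearGroup (Fin d ⊕ Fin d) F) : Mat d F) * m * (g : Mat d F) ∈ K := by
  rw [Subalgebra.mem_map]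
  constructor
  · rintro ⟨a, ha, rfl⟩
    rw [conjAlg_leftInverse]
    exact ha
  · intro h
    exact ⟨_, h, conjAlg_rightInverse g m⟩

theorem conjK : StConjK.{u} := by
  intro F _ _ d k K hK g hg
  have hgf : ∀ u v : Vec d F, Cfsg.sympForm d F ((g : Mat d F) *ᵥ u) ((g : Mat d F) *ᵥ v) =
      Cfsg.sympForm d F u v := hg
  have hadj : ∀ u v : Vec d F, Cfsg.sympForm d F ((g : Mat d F) *ᵥ u) v =
      Cfsg.sympForm d F u
        (((g⁻¹ : Matrix.GeneralLinearGroup (Fin d ⊕ Fin d) F) : Mat d F) *ᵥ v) := by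
    intro u v
    rw [← hgf u, Matrix.mulVec_mulVec, Units.mul_inv, Matrix.one_mulVec]
  have hadj' : ∀ u v : Vec d F, Cfsg.sympForm d F u ((g : Mat d F) *ᵥ v) =
      Cfsg.sympForm d F
        (((g⁻¹ : Matrix.GeneralLinearGroup (Fin d ⊕ Fin d) F) : Mat d F) *ᵥ u) v := by
    intro u v
    rw [← hgf _ v, Matrix.mulVec_mulVec, Units.mul_inv, Matrix.one_mulVec]
  refine ⟨K.map (conjAlg g), ⟨⟨?_, ?_, ?_⟩, ?_, ?_⟩, ?_⟩
  · rintro x ⟨a, ha, rfl⟩ y ⟨b, hb, rfl⟩
    show conjAlg g a * conjAlg g b = conjAlg g b * conjAlg g a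
    rw [← map_mul, ← map_mul, hK.field.comm a ha b hb]
  · rintro x ⟨a, ha, rfl⟩ hx
    have ha0 : a ≠ 0 := by
      rintro rfl
      exact hx (map_zero _)
    obtain ⟨b, hb, hab⟩ := hK.field.inv a ha ha0
    refine ⟨conjAlg g b, ⟨b, hb, rfl⟩, ?_⟩
    show conjAlg g a * conjAlg g b = 1
    rw [← map_mul, hab, map_one]
  · have hinj : Function.Injective (conjAlg g) :=
      Function.LeftInverse.injective (g := fun m : Mat d F =>
        ((g⁻¹ : Matrix.GeneralLinearGroup (Fin d ⊕ Fin d) F) : Mat d F) * m * (g : Mat d F))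
        (conjAlg_leftInverse g)
    rw [← hK.field.finrank_eq]
    exact (LinearEquiv.finrank_eq (K.equivMapOfInjective (conjAlg g) hinj).toLinearEquiv).symm
  · rintro x ⟨a, ha, rfl⟩ u v
    show Cfsg.sympForm d F (conjAlg g a *ᵥ u) v = Cfsg.sympForm d F u (conjAlg g a *ᵥ v)
    rw [conjAlg_apply]
    simp only [← Matrix.mulVec_mulVec]
    rw [hadj, hadj', hK.sa a ha]
  · rintro x ⟨a, ha⟩ v
    obtain ⟨ha, rfl⟩ := ha
    show Cfsg.sympForm d F (conjAlg g a *ᵥ v) v = 0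
    rw [conjAlg_apply]
    simp only [← Matrix.mulVec_mulVec]
    rw [hadj]
    exact hK.alt a ha _
  · intro x hx
    have hx' : ∀ m : Mat d F, m ∈ K ↔
        ((g⁻¹ * x * g : Matrix.GeneralLinearGroup (Fin d ⊕ Fin d) F) : Mat d F) * m *
          (((g⁻¹ * x * g)⁻¹ : Matrix.GeneralLinearGroup (Fin d ⊕ Fin d) F) : Mat d F) ∈ K := hx
    show ∀ m : Mat d F, m ∈ K.map (conjAlg g) ↔ (x : Mat d F) * m *
      ((x⁻¹ : Matrix.GeneralLinearGroup (Fin d ⊕ Fin d) F) : Mat d F) ∈ K.map (conjAlg g)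
    intro m
    rw [mem_map_conjAlg, mem_map_conjAlg, hx']
    have e : (g⁻¹ * x * g)⁻¹ = g⁻¹ * x⁻¹ * g := by group
    rw [e]
    have e2 : ((g⁻¹ * x * g : Matrix.GeneralLinearGroup (Fin d ⊕ Fin d) F) : Mat d F) *
        (((g⁻¹ : Matrix.GeneralLinearGroup (Fin d ⊕ Fin d) F) : Mat d F) * m * (g : Mat d F)) *
        ((g⁻¹ * x⁻¹ * g : Matrix.GeneralLinearGroup (Fin d ⊕ Fin d) F) : Mat d F) =
        ((g⁻¹ : Matrix.GeneralLinearGroup (Fin d ⊕ Fin d) F) : Mat d F) * ((x : Mat d F) * m *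
          ((x⁻¹ : Matrix.GeneralLinearGroup (Fin d ⊕ Fin d) F) : Mat d F)) * (g : Mat d F) := by
      simp only [Units.val_mul, mul_assoc, Units.mul_inv_cancel_left]
    rw [e2]

example : Cfsg.Agent.H77.Fx.StConjK.{u} := conjK

end Cfsg.Agent.H15.Fx
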