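import Cfsg.Agent.H77.FxDefs
import Cfsg.Agent.H17.Symp

set_option autoImplicit false

/-!
# S5975 (helper77), piece INVB

The normalizer of `K` in `Sp` contains an element of square `-1`: the standard matrix `J` of the
`L`-structure given by `StStruct`.
-/

namespace Cfsg.Agent.H15.Fx

open Cfsg.Agent.H77.Fx Matrix

universe u

/-- Two matrices with the same action on vectors are equal. -/
theorem mat_ext_mulVec {F : Type u} [Field F] {d : ℕ} (A B : Mat d F)
    (h : ∀ u : Vec d F, A *ᵥ u = B *ᵥ u) : A = B := by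
  apply Matrix.toLin'.injective
  apply LinearMap.ext
  intro u
  rw [Matrix.toLin'_apply, Matrix.toLin'_apply, h]

/-- An invertible matrix commuting with every element of `K` normalizes `K`. -/
theorem mem_normalizer_of_commute {F : Type u} [Field F] {d : ℕ} (K : Subalgebra F (Mat d F))
    (y : Matrix.GeneralLinearGroup (Fin d ⊕ Fin d) F)
    (hy : ∀ a ∈ K, (y : Mat d F) * a = a * (y : Mat d F)) :
    y ∈ Cfsg.Geo.subalgebraNormalizer K := by
  show ∀ a : Mat d F, a ∈ K ↔ (y : Mat d F) * a *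
    ((y⁻¹ : Matrix.GeneralLinearGroup (Fin d ⊕ Fin d) F) : Mat d F) ∈ K
  intro a
  constructor
  · intro ha
    rw [hy a ha, mul_assoc, Units.mul_inv, mul_one]
    exact ha
  · intro h
    have h2 := hy _ h
    have e : (y : Mat d F) * a *
        ((y⁻¹ : Matrix.GeneralLinearGroup (Fin d ⊕ Fin d) F) : Mat d F) = a := by
      have h3 : (y : Mat d F) * ((y : Mat d F) * a *
          ((y⁻¹ : Matrix.GeneralLinearGroup (Fin d ⊕ Fin d) F) : Mat d F)) = (y : Mat d F) * a := by
        rw [h2]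
        simp only [mul_assoc, Units.inv_mul, mul_one]
      have h4 := congrArg (fun M =>
        ((y⁻¹ : Matrix.GeneralLinearGroup (Fin d ⊕ Fin d) F) : Mat d F) * M) h3
      simpa only [Units.inv_mul_cancel_left] using h4
    rw [← e]
    exact h

theorem invB (hS : StStruct.{u}) : StInvB.{u} := by
  intro F _ _ d k K hK hk
  classical
  obtain ⟨m, L, iField, iFintype, iAlg, ψ, φ, hd, hcard, hψK, hKψ, hφ, hform⟩ := hS F d k K hK hk
  have hJ : ∀ w w' : Fin m ⊕ Fin m → L,
      Cfsg.sympForm m L (Matrix.J (Fin m) L *ᵥ w) (Matrix.J (Fin m) L *ᵥ w') =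
        Cfsg.sympForm m L w w' :=
    (Cfsg.Agent.H17.mem_symplecticGroup_iff_form m (Matrix.J (Fin m) L)).1 (SymplecticGroup.J_mem (Fin m) L)
  let T : Vec d F →ₗ[F] Vec d F :=
    φ.toLinearMap ∘ₗ ((Matrix.toLin' (Matrix.J (Fin m) L)).restrictScalars F) ∘ₗ
      φ.symm.toLinearMap
  have hT : ∀ u : Vec d F, T u = φ (Matrix.J (Fin m) L *ᵥ φ.symm u) := fun u => rfl
  let Y : Mat d F := LinearMap.toMatrix' T
  have hY : ∀ u : Vec d F, Y *ᵥ u = φ (Matrix.J (Fin m) L *ᵥ φ.symm u) := by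
    intro u
    rw [← hT, ← Matrix.toLin'_apply, Matrix.toLin'_toMatrix']
  have hYY : Y * Y = -1 := by
    apply mat_ext_mulVec
    intro u
    rw [← Matrix.mulVec_mulVec, hY, hY, LinearEquiv.symm_apply_apply, Matrix.mulVec_mulVec,
      Matrix.J_squared, Matrix.neg_mulVec, Matrix.one_mulVec, map_neg,
      LinearEquiv.apply_symm_apply, Matrix.neg_mulVec, Matrix.one_mulVec]
  have h1 : Y * -Y = 1 := by rw [mul_neg, hYY, neg_neg]
  have h2 : -Y * Y = 1 := by rw [neg_mul, hYY, neg_neg]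
  refine ⟨⟨Y, -Y, h1, h2⟩, ?_, ?_, hYY⟩
  · show ∀ u v : Vec d F, Cfsg.sympForm d F (Y *ᵥ u) (Y *ᵥ v) = Cfsg.sympForm d F u v
    intro u v
    rw [hY, hY, hform, hJ, ← hform, LinearEquiv.apply_symm_apply, LinearEquiv.apply_symm_apply]
  · apply mem_normalizer_of_commute
    intro a ha
    show Y * a = a * Y
    obtain ⟨c, rfl⟩ := hKψ a ha
    apply mat_ext_mulVec
    intro u
    have e1 : φ.symm (ψ c *ᵥ u) = c • φ.symm u := by
      apply φ.injective
      rw [LinearEquiv.apply_symm_apply, hφ, LinearEquiv.apply_symm_apply]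
    rw [← Matrix.mulVec_mulVec, ← Matrix.mulVec_mulVec, hY, hY, e1, Matrix.mulVec_smul, hφ]

example (hS : Cfsg.Agent.H77.Fx.StStruct.{u}) : Cfsg.Agent.H77.Fx.StInvB.{u} := invB hS

end Cfsg.Agent.H15.Fx
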