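import Cfsg.Agent.H77.FxDefs
import Cfsg.Agent.H17.Symp
import Cfsg.Agent.H15.FxInvB

set_option autoImplicit false

/-!
# S5975 (helper77), piece INVA

For `k = 2` the normalizer of `K` in `Sp` contains a non-scalar involution: the Frobenius
semilinear map of the `L`-structure given by `StStruct`.
-/

namespace Cfsg.Agent.H15.Fx

open Cfsg.Agent.H77.Fx Matrix

universe u

theorem invA (hS : StStruct.{u}) : StInvA.{u} := by
  intro F _ _ d K hK
  classical
  obtain ⟨m, L, iField, iFintype, iAlg, ψ, φ, hd, hcard, hψK, hKψ, hφ, hform⟩ :=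
    hS F d 2 K hK Nat.prime_two
  obtain ⟨q, hq⟩ : ∃ q, q = Fintype.card F := ⟨_, rfl⟩
  have hq1 : 1 < q := hq ▸ Fintype.one_lt_card
  let σ : L ≃ₐ[F] L := FiniteField.frobeniusAlgEquivOfAlgebraic F L
  have hσ : ∀ c : L, σ c = c ^ q := fun c => by rw [hq]; rfl
  have hσσ : ∀ c : L, (c ^ q) ^ q = c := by
    intro c
    rw [← pow_mul, ← pow_two, hq, ← hcard]
    exact FiniteField.pow_card c
  let S : (Fin m ⊕ Fin m → L) →ₗ[F] (Fin m ⊕ Fin m → L) :=
    { toFun := fun w i => (w i) ^ q
      map_add' := fun w w' => by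
        funext i
        show (w i + w' i) ^ q = (w i) ^ q + (w' i) ^ q
        rw [← hσ, ← hσ, ← hσ, map_add]
      map_smul' := fun a w => by
        funext i
        show (a • w i) ^ q = a • (w i) ^ q
        rw [← hσ, ← hσ, map_smul] }
  have hSapp : ∀ w i, S w i = (w i) ^ q := fun w i => rfl
  have hSS : ∀ w, S (S w) = w := by
    intro w
    funext i
    rw [hSapp, hSapp, hσσ]
  have hSsmul : ∀ (c : L) w, S (c • w) = (c ^ q) • S w := by
    intro c w
    funext i
    show (c • w i) ^ q = c ^ q • (w i) ^ q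
    rw [smul_eq_mul, smul_eq_mul, mul_pow]
  have hSform : ∀ w w', Cfsg.sympForm m L (S w) (S w') = (Cfsg.sympForm m L w w') ^ q := by
    intro w w'
    rw [Cfsg.Agent.H17.sympForm_eq_sum, Cfsg.Agent.H17.sympForm_eq_sum, ← hσ, map_sum]
    apply Finset.sum_congr rfl
    intro i _
    rw [map_sub, map_mul, map_mul, hσ, hσ, hσ, hσ, hSapp, hSapp, hSapp, hSapp]
  let T : Vec d F →ₗ[F] Vec d F := φ.toLinearMap ∘ₗ S ∘ₗ φ.symm.toLinearMap
  have hT : ∀ u, T u = φ (S (φ.symm u)) := fun u => rfl
  let Y : Mat d F := LinearMap.toMatrix' T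
  have hY : ∀ u : Vec d F, Y *ᵥ u = φ (S (φ.symm u)) := by
    intro u
    rw [← hT, ← Matrix.toLin'_apply, Matrix.toLin'_toMatrix']
  have hYY : Y * Y = 1 := by
    apply mat_ext_mulVec
    intro u
    rw [← Matrix.mulVec_mulVec, hY, hY, LinearEquiv.symm_apply_apply, hSS,
      LinearEquiv.apply_symm_apply, Matrix.one_mulVec]
  have hYψ : ∀ c : L, Y * ψ c = ψ (c ^ q) * Y := by
    intro c
    apply mat_ext_mulVec
    intro u
    have e1 : φ.symm (ψ c *ᵥ u) = c • φ.symm u := by
      apply φ.injective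
      rw [LinearEquiv.apply_symm_apply, hφ, LinearEquiv.apply_symm_apply]
    rw [← Matrix.mulVec_mulVec, ← Matrix.mulVec_mulVec, hY, hY, e1, hSsmul, hφ]
  have key : ∀ c : L, Y * ψ c * Y = ψ (c ^ q) := by
    intro c
    rw [hYψ, mul_assoc, hYY, mul_one]
  refine ⟨⟨Y, Y, hYY, hYY⟩, ?_, ?_, hYY, ?_⟩
  · show ∀ u v : Vec d F, Cfsg.sympForm d F (Y *ᵥ u) (Y *ᵥ v) = Cfsg.sympForm d F u v
    intro u v
    rw [hY, hY, hform, hSform, ← hσ, Algebra.trace_eq_of_algEquiv, ← hform,
      LinearEquiv.apply_symm_apply, LinearEquiv.apply_symm_apply]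
  · show ∀ a : Mat d F, a ∈ K ↔ Y * a * Y ∈ K
    intro a
    constructor
    · intro ha
      obtain ⟨c, rfl⟩ := hKψ a ha
      rw [key]
      exact hψK _
    · intro h
      obtain ⟨c, hc⟩ := hKψ _ h
      have e : a = ψ (c ^ q) := by
        rw [← key, hc]
        calc a = (Y * Y) * a * (Y * Y) := by rw [hYY, one_mul, mul_one]
          _ = Y * (Y * a * Y) * Y := by simp only [mul_assoc]
      rw [e]
      exact hψK _
  · intro z hz
    have hz' : Y = z • (1 : Mat d F) := hz
    have hnt : Nontrivial (Mat d F) := by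
      by_contra hnt
      rw [not_nontrivial_iff_subsingleton] at hnt
      have h0 : Module.finrank F K = 0 := by
        have : Subsingleton K := ⟨fun a b => Subtype.ext (Subsingleton.elim _ _)⟩
        exact Module.finrank_zero_of_subsingleton
      have h2 : Module.finrank F K = 2 := hK.field.finrank_eq
      rw [h0] at h2
      exact absurd h2 (by norm_num)
    have hψinj : Function.Injective ψ := (ψ : L →+* Mat d F).injective
    have hz0 : z ≠ 0 := by
      rintro rfl
      rw [zero_smul] at hz'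
      have h1 := hYY
      rw [hz', mul_zero] at h1
      exact zero_ne_one h1
    have hall : ∀ c : L, c ^ q = c := by
      intro c
      apply hψinj
      have h1 := hYψ c
      rw [hz', smul_mul_assoc, one_mul, mul_smul_comm, mul_one] at h1
      exact (smul_right_injective _ hz0 h1).symm
    have hsub : (Finset.univ : Finset L).val ⊆
        (Polynomial.X ^ q - Polynomial.X : Polynomial L).roots := by
      intro c _
      rw [Polynomial.mem_roots (FiniteField.X_pow_card_sub_X_ne_zero L hq1)]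
      simp [hall c]
    have hle := Polynomial.card_le_degree_of_subset_roots hsub
    rw [FiniteField.X_pow_card_sub_X_natDegree_eq L hq1, Finset.card_univ, hcard, ← hq] at hle
    nlinarith

example (hS : Cfsg.Agent.H77.Fx.StStruct.{u}) : Cfsg.Agent.H77.Fx.StInvA.{u} := invA hS

end Cfsg.Agent.H15.Fx
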