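import Cfsg.Agent.H77.FxDefs

set_option autoImplicit false

/-!
# S5975 (helper77), piece TRFORM

An `F`-bilinear form for which the scalars of a finite extension `L` of the finite field `F` are
self-adjoint is the trace of an `L`-bilinear form.
-/

namespace Cfsg.Agent.H15.Fx

open Cfsg.Agent.H77.Fx

universe u

theorem trForm : StTrForm.{u} := by
  intro F _ _ L _ _ _ V _ _ _ _ _ f hf
  classical
  have hnd : (Algebra.traceForm F L).Nondegenerate := traceForm_nondegenerate F L
  let D : L ≃ₗ[F] Module.Dual F L := (Algebra.traceForm F L).toDual hnd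
  have hD : ∀ b c : L, D b c = Algebra.trace F L (b * c) := fun b c => by
    show (Algebra.traceForm F L).toDual hnd b c = _
    rw [LinearMap.BilinForm.toDual_def, Algebra.traceForm_apply]
  have huniq : ∀ b b' : L,
      (∀ c, Algebra.trace F L (b * c) = Algebra.trace F L (b' * c)) → b = b' := by
    intro b b' h
    apply D.injective
    ext c
    rw [hD, hD, h c]
  let lam : V → V → Module.Dual F L := fun u v =>
    { toFun := fun c => f (c • u) v
      map_add' := fun c c' => by rw [add_smul, map_add, LinearMap.add_apply]
      map_smul' := fun r c => by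
        rw [smul_assoc, map_smul, LinearMap.smul_apply]; rfl }
  let Bf : V → V → L := fun u v => D.symm (lam u v)
  have hB : ∀ u v c, Algebra.trace F L (Bf u v * c) = f (c • u) v := by
    intro u v c
    rw [← hD]
    show D (D.symm (lam u v)) c = _
    rw [LinearEquiv.apply_symm_apply]
    rfl
  have hadd1 : ∀ u u' v, Bf (u + u') v = Bf u v + Bf u' v := by
    intro u u' v
    apply huniq
    intro c
    rw [add_mul, map_add, hB, hB, hB, smul_add, map_add, LinearMap.add_apply]
  have hadd2 : ∀ u v v', Bf u (v + v') = Bf u v + Bf u v' := by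
    intro u v v'
    apply huniq
    intro c
    rw [add_mul, map_add, hB, hB, hB, map_add]
  have hsmul1 : ∀ (a : L) u v, Bf (a • u) v = a * Bf u v := by
    intro a u v
    apply huniq
    intro c
    rw [hB, smul_smul]
    have e : a * Bf u v * c = Bf u v * (c * a) := by ring
    rw [e, hB]
  have hsmul2 : ∀ (a : L) u v, Bf u (a • v) = a * Bf u v := by
    intro a u v
    apply huniq
    intro c
    rw [hB, ← hf, smul_smul]
    have e : a * Bf u v * c = Bf u v * (a * c) := by ring
    rw [e, hB]
  refine ⟨LinearMap.mk₂ L Bf hadd1 (fun a u v => by rw [hsmul1]; rfl) hadd2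
    (fun a u v => by rw [hsmul2]; rfl), ?_, ?_, ?_⟩
  · intro u v
    show f u v = Algebra.trace F L (Bf u v)
    have h1 := hB u v 1
    rw [mul_one, one_smul] at h1
    exact h1.symm
  · intro halt v
    show Bf v v = 0
    apply huniq
    intro c
    rw [hB, halt, zero_mul, map_zero]
  · intro hnd' u hu
    apply hnd'
    intro v
    have h1 := hB u v 1
    rw [mul_one, one_smul] at h1
    rw [← h1]
    have h2 : Bf u v = 0 := hu v
    rw [h2, map_zero]

example : Cfsg.Agent.H77.Fx.StTrForm.{u} := trForm

end Cfsg.Agent.H15.Fx
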