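import Cfsg.Agent.H77.FxDefs
import Cfsg.Agent.H15.FxTrForm
import Cfsg.Agent.H14.FxSympBasis

set_option autoImplicit false
set_option linter.style.haveILetI false

/-!
# S5975 (helper77), piece KDIM

A `K`-invariant nondegenerate subspace has dimension divisible by `2 k`: it is a `K`-space carrying
a nondegenerate alternating `K`-bilinear form (TRFORM), hence of even `K`-dimension (SYMPBASIS).
-/

namespace Cfsg.Agent.H15.Fx

open Cfsg.Agent.H45 Cfsg.Agent.H42.Spd Cfsg.Agent.H77.Fx Module

universe u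

/-- The statement for an abstract field `L` acting through `ψ`. -/
theorem kDim_aux (F : Type u) [Field F] [Fintype F] (d : ℕ) (L : Type u) [Field L] [Fintype L]
    [Algebra F L] (ψ : L →ₐ[F] Mat d F)
    (hsa : ∀ (c : L) (u v : Vec d F), Cfsg.sympForm d F (Matrix.mulVec (ψ c) u) v =
      Cfsg.sympForm d F u (Matrix.mulVec (ψ c) v))
    (halt : ∀ (c : L) (v : Vec d F), Cfsg.sympForm d F (Matrix.mulVec (ψ c) v) v = 0)
    (W : Submodule F (Vec d F)) (hinv : ∀ (c : L), ∀ w ∈ W, Matrix.mulVec (ψ c) w ∈ W)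
    (hnd : W ⊓ perp (stdB d F) W = ⊥) :
    2 * Module.finrank F L ∣ Module.finrank F W := by
  classical
  letI instM : Module L ↥W :=
    { smul := fun c w => ⟨Matrix.mulVec (ψ c) (w : Vec d F), hinv c w w.2⟩
      one_smul := fun w => Subtype.ext (by
        show Matrix.mulVec (ψ 1) (w : Vec d F) = w
        rw [map_one, Matrix.one_mulVec])
      mul_smul := fun a b w => Subtype.ext (by
        show Matrix.mulVec (ψ (a * b)) (w : Vec d F) =
          Matrix.mulVec (ψ a) (Matrix.mulVec (ψ b) (w : Vec d F))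
        rw [map_mul, Matrix.mulVec_mulVec])
      smul_zero := fun a => Subtype.ext (by
        show Matrix.mulVec (ψ a) (0 : Vec d F) = 0
        rw [Matrix.mulVec_zero])
      smul_add := fun a w w' => Subtype.ext (by
        show Matrix.mulVec (ψ a) ((w : Vec d F) + (w' : Vec d F)) =
          Matrix.mulVec (ψ a) (w : Vec d F) + Matrix.mulVec (ψ a) (w' : Vec d F)
        rw [Matrix.mulVec_add])
      add_smul := fun a b w => Subtype.ext (by
        show Matrix.mulVec (ψ (a + b)) (w : Vec d F) =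
          Matrix.mulVec (ψ a) (w : Vec d F) + Matrix.mulVec (ψ b) (w : Vec d F)
        rw [map_add, Matrix.add_mulVec])
      zero_smul := fun w => Subtype.ext (by
        show Matrix.mulVec (ψ 0) (w : Vec d F) = 0
        rw [map_zero, Matrix.zero_mulVec]) }
  have hsmul : ∀ (c : L) (w : ↥W),
      ((c • w : ↥W) : Vec d F) = Matrix.mulVec (ψ c) (w : Vec d F) := fun c w => rfl
  haveI instT : IsScalarTower F L ↥W := by
    refine ⟨fun a c w => Subtype.ext ?_⟩
    rw [hsmul, Submodule.coe_smul, hsmul, map_smul, Matrix.smul_mulVec]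
  haveI instFD : FiniteDimensional L ↥W := Module.Finite.right F L ↥W
  let fW : ↥W →ₗ[F] ↥W →ₗ[F] F := (stdB d F).compl₁₂ W.subtype W.subtype
  have hfW : ∀ u v : ↥W, fW u v = Cfsg.sympForm d F (u : Vec d F) (v : Vec d F) := by
    intro u v
    show stdB d F (u : Vec d F) (v : Vec d F) = _
    rw [stdB_apply]
  obtain ⟨B, hB1, hB2, hB3⟩ := trForm F L ↥W fW (by
    intro c u v
    rw [hfW, hfW, hsmul, hsmul]
    exact hsa c u v)
  have hBalt : ∀ v, B v v = 0 := hB2 (by
    intro c v
    rw [hfW, hsmul]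
    exact halt c v)
  have hBnd : ∀ u, (∀ v, B u v = 0) → u = 0 := hB3 (by
    intro u hu
    have hmem : (u : Vec d F) ∈ W ⊓ perp (stdB d F) W := by
      refine ⟨u.2, ?_⟩
      show ∀ v ∈ W, stdB d F v (u : Vec d F) = 0
      intro v hv
      have h1 := hu ⟨v, hv⟩
      rw [hfW, ← stdB_apply] at h1
      rw [stdB_skew, h1, neg_zero]
    rw [hnd, Submodule.mem_bot] at hmem
    exact Subtype.ext hmem)
  obtain ⟨m, e, he⟩ := Cfsg.Agent.H14.Fx.sympBasis L ↥W B hBalt hBnd
  have h2 : Module.finrank L ↥W = 2 * m := by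
    rw [← e.finrank_eq, Module.finrank_fintype_fun_eq_card, Fintype.card_sum, Fintype.card_fin]
    ring
  have h3 := Module.finrank_mul_finrank F L ↥W
  rw [h2] at h3
  exact ⟨m, by rw [← h3]; ring⟩

/-- S5975-KDIM. -/
theorem kDim : StKDim.{u} := by
  intro F _ _ d k K hK W hinv hnd
  classical
  by_cases hsub : Subsingleton (Vec d F)
  · have h0 : Module.finrank F ↥W = 0 := by
      have : Subsingleton ↥W := ⟨fun a b => Subtype.ext (Subsingleton.elim _ _)⟩
      exact Module.finrank_zero_of_subsingleton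
    rw [h0]
    exact dvd_zero _
  · rw [not_subsingleton_iff_nontrivial] at hsub
    obtain ⟨v, hv⟩ := exists_ne (0 : Vec d F)
    have h10 : (1 : Mat d F) ≠ 0 := by
      intro h
      apply hv
      have h1 := Matrix.one_mulVec v
      rw [h, Matrix.zero_mulVec] at h1
      exact h1.symm
    have hnt : Nontrivial ↥K := ⟨⟨0, 1, fun h => h10 (congrArg Subtype.val h).symm⟩⟩
    have hfld : IsField ↥K :=
      { exists_pair_ne := ⟨0, 1, zero_ne_one⟩
        mul_comm := fun a b => Subtype.ext (hK.field.comm a a.2 b b.2)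
        mul_inv_cancel := fun {a} ha => by
          obtain ⟨y, hy, hxy⟩ := hK.field.inv a a.2 (fun h => ha (Subtype.ext h))
          exact ⟨⟨y, hy⟩, Subtype.ext hxy⟩ }
    letI instF : Field ↥K := hfld.toField
    letI instFin : Fintype ↥K := Fintype.ofFinite _
    have h := kDim_aux F d ↥K K.val (fun c u v => hK.sa c c.2 u v) (fun c v => hK.alt c c.2 v) W
      (fun c w hw => hinv c c.2 w hw) hnd
    rw [hK.field.finrank_eq] at h
    exact h

example : Cfsg.Agent.H77.Fx.StKDim.{u} := kDim

end Cfsg.Agent.H15.Fx
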