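import Cfsg.Agent.H86.GsDefs

/-!
# GS-TOR (helper15, for helper86's S5665): the torus maps are symplectic and commute with `J`

`tor J e α β x = x + p(x) • e + q(x) • J e` with the two linear coordinates
`p = (ψ e)⁻¹ ((α - 1) f(x, J e) + β δ f(x, e))`, `q = (ψ e)⁻¹ (β f(x, J e) - (α - 1) f(x, e))`.
-/

set_option autoImplicit false

namespace Cfsg.Agent.H15.Gs

open Cfsg Cfsg.Geo Cfsg.Agent.H95 Cfsg.Agent.H86.Gs
open scoped MatrixGroups Matrix

universe u

section Tor

variable {m : ℕ} {F : Type*} [Field F]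

/-- The coefficient of `e` in `tor J e α β x - x`. -/
def tp (J : Mat m F) (δ : F) (e : V m F) (α β : F) (x : V m F) : F :=
  (psi J e)⁻¹ * ((α - 1) * sympForm m F x (J *ᵥ e) + β * δ * sympForm m F x e)

/-- The coefficient of `J e` in `tor J e α β x - x`. -/
def tq (J : Mat m F) (e : V m F) (α β : F) (x : V m F) : F :=
  (psi J e)⁻¹ * (β * sympForm m F x (J *ᵥ e) - (α - 1) * sympForm m F x e)

lemma tor_eq {J : Mat m F} {δ : F} (C : Ctx J δ) (e : V m F) (α β : F) (x : V m F) :
    tor J e α β x = x + tp J δ e α β x • e + tq J e α β x • (J *ᵥ e) := by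
  unfold tor proj tp tq
  rw [Matrix.mulVec_smul, Matrix.mulVec_sub, Matrix.mulVec_smul, Matrix.mulVec_smul, C.sq]
  module

lemma tp_add (J : Mat m F) (δ : F) (e : V m F) (α β : F) (x y : V m F) :
    tp J δ e α β (x + y) = tp J δ e α β x + tp J δ e α β y := by
  unfold tp
  rw [sympForm_add_left, sympForm_add_left]
  ring

lemma tq_add (J : Mat m F) (e : V m F) (α β : F) (x y : V m F) :
    tq J e α β (x + y) = tq J e α β x + tq J e α β y := by
  unfold tq
  rw [sympForm_add_left, sympForm_add_left]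
  ring

lemma tp_smul (J : Mat m F) (δ : F) (e : V m F) (α β : F) (c : F) (x : V m F) :
    tp J δ e α β (c • x) = c * tp J δ e α β x := by
  unfold tp
  rw [sympForm_smul_left, sympForm_smul_left]
  ring

lemma tq_smul (J : Mat m F) (e : V m F) (α β : F) (c : F) (x : V m F) :
    tq J e α β (c • x) = c * tq J e α β x := by
  unfold tq
  rw [sympForm_smul_left, sympForm_smul_left]
  ring

lemma tp_e (J : Mat m F) (δ : F) {e : V m F} (hN : psi J e ≠ 0) (α β : F) :
    tp J δ e α β e = α - 1 := by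
  have hν : (psi J e)⁻¹ * sympForm m F e (J *ᵥ e) = 1 := inv_mul_cancel₀ hN
  unfold tp
  rw [sympForm_self]
  linear_combination (α - 1) * hν

lemma tq_e (J : Mat m F) {e : V m F} (hN : psi J e ≠ 0) (α β : F) :
    tq J e α β e = β := by
  have hν : (psi J e)⁻¹ * sympForm m F e (J *ᵥ e) = 1 := inv_mul_cancel₀ hN
  unfold tq
  rw [sympForm_self]
  linear_combination β * hν

lemma tp_Je (J : Mat m F) (δ : F) {e : V m F} (hN : psi J e ≠ 0) (α β : F) :
    tp J δ e α β (J *ᵥ e) = -(β * δ) := by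
  have hν : (psi J e)⁻¹ * sympForm m F e (J *ᵥ e) = 1 := inv_mul_cancel₀ hN
  unfold tp
  rw [sympForm_self, sympForm_skew (J *ᵥ e) e]
  linear_combination (-(β * δ)) * hν

lemma tq_Je (J : Mat m F) {e : V m F} (hN : psi J e ≠ 0) (α β : F) :
    tq J e α β (J *ᵥ e) = α - 1 := by
  have hν : (psi J e)⁻¹ * sympForm m F e (J *ᵥ e) = 1 := inv_mul_cancel₀ hN
  unfold tq
  rw [sympForm_self, sympForm_skew (J *ᵥ e) e]
  linear_combination (α - 1) * hν

lemma tp_J {J : Mat m F} {δ : F} (C : Ctx J δ) (e : V m F) (α β : F) (x : V m F) :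
    tp J δ e α β (J *ᵥ x) = -(δ * tq J e α β x) := by
  unfold tp tq
  rw [C.formJJ, C.skew x e]
  ring

lemma tq_J {J : Mat m F} {δ : F} (C : Ctx J δ) (e : V m F) (α β : F) (x : V m F) :
    tq J e α β (J *ᵥ x) = tp J δ e α β x := by
  unfold tp tq
  rw [C.formJJ, C.skew x e]
  ring

/-- The torus map as a linear map. -/
noncomputable def torLin (J : Mat m F) (δ : F) (e : V m F) (α β : F) : V m F →ₗ[F] V m F where
  toFun x := x + tp J δ e α β x • e + tq J e α β x • (J *ᵥ e)
  map_add' x y := by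
    rw [tp_add, tq_add]
    module
  map_smul' c x := by
    rw [tp_smul, tq_smul]
    simp only [RingHom.id_apply]
    module

lemma torLin_apply (J : Mat m F) (δ : F) (e : V m F) (α β : F) (x : V m F) :
    torLin J δ e α β x = x + tp J δ e α β x • e + tq J e α β x • (J *ᵥ e) := rfl

lemma torLin_comp {J : Mat m F} {δ : F} {e : V m F} (hN : psi J e ≠ 0) {α β β' : F}
    (hβ : β' = -β) (hαβ : α * α + δ * β * β = 1) (x : V m F) :
    torLin J δ e α β' (torLin J δ e α β x) = x := by
  subst hβ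
  rw [torLin_apply, torLin_apply]
  rw [tp_add, tp_add, tq_add, tq_add, tp_smul, tp_smul, tq_smul, tq_smul,
    tp_e J δ hN, tq_e J hN, tp_Je J δ hN, tq_Je J hN]
  have k1 : tp J δ e α β x + (tp J δ e α (-β) x + tp J δ e α β x * (α - 1)
      + tq J e α β x * -(-β * δ)) = 0 := by
    unfold tp tq
    linear_combination ((psi J e)⁻¹ * sympForm m F x (J *ᵥ e)) * hαβ
  have k2 : tq J e α β x + (tq J e α (-β) x + tp J δ e α β x * -β
      + tq J e α β x * (α - 1)) = 0 := by
    unfold tp tq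
    linear_combination (-((psi J e)⁻¹ * sympForm m F x e)) * hαβ
  have h : x + tp J δ e α β x • e + tq J e α β x • J *ᵥ e
      + (tp J δ e α (-β) x + tp J δ e α β x * (α - 1) + tq J e α β x * -(-β * δ)) • e
      + (tq J e α (-β) x + tp J δ e α β x * -β + tq J e α β x * (α - 1)) • J *ᵥ e
      = x + (tp J δ e α β x + (tp J δ e α (-β) x + tp J δ e α β x * (α - 1)
          + tq J e α β x * -(-β * δ))) • e
        + (tq J e α β x + (tq J e α (-β) x + tp J δ e α β x * -β
          + tq J e α β x * (α - 1))) • J *ᵥ e := by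
    module
  rw [h, k1, k2]
  simp

lemma torLin_form {J : Mat m F} {δ : F} {e : V m F} (hN : psi J e ≠ 0) {α β : F}
    (hαβ : α * α + δ * β * β = 1) (x y : V m F) :
    sympForm m F (torLin J δ e α β x) (torLin J δ e α β y) = sympForm m F x y := by
  have hν : (psi J e)⁻¹ * sympForm m F e (J *ᵥ e) = 1 := inv_mul_cancel₀ hN
  rw [torLin_apply, torLin_apply]
  simp only [sympForm_add_left, sympForm_add_right, sympForm_smul_left, sympForm_smul_right,
    sympForm_self]
  rw [sympForm_skew e y, sympForm_skew (J *ᵥ e) y, sympForm_skew (J *ᵥ e) e]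
  unfold tp tq
  linear_combination
    ((psi J e)⁻¹ * (sympForm m F y (J *ᵥ e) * sympForm m F x e
        - sympForm m F x (J *ᵥ e) * sympForm m F y e)) * hαβ
    + ((psi J e)⁻¹ * (sympForm m F y (J *ᵥ e) * sympForm m F x e
        - sympForm m F x (J *ᵥ e) * sympForm m F y e) * ((α - 1) ^ 2 + δ * β ^ 2)) * hν

lemma torLin_J {J : Mat m F} {δ : F} (C : Ctx J δ) (e : V m F) (α β : F) (x : V m F) :
    torLin J δ e α β (J *ᵥ x) = J *ᵥ torLin J δ e α β x := by
  rw [torLin_apply, torLin_apply, tp_J C, tq_J C, Matrix.mulVec_add, Matrix.mulVec_add,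
    Matrix.mulVec_smul, Matrix.mulVec_smul, C.sq]
  module

/-- The torus map as a linear equivalence. -/
noncomputable def torEquiv {J : Mat m F} {δ : F} {e : V m F} (hN : psi J e ≠ 0) {α β : F}
    (hαβ : α * α + δ * β * β = 1) : V m F ≃ₗ[F] V m F :=
  LinearEquiv.ofLinearMap (torLin J δ e α β) (torLin J δ e α (-β))
    (LinearMap.ext fun x => torLin_comp hN (neg_neg β).symm (by linear_combination hαβ) x)
    (LinearMap.ext fun x => torLin_comp hN rfl hαβ x)

lemma torEquiv_apply {J : Mat m F} {δ : F} {e : V m F} (hN : psi J e ≠ 0) {α β : F}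
    (hαβ : α * α + δ * β * β = 1) (x : V m F) :
    torEquiv hN hαβ x = torLin J δ e α β x := rfl

end Tor

/-- **GS-TOR**. -/
theorem gsTor : StTor.{u} := by
  intro m F _ J δ C e α β hN hαβ
  have hmv : ∀ x : V m F, ((glOf (torEquiv hN hαβ) : GL (Fin m ⊕ Fin m) F) : Mat m F) *ᵥ x
      = torLin J δ e α β x := fun x => by
    rw [glOf_mulVec, torEquiv_apply]
  refine ⟨glOf (torEquiv hN hαβ), ?_, ?_, fun x => ?_⟩
  · rw [mem_spGL_iff]
    intro x y
    rw [hmv, hmv]
    exact torLin_form hN hαβ x y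
  · apply Cfsg.Agent.H17.matrix_ext_mulVec
    intro x
    rw [← Matrix.mulVec_mulVec, ← Matrix.mulVec_mulVec, hmv, hmv]
    exact torLin_J C e α β x
  · rw [hmv, tor_eq C, torLin_apply]

example : StTor.{u} := gsTor

end Cfsg.Agent.H15.Gs

#print axioms Cfsg.Agent.H15.Gs.gsTor
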