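import Cfsg.Agent.H98.GuBasic
import Cfsg.Agent.H14.FxSympBasis
import Cfsg.Agent.H77.SpnGlue

set_option autoImplicit false

/-!
# S5976 (helper98), piece RESTRICT

An isometry `x` of order `r ≠ p` commuting with a skew root `J` restricts, on the orthogonal `U`
of its fixed space (of dimension `2 n`), to an element of order `r` of the centraliser of the
standard skew root in `Sp_{2n}`.
-/

namespace Cfsg.Agent.H15.Gu

open Cfsg.Agent.H45 Cfsg.Agent.H42.Spd Cfsg.Agent.H98.Gu Module Matrix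

universe u

variable {F : Type u} [Field F]

theorem pow_mulVec_fix {ι : Type} [Fintype ι] [DecidableEq ι] (A : Matrix ι ι F) (k : ι → F)
    (hk : A *ᵥ k = k) (i : ℕ) : (A ^ i) *ᵥ k = k := by
  induction i with
  | zero => rw [pow_zero, Matrix.one_mulVec]
  | succ i ih => rw [pow_succ, ← Matrix.mulVec_mulVec, hk, ih]

theorem pow_isom (d : ℕ) (A : Matrix (Fin d ⊕ Fin d) (Fin d ⊕ Fin d) F)
    (hA : ∀ u v, stdB d F (A *ᵥ u) (A *ᵥ v) = stdB d F u v) (i : ℕ)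
    (u v : Fin d ⊕ Fin d → F) : stdB d F ((A ^ i) *ᵥ u) ((A ^ i) *ᵥ v) = stdB d F u v := by
  induction i generalizing u v with
  | zero => rw [pow_zero, Matrix.one_mulVec, Matrix.one_mulVec]
  | succ i ih => rw [pow_succ, ← Matrix.mulVec_mulVec, ← Matrix.mulVec_mulVec, ih, hA]

/-- Two matrices with the same action on vectors are equal. -/
theorem mat_ext {ι : Type} [Fintype ι] [DecidableEq ι] (A B : Matrix ι ι F)
    (h : ∀ u : ι → F, A *ᵥ u = B *ᵥ u) : A = B := by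
  apply Matrix.toLin'.injective
  apply LinearMap.ext
  intro u
  rw [Matrix.toLin'_apply, Matrix.toLin'_apply, h]

/-- The fixed space of an isometry of order prime to the characteristic is nondegenerate. -/
theorem fix_nd [Finite F] (d : ℕ) (A : Matrix (Fin d ⊕ Fin d) (Fin d ⊕ Fin d) F)
    (hA : ∀ u v, stdB d F (A *ᵥ u) (A *ᵥ v) = stdB d F u v) (r : ℕ) (hAr : A ^ r = 1)
    (hrF : (r : F) ≠ 0) (K : Submodule F (Fin d ⊕ Fin d → F))
    (hmemK : ∀ v, v ∈ K ↔ A *ᵥ v = v) : K ⊓ perp (stdB d F) K = ⊥ := by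
  rw [eq_bot_iff]
  rintro k ⟨hkK, hkP⟩
  rw [Submodule.mem_bot]
  have hAk : A *ᵥ k = k := (hmemK k).1 hkK
  have key : ∀ y, stdB d F y k = 0 := by
    intro y
    have hNyK : (∑ i ∈ Finset.range r, (A ^ i) *ᵥ y) ∈ K := by
      rw [hmemK, ← Matrix.mulVecLin_apply, map_sum]
      simp only [Matrix.mulVecLin_apply]
      have e1 : ∀ i, A *ᵥ ((A ^ i) *ᵥ y) = (A ^ (i + 1)) *ᵥ y := fun i => by
        rw [Matrix.mulVec_mulVec, ← pow_succ']
      simp only [e1]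
      have h1 := Finset.sum_range_succ (fun i => (A ^ i) *ᵥ y) r
      have h2 := Finset.sum_range_succ' (fun i => (A ^ i) *ᵥ y) r
      rw [h1] at h2
      simp only [hAr, pow_zero] at h2
      exact (add_right_cancel h2).symm
    have h3 : stdB d F (∑ i ∈ Finset.range r, (A ^ i) *ᵥ y) k = 0 := hkP _ hNyK
    rw [map_sum, LinearMap.sum_apply] at h3
    have e2 : ∀ i ∈ Finset.range r, stdB d F ((A ^ i) *ᵥ y) k = stdB d F y k := by
      intro i _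
      have h4 := pow_isom d A hA i y k
      rw [pow_mulVec_fix A k hAk i] at h4
      exact h4
    rw [Finset.sum_congr rfl e2, Finset.sum_const, Finset.card_range, nsmul_eq_mul] at h3
    exact (mul_eq_zero.mp h3).resolve_left hrF
  apply stdB_nondeg d k
  intro y
  rw [stdB_skew, key, neg_zero]

theorem restrict (hConj : StConj.{u}) : StRestrict.{u} := by
  intro F _ _ p _ _ d δ J x r n hp2 hδ hJ hx hxJ hr hrp hxr hfin hn
  classical
  have hp : p.Prime := Fact.out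
  have hrF : (r : F) ≠ 0 := by
    intro h0
    exact hrp ((Nat.prime_dvd_prime_iff_eq hp hr).mp ((CharP.cast_eq_zero_iff F p r).mp h0)).symm
  have hodd : Odd (Fintype.card F) := by
    obtain ⟨k, -, hk⟩ := FiniteField.card F p
    rw [hk]
    exact (hp.odd_of_ne_two hp2).pow
  obtain ⟨A, hAdef⟩ : ∃ A : Matrix (Fin d ⊕ Fin d) (Fin d ⊕ Fin d) F,
      A = (x : Matrix (Fin d ⊕ Fin d) (Fin d ⊕ Fin d) F) := ⟨_, rfl⟩
  rw [← hAdef] at hxJ hfin
  have hA : ∀ u v, stdB d F (A *ᵥ u) (A *ᵥ v) = stdB d F u v := by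
    intro u v
    rw [stdB_apply, stdB_apply, hAdef]
    exact hx u v
  have hAr : A ^ r = 1 := by
    rw [hAdef, ← Units.val_pow_eq_pow_val, hxr]
    rfl
  obtain ⟨K, hKdef⟩ : ∃ K : Submodule F (Fin d ⊕ Fin d → F),
      K = LinearMap.ker (Matrix.toLin' A - 1) := ⟨_, rfl⟩
  rw [← hKdef] at hfin
  have hmemK : ∀ v : Fin d ⊕ Fin d → F, v ∈ K ↔ A *ᵥ v = v := by
    intro v
    rw [hKdef, LinearMap.mem_ker, LinearMap.sub_apply, Matrix.toLin'_apply, sub_eq_zero]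
    rfl
  have hK : K ⊓ perp (stdB d F) K = ⊥ := fix_nd d A hA r hAr hrF K hmemK
  obtain ⟨U, hUdef⟩ : ∃ U : Submodule F (Fin d ⊕ Fin d → F), U = perp (stdB d F) K := ⟨_, rfl⟩
  have hmemU : ∀ v : Fin d ⊕ Fin d → F, v ∈ U ↔ ∀ k ∈ K, stdB d F k v = 0 := by
    intro v
    rw [hUdef]
    rfl
  have hUnd : U ⊓ perp (stdB d F) U = ⊥ := by
    rw [hUdef]
    exact Cfsg.Agent.H77.Spn.perp_nd d K hK
  have hUfin : Module.finrank F ↥U = 2 * n := by
    have h1 := Cfsg.Agent.H77.Spn.finrank_perp d K hK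
    rw [← hUdef, Module.finrank_fintype_fun_eq_card, Fintype.card_sum, Fintype.card_fin] at h1
    omega
  have hKU : ∀ v : Fin d ⊕ Fin d → F, v ∈ K → v ∈ U → v = 0 := by
    intro v hvK hvU
    have h1 : v ∈ K ⊓ perp (stdB d F) K := ⟨hvK, by rw [← hUdef]; exact hvU⟩
    rw [hK, Submodule.mem_bot] at h1
    exact h1
  have hUA : ∀ u ∈ U, A *ᵥ u ∈ U := by
    intro u hu
    rw [hmemU] at hu ⊢
    intro k hk
    have h1 := hA k u
    rw [(hmemK k).1 hk] at h1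
    rw [h1]
    exact hu k hk
  have hJK : ∀ k ∈ K, J *ᵥ k ∈ K := by
    intro k hk
    rw [hmemK] at hk ⊢
    rw [Matrix.mulVec_mulVec, hxJ, ← Matrix.mulVec_mulVec, hk]
  have hUJ : ∀ u ∈ U, J *ᵥ u ∈ U := by
    intro u hu
    rw [hmemU] at hu ⊢
    intro k hk
    have h1 := hJ.2 k u
    rw [← stdB_apply, ← stdB_apply] at h1
    have h2 : stdB d F k (J *ᵥ u) = -stdB d F (J *ᵥ k) u := by rw [h1, neg_neg]
    rw [h2, hu _ (hJK k hk), neg_zero]
  -- the form on `U` and standard coordinates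
  let BU : ↥U →ₗ[F] ↥U →ₗ[F] F := (stdB d F).compl₁₂ U.subtype U.subtype
  have hBU : ∀ a b : ↥U, BU a b = stdB d F (a : Fin d ⊕ Fin d → F) (b : Fin d ⊕ Fin d → F) :=
    fun a b => rfl
  have hBUalt : ∀ v, BU v v = 0 := fun v => by rw [hBU]; exact stdB_alt d _
  have hBUnd : ∀ a, (∀ b, BU a b = 0) → a = 0 := by
    intro a ha
    have h1 : (a : Fin d ⊕ Fin d → F) ∈ U ⊓ perp (stdB d F) U := by
      refine ⟨a.2, ?_⟩
      intro b hb
      have h2 := ha ⟨b, hb⟩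
      rw [hBU] at h2
      rw [stdB_skew, h2, neg_zero]
    rw [hUnd, Submodule.mem_bot] at h1
    exact Subtype.ext h1
  obtain ⟨m, e, he⟩ := Cfsg.Agent.H14.Fx.sympBasis F ↥U BU hBUalt hBUnd
  have hmn : m = n := by
    have h1 := e.finrank_eq
    rw [hUfin, Module.finrank_fintype_fun_eq_card, Fintype.card_sum, Fintype.card_fin] at h1
    omega
  subst hmn
  have hform : ∀ w w' : Fin m ⊕ Fin m → F, Cfsg.sympForm m F w w' =
      stdB d F ((e w : ↥U) : Fin d ⊕ Fin d → F) ((e w' : ↥U) : Fin d ⊕ Fin d → F) := by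
    intro w w'
    rw [← he, hBU]
  have hinj : ∀ w w' : Fin m ⊕ Fin m → F,
      ((e w : ↥U) : Fin d ⊕ Fin d → F) = ((e w' : ↥U) : Fin d ⊕ Fin d → F) → w = w' :=
    fun w w' h => e.injective (Subtype.ext h)
  let XU : ↥U →ₗ[F] ↥U := (Matrix.toLin' A).restrict (fun u hu => by
    rw [Matrix.toLin'_apply]; exact hUA u hu)
  let JU : ↥U →ₗ[F] ↥U := (Matrix.toLin' J).restrict (fun u hu => by
    rw [Matrix.toLin'_apply]; exact hUJ u hu)
  let T : (Fin m ⊕ Fin m → F) →ₗ[F] (Fin m ⊕ Fin m → F) :=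
    e.symm.toLinearMap ∘ₗ XU ∘ₗ e.toLinearMap
  let TJ : (Fin m ⊕ Fin m → F) →ₗ[F] (Fin m ⊕ Fin m → F) :=
    e.symm.toLinearMap ∘ₗ JU ∘ₗ e.toLinearMap
  obtain ⟨Y₀, hY₀def⟩ : ∃ Y₀ : Matrix (Fin m ⊕ Fin m) (Fin m ⊕ Fin m) F,
      Y₀ = LinearMap.toMatrix' T := ⟨_, rfl⟩
  obtain ⟨J₂, hJ₂def⟩ : ∃ J₂ : Matrix (Fin m ⊕ Fin m) (Fin m ⊕ Fin m) F,
      J₂ = LinearMap.toMatrix' TJ := ⟨_, rfl⟩
  have hY : ∀ w : Fin m ⊕ Fin m → F, ((e (Y₀ *ᵥ w) : ↥U) : Fin d ⊕ Fin d → F) =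
      A *ᵥ ((e w : ↥U) : Fin d ⊕ Fin d → F) := by
    intro w
    have h1 : Y₀ *ᵥ w = e.symm (XU (e w)) := by
      rw [hY₀def, ← Matrix.toLin'_apply, Matrix.toLin'_toMatrix']
      rfl
    rw [h1, LinearEquiv.apply_symm_apply]
    show ((Matrix.toLin' A).restrict _ (e w) : Fin d ⊕ Fin d → F) = _
    rw [LinearMap.coe_restrict_apply, Matrix.toLin'_apply]
  have hJ₂ : ∀ w : Fin m ⊕ Fin m → F, ((e (J₂ *ᵥ w) : ↥U) : Fin d ⊕ Fin d → F) =
      J *ᵥ ((e w : ↥U) : Fin d ⊕ Fin d → F) := by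
    intro w
    have h1 : J₂ *ᵥ w = e.symm (JU (e w)) := by
      rw [hJ₂def, ← Matrix.toLin'_apply, Matrix.toLin'_toMatrix']
      rfl
    rw [h1, LinearEquiv.apply_symm_apply]
    show ((Matrix.toLin' J).restrict _ (e w) : Fin d ⊕ Fin d → F) = _
    rw [LinearMap.coe_restrict_apply, Matrix.toLin'_apply]
  -- properties of the transported matrices
  have hYsp : ∀ w w' : Fin m ⊕ Fin m → F,
      Cfsg.sympForm m F (Y₀ *ᵥ w) (Y₀ *ᵥ w') = Cfsg.sympForm m F w w' := by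
    intro w w'
    rw [hform, hform, hY, hY, hA]
  have hJ₂skew : IsSkewRoot m δ J₂ := by
    refine ⟨?_, ?_⟩
    · apply mat_ext
      intro w
      apply hinj
      rw [← Matrix.mulVec_mulVec, hJ₂, hJ₂, Matrix.mulVec_mulVec, hJ.1, Matrix.smul_mulVec,
        Matrix.one_mulVec, Matrix.smul_mulVec, Matrix.one_mulVec, map_smul, Submodule.coe_smul]
    · intro w w'
      rw [hform, hform, hJ₂, hJ₂, stdB_apply, stdB_apply]
      exact hJ.2 _ _
  have hYJ : Y₀ * J₂ = J₂ * Y₀ := by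
    apply mat_ext
    intro w
    apply hinj
    rw [← Matrix.mulVec_mulVec, ← Matrix.mulVec_mulVec, hY, hJ₂, hJ₂, hY, Matrix.mulVec_mulVec,
      Matrix.mulVec_mulVec, hxJ]
  have hYpow : ∀ (i : ℕ) (w : Fin m ⊕ Fin m → F),
      ((e ((Y₀ ^ i) *ᵥ w) : ↥U) : Fin d ⊕ Fin d → F) =
        (A ^ i) *ᵥ ((e w : ↥U) : Fin d ⊕ Fin d → F) := by
    intro i
    induction i with
    | zero =>
      intro w
      rw [pow_zero, pow_zero, Matrix.one_mulVec, Matrix.one_mulVec]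
    | succ i ih =>
      intro w
      rw [pow_succ, pow_succ, ← Matrix.mulVec_mulVec, ih, hY, Matrix.mulVec_mulVec]
  have hYr : Y₀ ^ r = 1 := by
    apply mat_ext
    intro w
    apply hinj
    rw [hYpow, hAr, Matrix.one_mulVec, Matrix.one_mulVec]
  have hYne : Y₀ ≠ 1 := by
    intro h1
    have hw : ∀ w : Fin m ⊕ Fin m → F, w = 0 := by
      intro w
      have h2 := hY w
      rw [h1, Matrix.one_mulVec] at h2
      have h3 : ((e w : ↥U) : Fin d ⊕ Fin d → F) = 0 :=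
        hKU _ ((hmemK _).2 h2.symm) (e w).2
      apply hinj
      rw [h3, map_zero]
      rfl
    have h4 := congrFun (hw (Pi.single (Sum.inl ⟨0, hn⟩) 1)) (Sum.inl ⟨0, hn⟩)
    simp at h4
  -- straighten the skew root
  obtain ⟨P, hP, hPJ⟩ := hConj F m δ J₂ (J0 m δ) hodd hδ hJ₂skew (isSkewRoot_J0 m δ)
  have hr1 : r - 1 + 1 = r := Nat.sub_add_cancel hr.one_lt.le
  have hinv1 : Y₀ * Y₀ ^ (r - 1) = 1 := by rw [← pow_succ', hr1, hYr]
  have hinv2 : Y₀ ^ (r - 1) * Y₀ = 1 := by rw [← pow_succ, hr1, hYr]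
  obtain ⟨y₀, hy₀def⟩ : ∃ y₀ : Matrix.GeneralLinearGroup (Fin m ⊕ Fin m) F,
      y₀ = ⟨Y₀, Y₀ ^ (r - 1), hinv1, hinv2⟩ := ⟨_, rfl⟩
  have hy₀val : (y₀ : Matrix (Fin m ⊕ Fin m) (Fin m ⊕ Fin m) F) = Y₀ := by rw [hy₀def]
  have hy₀sp : y₀ ∈ Cfsg.spGL m F := by
    show ∀ u v : Fin m ⊕ Fin m → F, Cfsg.sympForm m F
      ((y₀ : Matrix (Fin m ⊕ Fin m) (Fin m ⊕ Fin m) F) *ᵥ u)
      ((y₀ : Matrix (Fin m ⊕ Fin m) (Fin m ⊕ Fin m) F) *ᵥ v) = Cfsg.sympForm m F u v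
    intro u v
    rw [hy₀val]
    exact hYsp u v
  have hy₀r : y₀ ^ r = 1 := by
    apply Units.ext
    rw [Units.val_pow_eq_pow_val, hy₀val, hYr]
    rfl
  have hy₀ne : y₀ ≠ 1 := by
    intro h
    apply hYne
    rw [← hy₀val, h]
    rfl
  refine ⟨P * y₀ * P⁻¹, ?_, ?_, ?_, ?_⟩
  · exact (Cfsg.spGL m F).mul_mem ((Cfsg.spGL m F).mul_mem hP hy₀sp) ((Cfsg.spGL m F).inv_mem hP)
  · rw [mem_centJ, Units.val_mul, Units.val_mul, hy₀val]
    have h1 : J₂ * ((P⁻¹ : Matrix.GeneralLinearGroup (Fin m ⊕ Fin m) F) :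
        Matrix (Fin m ⊕ Fin m) (Fin m ⊕ Fin m) F) =
        ((P⁻¹ : Matrix.GeneralLinearGroup (Fin m ⊕ Fin m) F) :
          Matrix (Fin m ⊕ Fin m) (Fin m ⊕ Fin m) F) * J0 m δ := by
      have h2 := congrArg (fun M => ((P⁻¹ : Matrix.GeneralLinearGroup (Fin m ⊕ Fin m) F) :
        Matrix (Fin m ⊕ Fin m) (Fin m ⊕ Fin m) F) * M *
        ((P⁻¹ : Matrix.GeneralLinearGroup (Fin m ⊕ Fin m) F) :
          Matrix (Fin m ⊕ Fin m) (Fin m ⊕ Fin m) F)) hPJ
      simp only [mul_assoc, Units.inv_mul_cancel_left, Units.mul_inv, mul_one] at h2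
      exact h2
    calc (P : Matrix (Fin m ⊕ Fin m) (Fin m ⊕ Fin m) F) * Y₀ *
          ((P⁻¹ : Matrix.GeneralLinearGroup (Fin m ⊕ Fin m) F) :
            Matrix (Fin m ⊕ Fin m) (Fin m ⊕ Fin m) F) * J0 m δ
        = (P : Matrix (Fin m ⊕ Fin m) (Fin m ⊕ Fin m) F) * (Y₀ * J₂) *
          ((P⁻¹ : Matrix.GeneralLinearGroup (Fin m ⊕ Fin m) F) :
            Matrix (Fin m ⊕ Fin m) (Fin m ⊕ Fin m) F) := by
          simp only [mul_assoc, h1]
      _ = ((P : Matrix (Fin m ⊕ Fin m) (Fin m ⊕ Fin m) F) * J₂) * Y₀ *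
          ((P⁻¹ : Matrix.GeneralLinearGroup (Fin m ⊕ Fin m) F) :
            Matrix (Fin m ⊕ Fin m) (Fin m ⊕ Fin m) F) := by
          rw [hYJ]
          simp only [mul_assoc]
      _ = J0 m δ * ((P : Matrix (Fin m ⊕ Fin m) (Fin m ⊕ Fin m) F) * Y₀ *
          ((P⁻¹ : Matrix.GeneralLinearGroup (Fin m ⊕ Fin m) F) :
            Matrix (Fin m ⊕ Fin m) (Fin m ⊕ Fin m) F)) := by
          rw [hPJ]
          simp only [mul_assoc]
  · rw [conj_pow, hy₀r, mul_one, mul_inv_cancel]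
  · intro h
    apply hy₀ne
    have h2 : y₀ = P⁻¹ * (P * y₀ * P⁻¹) * P := by group
    rw [h2, h]
    group

example (hConj : Cfsg.Agent.H98.Gu.StConj.{u}) : Cfsg.Agent.H98.Gu.StRestrict.{u} :=
  restrict hConj

end Cfsg.Agent.H15.Gu
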