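import Mathlib
import Cfsg.Agent.H64.JzDefs
import Cfsg.Agent.S2950
import Cfsg.Agent.H15.J46.S2946c
import Cfsg.Agent.S0605
import Cfsg.Agent.Helper55.UqBase
import Cfsg.Agent.H63.SnIfV
import Cfsg.Agent.H32.SqV

/-!
helper15: piece JZ-SC for S2951 (helper64's team project JZ).

`T = S` and a second `J(S)`-component `K'` outside `L`: then `Z = Z₀` and `|Z₀| ∈ {2, 4}`.
`Z₁ = Z₀ ∩ Z(⟨K, J⟩)`, `Z₁' = Z₀ ∩ Z(⟨K', J⟩)` are of index `≤ 2` in `Z₀` (S2946), and
`Z₁ ∩ Z₁' = 1` since `C_G(y) ≤ L` for `1 ≠ y ∈ Z₁` (uniqueness of `L`, S2950); `Z` lies in neither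
(`C_G(Z) ≤ N_G(S)` and a `J(S)`-component is not a 2-group); if `Z ≠ Z₀` some `s ∈ S` swaps the
involutions of `Z₁` and `Z₁'`, so `K' ≤ C_G(z₁') = C_G(z₁)^s ≤ L`.
-/

set_option autoImplicit false
open Cfsg

namespace Cfsg.Agent.H15.Jz

open Cfsg.Agent.H64.Jz

universe u

/-- a group of exponent 2 is commutative -/
theorem sc_comm {G : Type u} [Group G] (Z0 : Subgroup G) (hsq : ∀ u ∈ Z0, u * u = 1) :
    ∀ a ∈ Z0, ∀ b ∈ Z0, a * b = b * a := by
  intro a ha b hb
  have h1 := hsq a ha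
  have h2 := hsq b hb
  have h3 := hsq (a * b) (mul_mem ha hb)
  have ha' : a⁻¹ = a := inv_eq_of_mul_eq_one_left h1
  have hb' : b⁻¹ = b := inv_eq_of_mul_eq_one_left h2
  have h4 : (a * b)⁻¹ = a * b := inv_eq_of_mul_eq_one_left h3
  rw [mul_inv_rev, ha', hb'] at h4
  exact h4.symm

theorem sc_prod {G : Type u} [Group G] (Z0 : Subgroup G) (hsq : ∀ u ∈ Z0, u * u = 1)
    {a b w : G} (hb : b ∈ Z0) (hw : w ∈ Z0) : a * b = (a * w) * (b * w) := by
  calc a * b = a * b * (w * w) := by rw [hsq w hw, mul_one]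
    _ = a * (b * w) * w := by group
    _ = a * (w * b) * w := by rw [sc_comm Z0 hsq b hb w hw]
    _ = (a * w) * (b * w) := by group

/-- hyperplane description: `Z₀ = Z₁ ∪ Z₁ w`. -/
theorem sc_hyper {G : Type u} [Group G] (Z0 Z1 W0 : Subgroup G) (hsq : ∀ u ∈ Z0, u * u = 1)
    (h1 : Z1 ≤ Z0) (hW : Nat.card ↥W0 = 2) (hsup : Z1 ⊔ W0 = Z0) :
    ∃ w ∈ Z0, ∀ x ∈ Z0, x ∈ Z1 ∨ x * w ∈ Z1 := by
  obtain ⟨⟨w, hwW⟩, hw1, hwu⟩ := (Nat.card_eq_two_iff' (1 : ↥W0)).mp hW
  have hW0 : W0 ≤ Z0 := by rw [← hsup]; exact le_sup_right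
  have hwZ : w ∈ Z0 := hW0 hwW
  have hWel : ∀ x ∈ W0, x = 1 ∨ x = w := by
    intro x hx
    by_cases hx1 : x = 1
    · exact Or.inl hx1
    · right
      have h := hwu ⟨x, hx⟩ (fun h => hx1 (by simpa using congrArg Subtype.val h))
      simpa using congrArg Subtype.val h
  have hcomm := sc_comm Z0 hsq
  refine ⟨w, hwZ, ?_⟩
  let H : Subgroup G :=
    { carrier := {x | x ∈ Z0 ∧ (x ∈ Z1 ∨ x * w ∈ Z1)}
      one_mem' := ⟨one_mem _, Or.inl (one_mem _)⟩
      mul_mem' := by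
        rintro a b ⟨ha, ha'⟩ ⟨hb, hb'⟩
        refine ⟨mul_mem ha hb, ?_⟩
        rcases ha' with ha' | ha' <;> rcases hb' with hb' | hb'
        · exact Or.inl (mul_mem ha' hb')
        · right; rw [mul_assoc]; exact mul_mem ha' hb'
        · right
          have h : a * b * w = a * w * b := by
            rw [mul_assoc, hcomm b hb w hwZ, ← mul_assoc]
          rw [h]; exact mul_mem ha' hb'
        · left
          rw [sc_prod Z0 hsq hb hwZ (a := a)]; exact mul_mem ha' hb'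
      inv_mem' := by
        rintro a ⟨ha, ha'⟩
        have h : a⁻¹ = a := inv_eq_of_mul_eq_one_left (hsq a ha)
        rw [Set.mem_setOf_eq, h]; exact ⟨ha, ha'⟩ }
  have hZ1H : Z1 ≤ H := fun x hx => ⟨h1 hx, Or.inl hx⟩
  have hW0H : W0 ≤ H := by
    intro x hx
    refine ⟨hW0 hx, ?_⟩
    rcases hWel x hx with rfl | rfl
    · exact Or.inl (one_mem _)
    · right; rw [hsq _ hwZ]; exact one_mem _
  intro x hx
  have h2 : Z1 ⊔ W0 ≤ H := sup_le hZ1H hW0H
  rw [hsup] at h2
  exact (h2 hx).2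

/-- the abstract core of (SC). -/
theorem sc_core {G : Type u} [Group G] (S Z Z0 Z1 Z1' L K' : Subgroup G) (w w' : G)
    (hsq : ∀ u ∈ Z0, u * u = 1) (hZ : Z ≤ Z0) (hwZ : w ∈ Z0) (hwZ' : w' ∈ Z0)
    (hw : ∀ x ∈ Z0, x ∈ Z1 ∨ x * w ∈ Z1) (hw' : ∀ x ∈ Z0, x ∈ Z1' ∨ x * w' ∈ Z1')
    (hU : ∀ y ∈ Z1, y ≠ 1 → Subgroup.centralizer ({y} : Set G) ≤ L)
    (hKc : ∀ y ∈ Z1', K' ≤ Subgroup.centralizer ({y} : Set G)) (hKL : ¬ K' ≤ L)
    (hnZ1 : ¬ Z ≤ Z1) (hnZ1' : ¬ Z ≤ Z1')
    (hSZ0 : ∀ s ∈ S, ∀ u ∈ Z0, s * u * s⁻¹ ∈ Z0)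
    (hfix : ∀ u ∈ Z0, (∀ s ∈ S, s * u * s⁻¹ = u) → u ∈ Z)
    (hZc : ∀ u ∈ Z, ∀ s ∈ S, s * u * s⁻¹ = u) (hSL : S ≤ L) :
    Z = Z0 ∧ Nat.card ↥Z0 ≤ 4 := by
  classical
  have hdisj : ∀ y, y ∈ Z1 → y ∈ Z1' → y = 1 := by
    intro y h1 h2
    by_contra hy
    exact hKL ((hKc y h2).trans (hU y h1 hy))
  have hpat : ∀ x ∈ Z0, ∀ y ∈ Z0, (x ∈ Z1 ↔ y ∈ Z1) → (x ∈ Z1' ↔ y ∈ Z1') → x = y := by
    intro x hx y hy h1 h2
    have hxy : x * y ∈ Z1 := by
      by_cases hx1 : x ∈ Z1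
      · exact mul_mem hx1 (h1.mp hx1)
      · have hy1 : y ∉ Z1 := fun h => hx1 (h1.mpr h)
        have a1 := (hw x hx).resolve_left hx1
        have a2 := (hw y hy).resolve_left hy1
        rw [sc_prod Z0 hsq hy hwZ (a := x)]; exact mul_mem a1 a2
    have hxy' : x * y ∈ Z1' := by
      by_cases hx1 : x ∈ Z1'
      · exact mul_mem hx1 (h2.mp hx1)
      · have hy1 : y ∉ Z1' := fun h => hx1 (h2.mpr h)
        have a1 := (hw' x hx).resolve_left hx1
        have a2 := (hw' y hy).resolve_left hy1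
        rw [sc_prod Z0 hsq hy hwZ' (a := x)]; exact mul_mem a1 a2
    have h3 := hdisj _ hxy hxy'
    have h4 := hsq y hy
    calc x = x * (y * y) := by rw [h4, mul_one]
      _ = (x * y) * y := by group
      _ = y := by rw [h3, one_mul]
  refine ⟨?_, ?_⟩
  · obtain ⟨a, haZ, ha1⟩ := SetLike.not_le_iff_exists.mp hnZ1
    obtain ⟨a', ha'Z, ha'1⟩ := SetLike.not_le_iff_exists.mp hnZ1'
    -- pattern (F, F) lies in Z
    have hFF : ∀ v ∈ Z0, v ∉ Z1 → v ∉ Z1' → v ∈ Z := by
      intro v hv hv1 hv1'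
      by_cases ha2 : a ∈ Z1'
      · by_cases ha3 : a' ∈ Z1
        · -- v = a * a'
          have hp1 : a * a' ∉ Z1 := by
            intro h
            apply ha1
            have h5 : a = (a * a') * a'⁻¹ := by group
            rw [h5]; exact mul_mem h (inv_mem ha3)
          have hp2 : a * a' ∉ Z1' := by
            intro h
            apply ha'1
            have h5 : a' = a⁻¹ * (a * a') := by group
            rw [h5]; exact mul_mem (inv_mem ha2) h
          have h6 := hpat v hv (a * a') (mul_mem (hZ haZ) (hZ ha'Z))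
            (iff_of_false hv1 hp1) (iff_of_false hv1' hp2)
          rw [h6]; exact mul_mem haZ ha'Z
        · have h6 := hpat v hv a' (hZ ha'Z) (iff_of_false hv1 ha3) (iff_of_false hv1' ha'1)
          rw [h6]; exact ha'Z
      · have h6 := hpat v hv a (hZ haZ) (iff_of_false hv1 ha1) (iff_of_false hv1' ha2)
        rw [h6]; exact haZ
    -- no swap
    have hswap : ∀ v ∈ Z1, v ≠ 1 → ∀ t ∈ S, t * v * t⁻¹ ∈ Z1' → False := by
      intro v hv hv1 t ht hvt
      apply hKL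
      intro k hk
      have h1 := hKc _ hvt hk
      rw [Subgroup.mem_centralizer_iff] at h1
      have h2 := h1 _ (Set.mem_singleton _)
      have h3 : t⁻¹ * k * t ∈ Subgroup.centralizer ({v} : Set G) := by
        rw [Subgroup.mem_centralizer_iff]
        intro h hh
        rw [Set.mem_singleton_iff] at hh
        subst hh
        calc h * (t⁻¹ * k * t) = t⁻¹ * ((t * h * t⁻¹) * k) * t := by group
          _ = t⁻¹ * (k * (t * h * t⁻¹)) * t := by rw [h2]
          _ = t⁻¹ * k * t * h := by group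
      have h4 := hU v hv hv1 h3
      have h5 : k = t * (t⁻¹ * k * t) * t⁻¹ := by group
      rw [h5]
      exact mul_mem (mul_mem (hSL ht) h4) (inv_mem (hSL ht))
    by_contra hne
    have hlt : ¬ Z0 ≤ Z := fun h => hne (le_antisymm hZ h)
    obtain ⟨u0, hu0, hu0Z⟩ := SetLike.not_le_iff_exists.mp hlt
    have hmv : ∃ s ∈ S, s * u0 * s⁻¹ ≠ u0 := by
      by_contra hcon
      push Not at hcon
      exact hu0Z (hfix u0 hu0 hcon)
    obtain ⟨s, hs, hsu⟩ := hmv
    have hu1 : s * u0 * s⁻¹ ∈ Z0 := hSZ0 s hs u0 hu0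
    have hu1Z : s * u0 * s⁻¹ ∉ Z := by
      intro h
      have h1 := hZc _ h s⁻¹ (inv_mem hs)
      apply hsu
      have h2 : s⁻¹ * (s * u0 * s⁻¹) * s⁻¹⁻¹ = u0 := by group
      rw [h2] at h1
      exact h1.symm
    have hback : s⁻¹ * (s * u0 * s⁻¹) * s⁻¹⁻¹ = u0 := by group
    by_cases c1 : u0 ∈ Z1 <;> by_cases c2 : u0 ∈ Z1'
    · exact hu0Z (by rw [hdisj u0 c1 c2]; exact one_mem _)
    · -- u0 ∈ Z1, ∉ Z1'
      have hu01 : u0 ≠ 1 := fun h => hu0Z (by rw [h]; exact one_mem _)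
      by_cases d1 : s * u0 * s⁻¹ ∈ Z1 <;> by_cases d2 : s * u0 * s⁻¹ ∈ Z1'
      · exact hu1Z (by rw [hdisj _ d1 d2]; exact one_mem _)
      · exact hsu (hpat _ hu1 u0 hu0 (iff_of_true d1 c1) (iff_of_false d2 c2))
      · exact hswap u0 c1 hu01 s hs d2
      · exact hu1Z (hFF _ hu1 d1 d2)
    · -- u0 ∉ Z1, ∈ Z1'
      by_cases d1 : s * u0 * s⁻¹ ∈ Z1 <;> by_cases d2 : s * u0 * s⁻¹ ∈ Z1'
      · exact hu1Z (by rw [hdisj _ d1 d2]; exact one_mem _)
      · have hu11 : s * u0 * s⁻¹ ≠ 1 := fun h => hu1Z (by rw [h]; exact one_mem _)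
        refine hswap _ d1 hu11 s⁻¹ (inv_mem hs) ?_
        rw [hback]; exact c2
      · exact hsu (hpat _ hu1 u0 hu0 (iff_of_false d1 c1) (iff_of_true d2 c2))
      · exact hu1Z (hFF _ hu1 d1 d2)
    · exact hu0Z (hFF u0 hu0 c1 c2)
  · have hinj : Function.Injective
        (fun x : ↥Z0 => (decide ((x : G) ∈ Z1), decide ((x : G) ∈ Z1'))) := by
      intro x y hxy
      simp only [Prod.mk.injEq, decide_eq_decide] at hxy
      exact Subtype.ext (hpat x.1 x.2 y.1 y.2 hxy.1 hxy.2)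
    have h := Nat.card_le_card_of_injective _ hinj
    simpa using h

/-- the centralizer of an involution is a 2-local subgroup -/
theorem sc_cent_twoLocal {G : Type u} [Group G] (y : G) (hy1 : y ≠ 1) (hy2 : y * y = 1) :
    IsTwoLocal (Subgroup.centralizer ({y} : Set G)) := by
  have hord : orderOf y = 2 := orderOf_eq_prime (by rw [pow_two]; exact hy2) hy1
  have hel : ∀ x ∈ Subgroup.zpowers y, x = 1 ∨ x = y := by
    intro x hx
    obtain ⟨k, rfl⟩ := Subgroup.mem_zpowers_iff.mp hx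
    rw [← zpow_mod_orderOf, hord]
    rcases Int.emod_two_eq_zero_or_one k with h | h
    · left; simp [h]
    · right; simp [h]
  refine ⟨Subgroup.zpowers y, ?_, ?_, ?_⟩
  · haveI : Fact (Nat.Prime 2) := ⟨Nat.prime_two⟩
    refine IsPGroup.of_card (n := 1) ?_
    rw [Nat.card_zpowers, hord, pow_one]
  · intro h
    apply hy1
    have h1 := Subgroup.mem_zpowers y
    rw [h] at h1
    exact Subgroup.mem_bot.mp h1
  · apply le_antisymm
    · intro g hg
      rw [Subgroup.mem_centralizer_iff] at hg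
      have h1 := hg y (Set.mem_singleton _)
      have h2 : g * y * g⁻¹ = y := by rw [← h1]; group
      have h3 : g⁻¹ * y * g⁻¹⁻¹ = y := by
        calc g⁻¹ * y * g⁻¹⁻¹ = g⁻¹ * (y * g) := by group
          _ = g⁻¹ * (g * y) := by rw [h1]
          _ = y := by group
      rw [Subgroup.mem_normalizer_iff]
      intro h
      constructor
      · intro hh
        rcases hel h hh with rfl | rfl
        · simp
        · rw [h2]; exact hh
      · intro hh
        rcases hel _ hh with h4 | h4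
        · have h5 : h = 1 := by
            have h6 : h = g⁻¹ * (g * h * g⁻¹) * g := by group
            rw [h6, h4]; group
          rw [h5]; exact one_mem _
        · have h5 : h = y := by
            have h6 : h = g⁻¹ * (g * h * g⁻¹) * g⁻¹⁻¹ := by group
            rw [h6, h4, h3]
          rw [h5]; exact Subgroup.mem_zpowers y
    · intro g hg
      rw [Subgroup.mem_normalizer_iff] at hg
      have h1 := (hg y).mp (Subgroup.mem_zpowers y)
      rw [Subgroup.mem_centralizer_iff]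
      intro h hh
      rw [Set.mem_singleton_iff] at hh
      subst hh
      rcases hel _ h1 with h2 | h2
      · exfalso
        apply hy1
        have h3 : h = g⁻¹ * (g * h * g⁻¹) * g := by group
        rw [h3, h2]; group
      · calc h * g = (g * h * g⁻¹) * g := by rw [h2]
          _ = g * h := by group

/-- (U): the centralizer of an involution centralizing `X` lies in the unique maximal 2-local
over `X`. -/
theorem sc_U {G : Type u} [Group G] [Finite G] (L X : Subgroup G)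
    (huniq : ∀ L' : Subgroup G, IsMaximalTwoLocal L' → X ≤ L' → L' = L)
    (y : G) (hy : X ≤ Subgroup.centralizer ({y} : Set G)) (hy1 : y ≠ 1) (hy2 : y * y = 1) :
    Subgroup.centralizer ({y} : Set G) ≤ L := by
  have hloc := sc_cent_twoLocal y hy1 hy2
  obtain ⟨L2, hL2, hle⟩ := Cfsg.Agent.Helper55.Uq.exists_maximalTwoLocal hloc
  have hX : X ≤ L2 := hy.trans hle
  rw [← huniq L2 hL2 hX]
  exact hle

/-- (F1): `Ω₁Z(S) ≤ Ω₁Z(J(S))`. -/
theorem sc_F1 {G : Type u} [Group G] [Finite G] (S : Subgroup G) :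
    omegaCenterOf S ≤ omegaCenterOf (thompsonSubgroupOf 2 S) := by
  intro x hx
  obtain ⟨h1, h2, h3⟩ := Cfsg.Agent.H63.Sn.mem_omegaCenterOf S hx
  by_cases hx1 : x = 1
  · rw [hx1]; exact one_mem _
  have hJS : thompsonSubgroupOf 2 S ≤ S := Cfsg.Agent.Helper55.ThJ.J_le S
  refine Cfsg.Agent.H63.Sn.omegaCenterOf_mem _ ?_ ?_ h3
  · haveI : Fact (Nat.Prime 2) := ⟨Nat.prime_two⟩
    have ho : orderOf (⟨x, h1⟩ : ↥S) = 2 := by
      apply orderOf_eq_prime
      · exact Subtype.ext (by simpa using h3)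
      · intro h; exact hx1 (by simpa using congrArg Subtype.val h)
    have hc : (⟨x, h1⟩ : ↥S) ∈ Subgroup.centralizer (thompsonSubgroup 2 ↥S : Set ↥S) := by
      rw [Subgroup.mem_centralizer_iff]
      intro y _
      apply Subtype.ext
      exact (Subgroup.mem_centralizer_iff.mp h2) y.1 y.2
    have h4 := Cfsg.Agent.S0605.result (⟨x, h1⟩ : ↥S) hc ho
    exact ⟨⟨x, h1⟩, h4, rfl⟩
  · exact Subgroup.centralizer_le (SetLike.coe_subset_coe.mpr hJS) h2

/-- a `J(S)`-component does not centralize `Ω₁Z(S)`. -/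
theorem sc_notle {G : Type u} [Group G] [Finite G]
    (hZ : ∀ S : Sylow 2 G, Subgroup.centralizer (omegaCenterOf (S : Subgroup G) : Set G) ≤
      Subgroup.normalizer ((S : Subgroup G) : Set G))
    (S : Sylow 2 G) (K : Subgroup G) (hK : IsJComponent (S : Subgroup G) K) (X : Set G)
    (hKX : (K : Set G) ⊆ X)
    (h : omegaCenterOf (S : Subgroup G) ≤ Subgroup.centralizer X) : False := by
  have hKN : K ≤ Subgroup.normalizer ((S : Subgroup G) : Set G) := by
    refine le_trans ?_ (hZ S)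
    intro k hk
    rw [Subgroup.mem_centralizer_iff]
    intro z hz
    exact ((Subgroup.mem_centralizer_iff.mp (h hz)) k (hKX hk)).symm
  have hKS : K ≤ (S : Subgroup G) := by
    rw [← hK.2.1, Subgroup.commutator_le]
    intro k hk j hj
    have hjS : j ∈ (S : Subgroup G) := Cfsg.Agent.Helper55.ThJ.J_le _ hj
    have h1 : k * j * k⁻¹ ∈ (S : Subgroup G) :=
      (Subgroup.mem_normalizer_iff.mp (hKN hk) j).mp hjS
    rw [commutatorElement_def]
    exact mul_mem h1 (inv_mem hjS)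
  have hKbot : K = ⊥ := by
    rw [← hK.1, Subgroup.closure_eq_bot_iff]
    rintro g ⟨hgK, hodd⟩
    obtain ⟨n, hn⟩ := S.isPGroup' ⟨g, hKS hgK⟩
    have hn' : g ^ 2 ^ n = 1 := by simpa using congrArg Subtype.val hn
    have hdvd : orderOf g ∣ 2 ^ n := orderOf_dvd_of_pow_eq_one hn'
    have hcop : Nat.Coprime (orderOf g) (2 ^ n) := Nat.Coprime.pow_right n hodd.coprime_two_right
    have h5 : orderOf g = 1 := Nat.Coprime.eq_one_of_dvd hcop hdvd
    exact orderOf_eq_one_iff.mp h5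
  have h3 := hK.2.2.1
  rw [hKbot] at h3
  simp at h3

theorem sc : StSC.{u} := by
  intro G _ _ S M T K L hB hTS hK'
  obtain ⟨K', hK'J, hK'L⟩ := hK'
  obtain ⟨⟨hChar, hN, hZ⟩, hO, hM, hMJ, hT, hTS', hK, hLmax, hKL⟩ := hB
  have hT2 : IsPGroup 2 ↥T := hT.1.1
  have hT1 : T ≠ ⊥ := hT.1.2.1
  obtain ⟨L0, hL0max, hKL0, huniq, hsn, hsyl⟩ :=
    Cfsg.Agent.S2950.result hChar hN hZ hO S M hM hMJ T hT K hK
  have hLL0 : L = L0 := huniq L hLmax hKL
  rw [← hLL0] at huniq hsyl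
  have hTL : T ≤ L := hsyl.1
  obtain ⟨hc2, hsup⟩ := Cfsg.Agent.H15.J46.s2946 hChar hN hZ T hT2 hT1 K hK.1.1 _ rfl
  obtain ⟨hc2', hsup'⟩ := Cfsg.Agent.H15.J46.s2946 hChar hN hZ T hT2 hT1 K' hK'J _ rfl
  subst hTS
  have hsq : ∀ u ∈ omegaCenterOf (thompsonSubgroupOf 2 (S : Subgroup G)), u * u = 1 := by
    intro u hu
    have h := (Cfsg.Agent.H63.Sn.mem_omegaCenterOf _ hu).2.2
    rw [pow_two] at h
    exact h
  obtain ⟨w, hwZ, hw⟩ := sc_hyper _ _ _ hsq inf_le_left hc2 hsup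
  obtain ⟨w', hwZ', hw'⟩ := sc_hyper _ _ _ hsq inf_le_left hc2' hsup'
  have hJS : thompsonSubgroupOf 2 (S : Subgroup G) ≤ (S : Subgroup G) :=
    Cfsg.Agent.Helper55.ThJ.J_le _
  have hZ0S : omegaCenterOf (thompsonSubgroupOf 2 (S : Subgroup G)) ≤ (S : Subgroup G) := by
    intro u hu
    exact hJS (Cfsg.Agent.H63.Sn.mem_omegaCenterOf _ hu).1
  have hSN : (S : Subgroup G) ≤
      Subgroup.normalizer (thompsonSubgroupOf 2 (S : Subgroup G) : Set G) :=
    Subgroup.le_normalizer.trans (Cfsg.Agent.Helper55.ThJ.normalizer_le _)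
  have key := sc_core (S : Subgroup G) (omegaCenterOf (S : Subgroup G))
    (omegaCenterOf (thompsonSubgroupOf 2 (S : Subgroup G))) _ _ L K' w w' hsq
    (sc_F1 (S : Subgroup G)) hwZ hwZ' hw hw'
    (by
      intro y hy hy1
      have hyZ0 := (Subgroup.mem_inf.mp hy).1
      have hyC := Subgroup.mem_centralizer_iff.mp (Subgroup.mem_inf.mp (Subgroup.mem_inf.mp hy).2).2
      refine sc_U L (K ⊔ thompsonSubgroupOf 2 (S : Subgroup G)) huniq y ?_ hy1 (hsq y hyZ0)
      refine sup_le ?_ ?_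
      · intro x hx
        rw [Subgroup.mem_centralizer_iff]
        intro h hh
        rw [Set.mem_singleton_iff] at hh
        subst hh
        exact (hyC x (Or.inl hx)).symm
      · intro x hx
        rw [Subgroup.mem_centralizer_iff]
        intro h hh
        rw [Set.mem_singleton_iff] at hh
        subst hh
        exact (hyC x (Or.inr hx)).symm)
    (by
      intro y hy k hk
      have hyC := (Subgroup.mem_inf.mp (Subgroup.mem_inf.mp hy).2).2
      rw [Subgroup.mem_centralizer_iff]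
      intro h hh
      rw [Set.mem_singleton_iff] at hh
      subst hh
      exact ((Subgroup.mem_centralizer_iff.mp hyC) k (Or.inl hk)).symm)
    hK'L
    (fun h => sc_notle hZ S K hK.1.1 _ (fun x hx => Or.inl hx)
      (h.trans (inf_le_right.trans inf_le_right)))
    (fun h => sc_notle hZ S K' hK'J _ (fun x hx => Or.inl hx)
      (h.trans (inf_le_right.trans inf_le_right)))
    (by
      intro s hs u hu
      have hsN := hSN hs
      have hsN' := hSN (inv_mem hs)
      refine Cfsg.Agent.H32.Sq.omegaCenterOf_conj _ ?_ ?_ hu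
      · intro x hx
        exact (Subgroup.mem_normalizer_iff.mp hsN x).mp hx
      · intro x hx
        have h := (Subgroup.mem_normalizer_iff.mp hsN' x).mp hx
        rw [inv_inv] at h
        exact h)
    (by
      intro u hu hfix
      refine Cfsg.Agent.H63.Sn.omegaCenterOf_mem _ (hZ0S hu) ?_ ?_
      · rw [Subgroup.mem_centralizer_iff]
        intro h hh
        have h1 := hfix h hh
        calc h * u = (h * u * h⁻¹) * h := by group
          _ = u * h := by rw [h1]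
      · rw [pow_two]; exact hsq u hu)
    (by
      intro u hu s hs
      have h1 := (Subgroup.mem_centralizer_iff.mp
        (Cfsg.Agent.H63.Sn.mem_omegaCenterOf _ hu).2.1) s hs
      rw [h1]; group)
    hTL
  obtain ⟨hZeq, hle4⟩ := key
  have hdvd : 2 ∣ Nat.card ↥(omegaCenterOf (thompsonSubgroupOf 2 (S : Subgroup G))) := by
    have h := Subgroup.card_dvd_of_le (inf_le_left :
      omegaCenterOf (thompsonSubgroupOf 2 (S : Subgroup G)) ⊓ wOf K ≤
        omegaCenterOf (thompsonSubgroupOf 2 (S : Subgroup G)))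
    rw [hc2] at h
    exact h
  have hpos : 0 < Nat.card ↥(omegaCenterOf (thompsonSubgroupOf 2 (S : Subgroup G))) :=
    Nat.card_pos
  have hcases : Nat.card ↥(omegaCenterOf (thompsonSubgroupOf 2 (S : Subgroup G))) = 2 ∨
      Nat.card ↥(omegaCenterOf (thompsonSubgroupOf 2 (S : Subgroup G))) = 4 := by
    obtain ⟨c, hc⟩ := hdvd
    omega
  rcases hcases with h | h
  · exact Or.inl ⟨hZeq, h⟩
  · exact Or.inr (Or.inl ⟨hZeq, h, rfl⟩)

example : StSC.{u} := sc

end Cfsg.Agent.H15.Jz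

#print axioms Cfsg.Agent.H15.Jz.sc
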