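import Cfsg.Agent.H17.MnDefs
import Cfsg.Agent.H95.SpDecomp

set_option autoImplicit false

/-!
S5634 project, piece BTV: block transvections lie in the decomposition stabiliser, and the
stabiliser does not contain the special linear group.  Also a few general facts on
transvections `v ↦ v + χ v • x` used by the other block pieces.
-/

namespace Cfsg.Agent.H15.Mn

open Cfsg Cfsg.Geo Cfsg.Agent.H17.Mn
open scoped MatrixGroups Matrix

variable {ι : Type} [Fintype ι] [DecidableEq ι] {F : Type*} [Field F]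

/-- a linear form taking the value one at a given non-zero vector -/
theorem exists_form_one (v : ι → F) (hv : v ≠ 0) : ∃ φ : (ι → F) →ₗ[F] F, φ v = 1 := by
  have : ∃ k, v k ≠ 0 := by
    by_contra h
    push Not at h
    exact hv (funext h)
  obtain ⟨k, hk⟩ := this
  refine ⟨(v k)⁻¹ • LinearMap.proj k, ?_⟩
  simp [hk]

/-- a linear form vanishing at `x` and taking the value one at `w`, when `w` is not a
multiple of `x` -/
theorem exists_form_zero_one (x w : ι → F) (hw : w ∉ Submodule.span F {x}) :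
    ∃ φ : (ι → F) →ₗ[F] F, φ x = 0 ∧ φ w = 1 := by
  by_cases hx : x = 0
  · have hw0 : w ≠ 0 := by
      rintro rfl
      exact hw (Submodule.zero_mem _)
    obtain ⟨φ, hφ⟩ := exists_form_one w hw0
    exact ⟨φ, by rw [hx, map_zero], hφ⟩
  obtain ⟨φ1, h1⟩ := exists_form_one x hx
  have hw' : w - φ1 w • x ≠ 0 := by
    intro h
    apply hw
    rw [sub_eq_zero] at h
    rw [h]
    exact Submodule.smul_mem _ _ (Submodule.mem_span_singleton_self x)
  obtain ⟨φ2, h2⟩ := exists_form_one _ hw'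
  refine ⟨φ2 - φ2 x • φ1, ?_, ?_⟩
  · simp [h1]
  · rw [map_sub, map_smul] at h2
    simp only [LinearMap.sub_apply, LinearMap.smul_apply, smul_eq_mul] at h2 ⊢
    rw [← h2]
    ring

/-- conjugate of a transvection -/
theorem tv_conj (g : GL ι F) (x : ι → F) (φ : (ι → F) →ₗ[F] F) (h : φ x = 0) :
    ∃ h' : (φ ∘ₗ Matrix.toLin' ((g⁻¹ : GL ι F) : Matrix ι ι F))
        ((g : Matrix ι ι F) *ᵥ x) = 0,
      g * H95.tvGL x φ h * g⁻¹ = H95.tvGL ((g : Matrix ι ι F) *ᵥ x)
        (φ ∘ₗ Matrix.toLin' ((g⁻¹ : GL ι F) : Matrix ι ι F)) h' := by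
  have h' : (φ ∘ₗ Matrix.toLin' ((g⁻¹ : GL ι F) : Matrix ι ι F))
      ((g : Matrix ι ι F) *ᵥ x) = 0 := by
    rw [LinearMap.comp_apply, Matrix.toLin'_apply, Matrix.mulVec_mulVec, ← Units.val_mul,
      inv_mul_cancel, Units.val_one, Matrix.one_mulVec, h]
  refine ⟨h', ?_⟩
  apply H95.gl_ext
  intro v
  rw [H95.tvGL_mulVec, Units.val_mul, Units.val_mul, ← Matrix.mulVec_mulVec,
    ← Matrix.mulVec_mulVec, H95.tvGL_mulVec, Matrix.mulVec_add, Matrix.mulVec_mulVec,
    ← Units.val_mul, mul_inv_cancel, Units.val_one, Matrix.one_mulVec, Matrix.mulVec_smul,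
    LinearMap.comp_apply, Matrix.toLin'_apply]

/-- product of two transvections with the same linear form -/
theorem tv_mul_same (x x' : ι → F) (ψ : (ι → F) →ₗ[F] F) (h : ψ x = 0) (h' : ψ x' = 0) :
    ∃ h'' : ψ (x + x') = 0, H95.tvGL x ψ h * H95.tvGL x' ψ h' = H95.tvGL (x + x') ψ h'' := by
  have h'' : ψ (x + x') = 0 := by rw [map_add, h, h', add_zero]
  refine ⟨h'', ?_⟩
  apply H95.gl_ext
  intro v
  rw [Units.val_mul, ← Matrix.mulVec_mulVec, H95.tvGL_mulVec, H95.tvGL_mulVec, H95.tvGL_mulVec,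
    map_add, map_smul, h', smul_zero, add_zero, smul_add]
  abel

/-- inverse of a transvection -/
theorem tv_inv (x : ι → F) (ψ : (ι → F) →ₗ[F] F) (h : ψ x = 0) :
    ∃ h' : ψ (-x) = 0, (H95.tvGL x ψ h)⁻¹ = H95.tvGL (-x) ψ h' := by
  have h' : ψ (-x) = 0 := by rw [map_neg, h, neg_zero]
  refine ⟨h', ?_⟩
  apply inv_eq_of_mul_eq_one_right
  apply H95.gl_ext
  intro v
  rw [Units.val_mul, ← Matrix.mulVec_mulVec, H95.tvGL_mulVec, H95.tvGL_mulVec,
    map_add, map_smul, h', smul_zero, add_zero, Units.val_one, Matrix.one_mulVec, smul_neg]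
  abel

/-- transvections with equal data are equal -/
theorem tv_congr (x x' : ι → F) (ψ ψ' : (ι → F) →ₗ[F] F) (h : ψ x = 0) (h' : ψ' x' = 0)
    (hx : x = x') (hψ : ψ = ψ') : H95.tvGL x ψ h = H95.tvGL x' ψ' h' := by
  subst hx; subst hψ; rfl

section blocks

variable {t m : ℕ} (D : Fin t → Submodule F (ι → F))

theorem isInternal_of_dec (hD : IsMDecomposition m D) : DirectSum.IsInternal D :=
  DirectSum.isInternal_submodule_of_iSupIndep_of_iSup_eq_top hD.indep hD.iSup_eq_top

/-- the composite of a linear form with the projection on a member is supported on it -/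
theorem suppOn_comp (hI : DirectSum.IsInternal D) (j : Fin t) (φ : (ι → F) →ₗ[F] F) :
    SuppOn D j (φ ∘ₗ H95.comp hI j) := by
  intro l hl v hv
  rw [LinearMap.comp_apply, H95.comp_of_mem_ne hI hv hl, map_zero]

/-- a linear form supported on `D j` only sees the `j`-th component -/
theorem suppOn_apply (hI : DirectSum.IsInternal D) (j : Fin t) (χ : (ι → F) →ₗ[F] F)
    (hχ : SuppOn D j χ) (v : ι → F) : χ v = χ (H95.comp hI j v) := by
  conv_lhs => rw [← H95.sum_comp hI v]
  rw [map_sum]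
  apply Finset.sum_eq_single j
  · intro l _ hl
    exact hχ l hl _ (H95.comp_mem hI l v)
  · intro h
    exact absurd (Finset.mem_univ j) h

/-- a member of dimension at least two is not contained in a line -/
theorem exists_not_mem_span (hD : IsMDecomposition m D) (hm : 2 ≤ m) (j : Fin t)
    (u : ι → F) : ∃ w ∈ D j, w ∉ Submodule.span F {u} := by
  by_contra hcon
  push Not at hcon
  have hle : D j ≤ Submodule.span F {u} := fun w hw => hcon w hw
  have h1 := Submodule.finrank_mono hle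
  rw [hD.finrank_eq] at h1
  have h2 : Module.finrank F (Submodule.span F {u}) ≤ 1 :=
    le_trans (finrank_span_le_card {u}) (by simp)
  omega

theorem exists_ne_zero_mem (hD : IsMDecomposition m D) (j : Fin t) :
    ∃ w ∈ D j, w ≠ 0 := by
  have h1 : D j ≠ ⊥ := by
    intro h
    have h2 := hD.finrank_eq j
    rw [h, finrank_bot] at h2
    exact hD.pos.ne h2
  exact (Submodule.ne_bot_iff _).1 h1

theorem blockTv_mem (hD : IsMDecomposition m D) (i : Fin t) (x : ι → F) (hx : x ∈ D i) (χ : (ι → F) →ₗ[F] F) (hχ : SuppOn D i χ) (h : χ x = 0) : H95.tvGL x χ h ∈ decompositionStabilizer D ⊓ specialLinear ι F := by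
  refine ⟨?_, H95.tvGL_mem_specialLinear x χ h⟩
  apply H95.mem_decompositionStabilizer_of_forall hD
  intro l
  refine ⟨l, fun v hv => ?_⟩
  rw [H95.tvGL_mulVec]
  by_cases hl : l = i
  · subst hl
    exact (D l).add_mem hv ((D l).smul_mem _ hx)
  · rw [hχ l hl v hv, zero_smul, add_zero]
    exact hv

theorem exists_sl_not_mem_stab (hD : IsMDecomposition m D) : ∃ g ∈ specialLinear ι F, g ∉ decompositionStabilizer D := by
  have hI := isInternal_of_dec D hD
  have ht := hD.two_le
  set i0 : Fin t := ⟨0, by omega⟩ with hi0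
  set i1 : Fin t := ⟨1, by omega⟩ with hi1
  have h01 : i0 ≠ i1 := by
    intro h
    have := congrArg Fin.val h
    simp [hi0, hi1] at this
  obtain ⟨x, hx, hx0⟩ := exists_ne_zero_mem D hD i0
  obtain ⟨v, hv, hv0⟩ := exists_ne_zero_mem D hD i1
  obtain ⟨φ, hφ⟩ := exists_form_one v hv0
  have h : (φ ∘ₗ H95.comp hI i1) x = 0 := by
    rw [LinearMap.comp_apply, H95.comp_of_mem_ne hI hx h01, map_zero]
  refine ⟨H95.tvGL x (φ ∘ₗ H95.comp hI i1) h, H95.tvGL_mem_specialLinear _ _ _, ?_⟩
  intro hmem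
  obtain ⟨σ, hσ⟩ := hmem
  have h1 : ((H95.tvGL x (φ ∘ₗ H95.comp hI i1) h : GL ι F) : Matrix ι ι F) *ᵥ v ∈
      D (σ i1) := by
    rw [← hσ i1]
    exact ⟨v, hv, by rw [Matrix.toLin'_apply]⟩
  rw [H95.tvGL_mulVec, LinearMap.comp_apply, H95.comp_of_mem hI hv, hφ, one_smul] at h1
  have h2 := H95.wt_le_one_of_mem hI h1
  rw [H95.wt_add_of_mem hI (Ne.symm h01) hv hv0 hx hx0] at h2
  omega

end blocks

end Cfsg.Agent.H15.Mn
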