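import Cfsg.Agent.H15.MnBTV

set_option autoImplicit false

/-!
S5634 project, piece MX: a transvection of `M` whose linear form is supported on a member
`D i` and whose centre is not in `D i` yields one with the same form and centre in another
member.
-/

namespace Cfsg.Agent.H15.Mn

open Cfsg Cfsg.Geo Cfsg.Agent.H17.Mn
open scoped MatrixGroups Matrix

variable {ι : Type} [Fintype ι] [DecidableEq ι] {F : Type*} [Field F]

variable {t m : ℕ} (D : Fin t → Submodule F (ι → F))

theorem mixed_of_mixed' (hD : IsMDecomposition m D) (hm : 2 ≤ m) (M : Subgroup (GL ι F)) (hM : decompositionStabilizer D ⊓ specialLinear ι F ≤ M) (i : Fin t) (ψ : (ι → F) →ₗ[F] F) (hψ : SuppOn D i ψ) (hψ0 : ψ ≠ 0) (y : ι → F) (h : ψ y = 0) (hmem : H95.tvGL y ψ h ∈ M) (hy : y ∉ D i) : ∃ (j : Fin t) (x : ι → F) (h' : ψ x = 0), j ≠ i ∧ x ∈ D j ∧ x ≠ 0 ∧ H95.tvGL x ψ h' ∈ M := by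
  have hI := isInternal_of_dec D hD
  -- a non-zero component outside `D i`
  have hex : ∃ j, j ≠ i ∧ H95.comp hI j y ≠ 0 := by
    by_contra hcon
    push Not at hcon
    apply hy
    have h1 : ∑ l, H95.comp hI l y = H95.comp hI i y := by
      apply Finset.sum_eq_single i
      · intro l _ hl
        exact hcon l hl
      · intro h'
        exact absurd (Finset.mem_univ i) h'
    rw [H95.sum_comp hI y] at h1
    rw [h1]
    exact H95.comp_mem hI i y
  obtain ⟨j, hji, hyj⟩ := hex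
  obtain ⟨φ0, hφ0⟩ := exists_form_one _ hyj
  set χ : (ι → F) →ₗ[F] F := φ0 ∘ₗ H95.comp hI j with hχdef
  have hχS : SuppOn D j χ := suppOn_comp D hI j φ0
  have hχy : χ y = 1 := by
    rw [hχdef, LinearMap.comp_apply, hφ0]
  have hχyj : χ (H95.comp hI j y) = 1 := by
    rw [hχdef, LinearMap.comp_apply, H95.comp_of_mem hI (H95.comp_mem hI j y), hφ0]
  obtain ⟨w, hwD, hw⟩ := exists_not_mem_span D hD hm j (H95.comp hI j y)
  set z : ι → F := w - χ w • H95.comp hI j y with hzdef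
  have hzD : z ∈ D j := (D j).sub_mem hwD ((D j).smul_mem _ (H95.comp_mem hI j y))
  have hz0 : z ≠ 0 := by
    intro h0
    apply hw
    rw [hzdef, sub_eq_zero] at h0
    rw [h0]
    exact Submodule.smul_mem _ _ (Submodule.mem_span_singleton_self _)
  have hχz : χ z = 0 := by
    rw [hzdef, map_sub, map_smul, hχyj, smul_eq_mul, mul_one, sub_self]
  have hψz : ψ z = 0 := hψ j hji z hzD
  refine ⟨j, z, hψz, hji, hzD, hz0, ?_⟩
  have hbM : H95.tvGL z χ hχz ∈ M := hM (blockTv_mem D hD j z hzD χ hχS hχz)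
  obtain ⟨hbi, ebi⟩ := tv_inv z χ hχz
  obtain ⟨hyi, eyi⟩ := tv_inv y ψ h
  have key : H95.tvGL z ψ hψz =
      H95.tvGL z χ hχz * H95.tvGL y ψ h * (H95.tvGL z χ hχz)⁻¹ * (H95.tvGL y ψ h)⁻¹ := by
    rw [ebi, eyi]
    apply H95.gl_ext
    intro v
    simp only [Units.val_mul, ← Matrix.mulVec_mulVec, H95.tvGL_mulVec, map_add, map_smul,
      map_neg, h, hχy, hψz, hχz, smul_eq_mul, mul_zero, add_zero, neg_zero, mul_one,
      smul_neg]
    module
  rw [key]
  exact M.mul_mem (M.mul_mem (M.mul_mem hbM hmem) (M.inv_mem hbM)) (M.inv_mem hmem)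

end Cfsg.Agent.H15.Mn
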