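import Cfsg.Agent.H15.MnBTV

set_option autoImplicit false

/-!
S5634 project, piece STB: if every transvection of `M` has its centre in a member of the
decomposition, then `M` stabilises the decomposition.
-/

namespace Cfsg.Agent.H15.Mn

open Cfsg Cfsg.Geo Cfsg.Agent.H17.Mn
open scoped MatrixGroups Matrix

variable {ι : Type} [Fintype ι] [DecidableEq ι] {F : Type*} [Field F]

variable {t m : ℕ} (D : Fin t → Submodule F (ι → F))

theorem mem_stab_of_tv_block (hD : IsMDecomposition m D) (hm : 2 ≤ m) (M : Subgroup (GL ι F)) (hM : decompositionStabilizer D ⊓ specialLinear ι F ≤ M) (hblock : ∀ (y : ι → F) (ψ : (ι → F) →ₗ[F] F) (h : ψ y = 0), H95.tvGL y ψ h ∈ M → y ≠ 0 → ψ ≠ 0 → ∃ i, y ∈ D i) (g : GL ι F) (hg : g ∈ M) : g ∈ decompositionStabilizer D := by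
  have hI := isInternal_of_dec D hD
  have hinj := H95.mulVec_injective g
  -- every non-zero vector of a member is mapped into a member
  have hpt : ∀ a, ∀ x ∈ D a, x ≠ 0 → ∃ i, (g : Matrix ι ι F) *ᵥ x ∈ D i := by
    intro a x hx hx0
    obtain ⟨w, hwD, hw⟩ := exists_not_mem_span D hD hm a x
    obtain ⟨φ0, hφx, hφw⟩ := exists_form_zero_one x w hw
    set φ : (ι → F) →ₗ[F] F := φ0 ∘ₗ H95.comp hI a with hφdef
    have hφS : SuppOn D a φ := suppOn_comp D hI a φ0
    have h1 : φ x = 0 := by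
      rw [hφdef, LinearMap.comp_apply, H95.comp_of_mem hI hx, hφx]
    have h2 : φ w = 1 := by
      rw [hφdef, LinearMap.comp_apply, H95.comp_of_mem hI hwD, hφw]
    have hτM : H95.tvGL x φ h1 ∈ M := hM (blockTv_mem D hD a x hx φ hφS h1)
    obtain ⟨h', e⟩ := tv_conj g x φ h1
    have hcM : H95.tvGL ((g : Matrix ι ι F) *ᵥ x)
        (φ ∘ₗ Matrix.toLin' ((g⁻¹ : GL ι F) : Matrix ι ι F)) h' ∈ M := by
      rw [← e]
      exact M.mul_mem (M.mul_mem hg hτM) (M.inv_mem hg)
    refine hblock _ _ h' hcM ?_ ?_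
    · intro h0
      apply hx0
      apply hinj
      simp only
      rw [h0, Matrix.mulVec_zero]
    · intro h0
      have h3 := congrArg (fun f : (ι → F) →ₗ[F] F => f ((g : Matrix ι ι F) *ᵥ w)) h0
      simp only [LinearMap.comp_apply, Matrix.toLin'_apply, Matrix.mulVec_mulVec,
        LinearMap.zero_apply] at h3
      rw [← Units.val_mul, inv_mul_cancel, Units.val_one, Matrix.one_mulVec, h2] at h3
      exact one_ne_zero h3
  apply H95.mem_decompositionStabilizer_of_forall hD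
  intro a
  obtain ⟨x0, hx0D, hx0⟩ := exists_ne_zero_mem D hD a
  obtain ⟨j, hj⟩ := hpt a x0 hx0D hx0
  refine ⟨j, fun x hx => ?_⟩
  by_cases hxz : x = 0
  · rw [hxz, Matrix.mulVec_zero]
    exact (D j).zero_mem
  obtain ⟨i', hi'⟩ := hpt a x hx hxz
  by_cases hij : i' = j
  · rw [← hij]; exact hi'
  exfalso
  have hgx0 : (g : Matrix ι ι F) *ᵥ x ≠ 0 := by
    intro h0
    apply hxz
    apply hinj
    simp only
    rw [h0, Matrix.mulVec_zero]
  have hgx00 : (g : Matrix ι ι F) *ᵥ x0 ≠ 0 := by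
    intro h0
    apply hx0
    apply hinj
    simp only
    rw [h0, Matrix.mulVec_zero]
  have hwt := H95.wt_add_of_mem hI hij hi' hgx0 hj hgx00
  by_cases hs : x + x0 = 0
  · have h1 : (g : Matrix ι ι F) *ᵥ x + (g : Matrix ι ι F) *ᵥ x0 = 0 := by
      rw [← Matrix.mulVec_add, hs, Matrix.mulVec_zero]
    rw [h1] at hwt
    have h2 := H95.wt_le_one_of_mem hI (D j).zero_mem
    omega
  · obtain ⟨i'', hi''⟩ := hpt a (x + x0) ((D a).add_mem hx hx0D) hs
    rw [Matrix.mulVec_add] at hi''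
    have h2 := H95.wt_le_one_of_mem hI hi''
    omega

end Cfsg.Agent.H15.Mn
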