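import Cfsg.Agent.H17.MnDefs
import Cfsg.Agent.H77.MnBas1
import Cfsg.Agent.H77.MnBas2
import Cfsg.Agent.H27.MnNM

set_option autoImplicit false

/-!
S5634 project, piece TF: a group containing the monomial group of determinant one, all of
whose non-monomial elements have no zero entry, is monomial (dimension at least 5).
-/

namespace Cfsg.Agent.H15.Mn

open Cfsg Cfsg.Geo Cfsg.Agent.H17.Mn
open scoped MatrixGroups Matrix

variable {ι : Type} [Fintype ι] [DecidableEq ι] {F : Type*} [Field F]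

/-- two columns of an invertible matrix with no zero entry cannot have all the
"cross ratios" `g i k1 * γ k1 j = g i k2 * γ k2 j` (`i ≠ j`) -/
theorem exists_cross (hι : 3 ≤ Fintype.card ι) (g γ : Matrix ι ι F) (hγg : γ * g = 1)
    (hg : ∀ i j, g i j ≠ 0) (hγ : ∀ i j, γ i j ≠ 0) (k1 k2 : ι) (hk : k1 ≠ k2) :
    ∃ i j, i ≠ j ∧ g i k1 * γ k1 j ≠ g i k2 * γ k2 j := by
  by_contra hcon
  push Not at hcon
  -- g i k1 * g i' k2 = g i' k1 * g i k2 for all i, i'
  have hprop : ∀ i i', g i k1 * g i' k2 = g i' k1 * g i k2 := by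
    intro i i'
    have hex : ∃ j, j ≠ i ∧ j ≠ i' := by
      by_contra hno
      push Not at hno
      have hsub : (Finset.univ : Finset ι) ⊆ {i, i'} := by
        intro j _
        by_cases hj : j = i
        · simp [hj]
        · have := hno j hj
          simp [this]
      have h1 := Finset.card_le_card hsub
      have h2 : ({i, i'} : Finset ι).card ≤ 2 := Finset.card_le_two
      rw [Finset.card_univ] at h1
      omega
    obtain ⟨j, hji, hji'⟩ := hex
    have e1 := hcon i j (Ne.symm hji)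
    have e2 := hcon i' j (Ne.symm hji')
    have hne : γ k1 j * γ k2 j ≠ 0 := mul_ne_zero (hγ k1 j) (hγ k2 j)
    apply mul_right_cancel₀ hne
    calc g i k1 * g i' k2 * (γ k1 j * γ k2 j)
        = (g i k1 * γ k1 j) * (g i' k2 * γ k2 j) := by ring
      _ = (g i k2 * γ k2 j) * (g i' k1 * γ k1 j) := by rw [e1, e2]
      _ = g i' k1 * g i k2 * (γ k1 j * γ k2 j) := by ring
  have hne : Nonempty ι := by
    rw [← Fintype.card_pos_iff]; omega
  obtain ⟨i0⟩ := hne
  have h1 : (γ * g) k1 k1 = 1 := by rw [hγg, Matrix.one_apply_eq]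
  have h2 : (γ * g) k1 k2 = 0 := by rw [hγg, Matrix.one_apply_ne hk]
  rw [Matrix.mul_apply] at h1 h2
  have h3 : (∑ i, γ k1 i * g i k1) * g i0 k2 = (∑ i, γ k1 i * g i k2) * g i0 k1 := by
    rw [Finset.sum_mul, Finset.sum_mul]
    apply Finset.sum_congr rfl
    intro i _
    have := hprop i i0
    calc γ k1 i * g i k1 * g i0 k2 = γ k1 i * (g i k1 * g i0 k2) := by ring
      _ = γ k1 i * (g i0 k1 * g i k2) := by rw [this]
      _ = γ k1 i * g i k2 * g i0 k1 := by ring
  rw [h1, h2, one_mul, zero_mul] at h3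
  exact hg i0 k2 h3

theorem top_fin (hι : 5 ≤ Fintype.card ι) (M : Subgroup (GL ι F)) (hM : monoS ι F ≤ M) (hnz : ∀ γ ∈ M, γ ∉ mono ι F → ∀ i j, (γ : Matrix ι ι F) i j ≠ 0) : M ≤ mono ι F := by
  intro g hgM
  by_contra hg
  have hγM : g⁻¹ ∈ M := M.inv_mem hgM
  have hγ : g⁻¹ ∉ mono ι F := fun h => hg (by simpa using (mono ι F).inv_mem h)
  have hgz := hnz g hgM hg
  have hγz := hnz g⁻¹ hγM hγ
  have hγg : ((g⁻¹ : GL ι F) : Matrix ι ι F) * (g : Matrix ι ι F) = 1 := by
    rw [← Units.val_mul, inv_mul_cancel, Units.val_one]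
  have hgγ : (g : Matrix ι ι F) * ((g⁻¹ : GL ι F) : Matrix ι ι F) = 1 := by
    rw [← Units.val_mul, mul_inv_cancel, Units.val_one]
  -- two distinct indices
  have hex : ∃ k1 k2 : ι, k1 ≠ k2 := by
    have : 1 < Fintype.card ι := by omega
    exact Fintype.exists_pair_of_one_lt_card this
  obtain ⟨k1, k2, hk⟩ := hex
  obtain ⟨i, j, hij, hu⟩ := exists_cross (by omega) (g : Matrix ι ι F)
    ((g⁻¹ : GL ι F) : Matrix ι ι F) hγg hgz hγz k1 k2 hk
  set u1 := (g : Matrix ι ι F) i k1 * ((g⁻¹ : GL ι F) : Matrix ι ι F) k1 j with hu1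
  set u2 := (g : Matrix ι ι F) i k2 * ((g⁻¹ : GL ι F) : Matrix ι ι F) k2 j with hu2
  have hu1z : u1 ≠ 0 := mul_ne_zero (hgz i k1) (hγz k1 j)
  have hu2z : u2 ≠ 0 := mul_ne_zero (hgz i k2) (hγz k2 j)
  set a : F := u2 / u1 with ha
  have ha0 : a ≠ 0 := div_ne_zero hu2z hu1z
  have ha1 : a ≠ 1 := by
    intro h
    rw [ha, div_eq_one_iff_eq hu1z] at h
    exact hu h.symm
  set d : ι → F := fun k => if k = k1 then a else if k = k2 then a⁻¹ else 1 with hd
  have hdz : ∀ k, d k ≠ 0 := by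
    intro k
    simp only [hd]
    split_ifs
    · exact ha0
    · exact inv_ne_zero ha0
    · exact one_ne_zero
  have hprod : ∏ k, d k = 1 := by
    have h1 : ∏ k, d k = ∏ k, ((if k = k1 then a else 1) * (if k = k2 then a⁻¹ else 1)) := by
      apply Finset.prod_congr rfl
      intro k _
      simp only [hd]
      by_cases h1 : k = k1
      · have : k ≠ k2 := fun h => hk (h1.symm.trans h)
        simp [h1, hk]
      · by_cases h2 : k = k2
        · simp [h2, Ne.symm hk]
        · simp [h1, h2]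
    rw [h1, Finset.prod_mul_distrib, Finset.prod_ite_eq' Finset.univ k1 (fun _ => a),
      Finset.prod_ite_eq' Finset.univ k2 (fun _ => a⁻¹)]
    simp [ha0]
  obtain ⟨t, ht, -, htS⟩ := Cfsg.Agent.H77.Mn.exists_diag d hdz
  have htM : t ∈ M := hM (htS hprod)
  have hxM : g * t * g⁻¹ ∈ M := M.mul_mem (M.mul_mem hgM htM) hγM
  have hxval : ((g * t * g⁻¹ : GL ι F) : Matrix ι ι F) =
      (g : Matrix ι ι F) * Matrix.diagonal d * ((g⁻¹ : GL ι F) : Matrix ι ι F) := by
    rw [Units.val_mul, Units.val_mul, ht]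
  -- the (i,j) entry of x vanishes
  have hxij : ((g * t * g⁻¹ : GL ι F) : Matrix ι ι F) i j = 0 := by
    rw [hxval, Matrix.mul_apply]
    have h1 : ∀ k, ((g : Matrix ι ι F) * Matrix.diagonal d) i k *
        ((g⁻¹ : GL ι F) : Matrix ι ι F) k j =
        (g : Matrix ι ι F) i k * ((g⁻¹ : GL ι F) : Matrix ι ι F) k j +
        ((if k = k1 then (a - 1) * u1 else 0) + (if k = k2 then (a⁻¹ - 1) * u2 else 0)) := by
      intro k
      rw [Matrix.mul_diagonal]
      simp only [hd]
      by_cases h1 : k = k1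
      · have : k ≠ k2 := fun h => hk (h1.symm.trans h)
        subst h1
        simp only [if_true, if_neg this, hu1]
        ring
      · by_cases h2 : k = k2
        · subst h2
          simp only [if_neg h1, if_true, hu2]
          ring
        · simp only [if_neg h1, if_neg h2]
          ring
    rw [Finset.sum_congr rfl (fun k _ => h1 k), Finset.sum_add_distrib, Finset.sum_add_distrib,
      Finset.sum_ite_eq' Finset.univ k1, Finset.sum_ite_eq' Finset.univ k2, ← Matrix.mul_apply,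
      hgγ, Matrix.one_apply_ne hij]
    simp only [Finset.mem_univ, if_true, zero_add]
    rw [ha]
    field_simp
    ring
  have hxmono : g * t * g⁻¹ ∈ mono ι F := by
    by_contra hx
    exact hnz _ hxM hx i j hxij
  obtain ⟨π, hπ⟩ := Cfsg.Agent.H77.Mn.exists_perm_of_mem_mono _ hxmono
  have hπ' : ∀ i l, i ≠ π l → ((g : Matrix ι ι F) * Matrix.diagonal d *
      ((g⁻¹ : GL ι F) : Matrix ι ι F)) i l = 0 := by
    intro i l hil
    by_contra h
    rw [← hxval] at h
    exact hil ((hπ i l).1 h)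
  have hb := Cfsg.Agent.H27.Mn.nm_bound (g : Matrix ι ι F) ((g⁻¹ : GL ι F) : Matrix ι ι F) hgγ d π hπ'
  have hL : Nat.card {l : ι // ∃ k, d k ≠ 1 ∧ ((g⁻¹ : GL ι F) : Matrix ι ι F) k l ≠ 0} =
      Fintype.card ι := by
    rw [← Nat.card_eq_fintype_card]
    apply Nat.card_congr
    refine (Equiv.subtypeUnivEquiv ?_)
    intro l
    refine ⟨k1, ?_, hγz k1 l⟩
    simp only [hd, if_true]
    exact ha1
  have hK : Nat.card {k : ι // d k ≠ 1} ≤ 2 := by
    have hsub : {k : ι | d k ≠ 1} ⊆ (({k1, k2} : Finset ι) : Set ι) := by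
      intro k hkd
      by_contra hkk
      simp only [Finset.coe_insert, Finset.coe_singleton, Set.mem_insert_iff,
        Set.mem_singleton_iff, not_or] at hkk
      apply hkd
      simp only [hd, if_neg hkk.1, if_neg hkk.2]
    have h1 : Nat.card {k : ι // d k ≠ 1} = Set.ncard {k : ι | d k ≠ 1} := rfl
    rw [h1]
    calc Set.ncard {k : ι | d k ≠ 1} ≤ Set.ncard (({k1, k2} : Finset ι) : Set ι) :=
          Set.ncard_le_ncard hsub (Finset.finite_toSet _)
      _ = ({k1, k2} : Finset ι).card := Set.ncard_coe_finset _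
      _ ≤ 2 := Finset.card_le_two
  rw [hL] at hb
  omega

end Cfsg.Agent.H15.Mn
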