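import Cfsg.Agent.H17.MnDefs

set_option autoImplicit false

/-!
S5634 project, piece TRP: transposes of invertible matrices, of subgroups, and the
behaviour of the monomial group, the special linear group and elementary transvections.
-/

namespace Cfsg.Agent.H15.Mn

open Cfsg Cfsg.Geo Cfsg.Agent.H17.Mn
open scoped MatrixGroups Matrix

variable {ι : Type} [Fintype ι] [DecidableEq ι] {F : Type*} [Field F]

theorem exists_gl_transpose (g : GL ι F) :
    ∃ h : GL ι F, (h : Matrix ι ι F) = (g : Matrix ι ι F)ᵀ := by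
  refine ⟨⟨(g : Matrix ι ι F)ᵀ, ((g⁻¹ : GL ι F) : Matrix ι ι F)ᵀ, ?_, ?_⟩, rfl⟩
  · rw [← Matrix.transpose_mul, ← Units.val_mul, inv_mul_cancel, Units.val_one,
      Matrix.transpose_one]
  · rw [← Matrix.transpose_mul, ← Units.val_mul, mul_inv_cancel, Units.val_one,
      Matrix.transpose_one]

/-- the inverse of a transpose is the transpose of the inverse -/
theorem inv_transpose (g h : GL ι F) (hgh : (h : Matrix ι ι F) = (g : Matrix ι ι F)ᵀ) :
    ((h⁻¹ : GL ι F) : Matrix ι ι F) = ((g⁻¹ : GL ι F) : Matrix ι ι F)ᵀ := by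
  obtain ⟨k, hk⟩ := exists_gl_transpose (g⁻¹ : GL ι F)
  have h1 : h * k = 1 := by
    apply Units.ext
    rw [Units.val_mul, hgh, hk, ← Matrix.transpose_mul, ← Units.val_mul, inv_mul_cancel,
      Units.val_one, Matrix.transpose_one]
  have h2 : h⁻¹ = k := inv_eq_of_mul_eq_one_right h1
  rw [h2, hk]

theorem exists_transpose (M : Subgroup (GL ι F)) :
    ∃ M' : Subgroup (GL ι F), ∀ g : GL ι F,
      g ∈ M' ↔ ∃ h ∈ M, (h : Matrix ι ι F) = (g : Matrix ι ι F)ᵀ := by
  refine ⟨{ carrier := {g | ∃ h ∈ M, (h : Matrix ι ι F) = (g : Matrix ι ι F)ᵀ}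
            mul_mem' := ?_
            one_mem' := ?_
            inv_mem' := ?_ }, fun g => Iff.rfl⟩
  · rintro a b ⟨ha, haM, hae⟩ ⟨hb, hbM, hbe⟩
    refine ⟨hb * ha, M.mul_mem hbM haM, ?_⟩
    rw [Units.val_mul, Units.val_mul, Matrix.transpose_mul, hae, hbe]
  · exact ⟨1, M.one_mem, by rw [Units.val_one, Matrix.transpose_one]⟩
  · rintro a ⟨ha, haM, hae⟩
    refine ⟨ha⁻¹, M.inv_mem haM, ?_⟩
    exact inv_transpose a ha hae

/-- in a monomial group element every row has at most one non-zero entry -/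
theorem isMon_transpose_of_mem (g : GL ι F) (hg : g ∈ mono ι F) :
    IsMon ((g : Matrix ι ι F)ᵀ) := by
  obtain ⟨h1, h2⟩ := (mem_mono_iff g).1 hg
  have key : ∀ i j, (g : Matrix ι ι F) i j ≠ 0 →
      ((g⁻¹ : GL ι F) : Matrix ι ι F) j i ≠ 0 := by
    intro i j hij h0
    have h3 : (((g⁻¹ : GL ι F) : Matrix ι ι F) * (g : Matrix ι ι F)) j j = 1 := by
      rw [← Units.val_mul, inv_mul_cancel, Units.val_one, Matrix.one_apply_eq]
    rw [Matrix.mul_apply] at h3
    have h4 : ∀ k ∈ Finset.univ,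
        ((g⁻¹ : GL ι F) : Matrix ι ι F) j k * (g : Matrix ι ι F) k j = 0 := by
      intro k _
      by_cases hk : (g : Matrix ι ι F) k j = 0
      · rw [hk, mul_zero]
      · have : k = i := h1 j k i hk hij
        rw [this, h0, zero_mul]
    rw [Finset.sum_eq_zero h4] at h3
    exact zero_ne_one h3
  intro j i i' hi hi'
  rw [Matrix.transpose_apply] at hi hi'
  exact h2 j i i' (key j i hi) (key j i' hi')

theorem mem_mono_transpose (g h : GL ι F) (hgh : (h : Matrix ι ι F) = (g : Matrix ι ι F)ᵀ) :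
    h ∈ mono ι F ↔ g ∈ mono ι F := by
  have hi := inv_transpose g h hgh
  have hgh' : (g : Matrix ι ι F) = (h : Matrix ι ι F)ᵀ := by
    rw [hgh, Matrix.transpose_transpose]
  have hi' := inv_transpose h g hgh'
  constructor
  · intro hh
    rw [mem_mono_iff, hgh', hi']
    exact ⟨isMon_transpose_of_mem h hh, isMon_transpose_of_mem h⁻¹ ((mono ι F).inv_mem hh)⟩
  · intro hg
    rw [mem_mono_iff, hgh, hi]
    exact ⟨isMon_transpose_of_mem g hg, isMon_transpose_of_mem g⁻¹ ((mono ι F).inv_mem hg)⟩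

theorem mem_sl_transpose (g h : GL ι F) (hgh : (h : Matrix ι ι F) = (g : Matrix ι ι F)ᵀ) :
    h ∈ specialLinear ι F ↔ g ∈ specialLinear ι F := by
  rw [Cfsg.Agent.H95.mem_specialLinear_iff, Cfsg.Agent.H95.mem_specialLinear_iff, hgh,
    Matrix.det_transpose]

theorem transvection_transpose (i j : ι) (c : F) :
    (Matrix.transvection i j c)ᵀ = Matrix.transvection j i c := by
  unfold Matrix.transvection
  rw [Matrix.transpose_add, Matrix.transpose_one, Matrix.transpose_single]

theorem isElemTv_transpose (g h : GL ι F) (hgh : (h : Matrix ι ι F) = (g : Matrix ι ι F)ᵀ) :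
    IsElemTv h ↔ IsElemTv g := by
  have hgh' : (g : Matrix ι ι F) = (h : Matrix ι ι F)ᵀ := by
    rw [hgh, Matrix.transpose_transpose]
  constructor
  · rintro ⟨i, j, hij, c, hc, he⟩
    exact ⟨j, i, fun h' => hij h'.symm, c, hc, by rw [hgh', he, transvection_transpose]⟩
  · rintro ⟨i, j, hij, c, hc, he⟩
    exact ⟨j, i, fun h' => hij h'.symm, c, hc, by rw [hgh, he, transvection_transpose]⟩

end Cfsg.Agent.H15.Mn
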