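import Mathlib
import Cfsg.Agent.S0680
import Cfsg.Agent.S0695
import Cfsg.Agent.S0696

set_option autoImplicit false

namespace Cfsg.Agent.H15

open MulAction
open scoped Pointwise

section basic
variable {Γ α : Type*} [Group Γ] [MulAction Γ α]

/-- `K` is `k`-transitive on the complement of `F`, by elements fixing `F` pointwise. -/
def TransOn (K : Subgroup Γ) (F : Set α) (k : ℕ) : Prop :=
  ∀ x y : Fin k ↪ α, (∀ i, x i ∉ F) → (∀ i, y i ∉ F) →
    ∃ g ∈ K, (∀ a ∈ F, g • a = a) ∧ ∀ i, g • x i = y i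

theorem transOn_empty_iff (K : Subgroup Γ) (k : ℕ) :
    TransOn K (∅ : Set α) k ↔ IsMultiplyPretransitive K α k := by
  constructor
  · intro h
    refine ⟨fun x y => ?_⟩
    obtain ⟨g, hg, -, hxy⟩ := h x y (fun i => Set.notMem_empty _) (fun i => Set.notMem_empty _)
    refine ⟨⟨g, hg⟩, ?_⟩
    ext i
    exact hxy i
  · intro h x y _ _
    obtain ⟨g, hg⟩ := h.exists_smul_eq x y
    refine ⟨g, g.2, fun a ha => absurd ha (Set.notMem_empty _), fun i => ?_⟩
    rw [← hg]
    rfl

theorem transOn_one_iff (K : Subgroup Γ) (F : Set α) :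
    TransOn K F 1 ↔ ∀ b c, b ∉ F → c ∉ F → ∃ g ∈ K, (∀ a ∈ F, g • a = a) ∧ g • b = c := by
  constructor
  · intro h b c hb hc
    obtain ⟨g, hg, hgF, hxy⟩ := h ⟨fun _ => b, fun i j _ => Subsingleton.elim i j⟩
      ⟨fun _ => c, fun i j _ => Subsingleton.elim i j⟩ (fun _ => hb) (fun _ => hc)
    exact ⟨g, hg, hgF, hxy 0⟩
  · intro h x y hx hy
    obtain ⟨g, hg, hgF, hxy⟩ := h (x 0) (y 0) (hx 0) (hy 0)
    refine ⟨g, hg, hgF, fun i => ?_⟩
    rw [Subsingleton.elim i 0]
    exact hxy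

theorem transOn_two (K : Subgroup Γ) (F : Set α) (h : TransOn K F 2) :
    ∀ a b c d, a ∉ F → b ∉ F → c ∉ F → d ∉ F → a ≠ b → c ≠ d →
      ∃ g ∈ K, (∀ e ∈ F, g • e = e) ∧ g • a = c ∧ g • b = d := by
  intro a b c d ha hb hc hd hab hcd
  obtain ⟨g, hg, hgF, hxy⟩ := h (Function.Embedding.embFinTwo hab)
    (Function.Embedding.embFinTwo hcd)
    (by intro i; fin_cases i; exacts [ha, hb]) (by intro i; fin_cases i; exacts [hc, hd])
  exact ⟨g, hg, hgF, hxy 0, hxy 1⟩

theorem fix_inv {g : Γ} {a : α} (h : g • a = a) : g⁻¹ • a = a := by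
  nth_rewrite 1 [← h]
  rw [inv_smul_smul]

theorem transOn_succ (K : Subgroup Γ) (F : Set α) (a : α) (ha : a ∉ F) (k : ℕ)
    (h1 : TransOn K F 1) (hk : TransOn K (insert a F) k) : TransOn K F (k + 1) := by
  rw [transOn_one_iff] at h1
  intro x y hx hy
  obtain ⟨g₁, hg₁, hg₁F, hg₁a⟩ := h1 (x (Fin.last k)) a (hx _) ha
  obtain ⟨g₂, hg₂, hg₂F, hg₂a⟩ := h1 (y (Fin.last k)) a (hy _) ha
  have aux : ∀ (g : Γ) (z : Fin (k + 1) ↪ α), (∀ e ∈ F, g • e = e) → g • z (Fin.last k) = a →
      (∀ i, z i ∉ F) → ∃ z' : Fin k ↪ α, (∀ i, z' i = g • z i.castSucc) ∧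
        ∀ i, z' i ∉ insert a F := by
    intro g z hgF hga hz
    refine ⟨⟨fun i => g • z i.castSucc, fun i j h => ?_⟩, fun i => rfl, fun i hi => ?_⟩
    · have h' : g • z i.castSucc = g • z j.castSucc := h
      exact Fin.castSucc_injective _ (z.injective (smul_left_cancel g h'))
    · rcases hi with hi | hi
      · have h3 : z i.castSucc = z (Fin.last k) := smul_left_cancel g (hi.trans hga.symm)
        exact (Fin.castSucc_lt_last i).ne (z.injective h3)
      · have h3 : g • (g • z i.castSucc) = g • z i.castSucc := hgF _ hi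
        have h4 : g • z i.castSucc = z i.castSucc := smul_left_cancel g h3
        exact hz i.castSucc (h4 ▸ hi)
  obtain ⟨x', hx'eq, hx'⟩ := aux g₁ x hg₁F hg₁a hx
  obtain ⟨y', hy'eq, hy'⟩ := aux g₂ y hg₂F hg₂a hy
  obtain ⟨g₃, hg₃, hg₃F, hg₃xy⟩ := hk x' y' hx' hy'
  refine ⟨g₂⁻¹ * g₃ * g₁, K.mul_mem (K.mul_mem (K.inv_mem hg₂) hg₃) hg₁, ?_, ?_⟩
  · intro e he
    rw [mul_smul, mul_smul, hg₁F e he, hg₃F e (Set.mem_insert_of_mem _ he), fix_inv (hg₂F e he)]
  · intro i
    rcases Fin.eq_castSucc_or_eq_last i with ⟨j, rfl⟩ | rfl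
    · have h5 := hg₃xy j
      rw [hx'eq, hy'eq] at h5
      rw [mul_smul, mul_smul, h5, inv_smul_smul]
    · rw [mul_smul, mul_smul, hg₁a, hg₃F a (Set.mem_insert _ _), ← hg₂a, inv_smul_smul]

theorem base_transitive (F : Set α)
    (hprim : IsPreprimitive (fixingSubgroup Γ F) (SubMulAction.ofFixingSubgroup Γ F))
    (N : Subgroup Γ) [hN : N.Normal]
    (hne : ∃ h ∈ N, (∀ a ∈ F, h • a = a) ∧ ∃ b : α, h • b ≠ b) : TransOn N F 1 := by
  rw [transOn_one_iff]
  obtain ⟨h, hhN, hhF, b, hb⟩ := hne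
  have hbF : b ∉ F := fun hbF => hb (hhF b hbF)
  let N' : Subgroup (fixingSubgroup Γ F) := N.subgroupOf (fixingSubgroup Γ F)
  have : N'.Normal := hN.subgroupOf _
  have hfp : fixedPoints N' (SubMulAction.ofFixingSubgroup Γ F) ≠ Set.univ := by
    intro hfp
    have hmem : (⟨b, hbF⟩ : SubMulAction.ofFixingSubgroup Γ F) ∈
        fixedPoints N' (SubMulAction.ofFixingSubgroup Γ F) := by rw [hfp]; trivial
    have := hmem ⟨⟨h, (mem_fixingSubgroup_iff Γ).mpr hhF⟩, hhN⟩
    exact hb (congrArg Subtype.val this)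
  have htr : IsPretransitive N' (SubMulAction.ofFixingSubgroup Γ F) :=
    IsQuasiPreprimitive.isPretransitive_of_normal hfp
  intro c d hc hd
  obtain ⟨g, hg⟩ := htr.exists_smul_eq ⟨c, hc⟩ ⟨d, hd⟩
  exact ⟨((g : fixingSubgroup Γ F) : Γ), g.2,
    (mem_fixingSubgroup_iff Γ).mp (g : fixingSubgroup Γ F).2, congrArg Subtype.val hg⟩

theorem regular_two [Finite α] (F : Set α)
    (h2 : IsMultiplyPreprimitive (fixingSubgroup Γ F) (SubMulAction.ofFixingSubgroup Γ F) 2)
    (M : Subgroup Γ) (hMF : ∀ g ∈ M, ∀ a ∈ F, g • a = a)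
    (hMn : ∀ g : Γ, (∀ a ∈ F, g • a = a) → ∀ m ∈ M, g * m * g⁻¹ ∈ M)
    (htr : ∀ b c, b ∉ F → c ∉ F → ∃ g ∈ M, g • b = c)
    (hsr : ∀ g ∈ M, ∀ b, b ∉ F → g • b = b → g = 1)
    (hcard : 2 ≤ Fᶜ.ncard) :
    Fᶜ.ncard = 3 ∨ ((∀ g ∈ M, g ^ 2 = 1) ∧ ∃ m : ℕ, Fᶜ.ncard = 2 ^ m) := by
  classical
  have : Fintype (SubMulAction.ofFixingSubgroup Γ F) := Fintype.ofFinite _
  have hX : Fintype.card (SubMulAction.ofFixingSubgroup Γ F) = Fᶜ.ncard := by
    rw [← Nat.card_eq_fintype_card]; exact Nat.card_coe_set_eq _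
  let M' : Subgroup (fixingSubgroup Γ F) := M.subgroupOf (fixingSubgroup Γ F)
  have : M'.Normal := ⟨fun m hm g => hMn g ((mem_fixingSubgroup_iff Γ).mp g.2) m hm⟩
  have htr' : IsPretransitive M' (SubMulAction.ofFixingSubgroup Γ F) := ⟨fun ⟨b, hb⟩ ⟨c, hc⟩ => by
    obtain ⟨g, hg, hgb⟩ := htr b c hb hc
    exact ⟨⟨⟨g, (mem_fixingSubgroup_iff Γ).mpr (hMF g hg)⟩, hg⟩, Subtype.ext hgb⟩⟩
  have hreg' : ∀ x : SubMulAction.ofFixingSubgroup Γ F, stabilizer M' x = ⊥ := by
    intro ⟨b, hb⟩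
    rw [eq_bot_iff]
    intro g hg
    rw [mem_stabilizer_iff] at hg
    have h1 : ((g : fixingSubgroup Γ F) : Γ) • b = b := congrArg Subtype.val hg
    have := hsr _ g.2 b hb h1
    rw [Subgroup.mem_bot]
    exact Subtype.ext (Subtype.ext this)
  rcases Cfsg.Agent.S0695.result (G := fixingSubgroup Γ F)
      (X := SubMulAction.ofFixingSubgroup Γ F) (by rw [hX]; exact hcard) h2 M' htr' hreg' with
    h | ⟨-, hexp, m, hm⟩
  · left; rw [← hX]; exact h
  · right
    refine ⟨fun g hg => ?_, m, by rw [← hX]; exact hm⟩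
    have := hexp ⟨g, (mem_fixingSubgroup_iff Γ).mpr (hMF g hg)⟩ hg
    exact congrArg Subtype.val this

theorem regular_three [Finite α] (F : Set α)
    (h3 : IsMultiplyPreprimitive (fixingSubgroup Γ F) (SubMulAction.ofFixingSubgroup Γ F) 3)
    (M : Subgroup Γ) (hMF : ∀ g ∈ M, ∀ a ∈ F, g • a = a)
    (hMn : ∀ g : Γ, (∀ a ∈ F, g • a = a) → ∀ m ∈ M, g * m * g⁻¹ ∈ M)
    (htr : ∀ b c, b ∉ F → c ∉ F → ∃ g ∈ M, g • b = c)
    (hsr : ∀ g ∈ M, ∀ b, b ∉ F → g • b = b → g = 1)
    (hcard : 3 ≤ Fᶜ.ncard) :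
    Fᶜ.ncard = 3 ∨ Fᶜ.ncard = 4 := by
  classical
  have : Fintype (SubMulAction.ofFixingSubgroup Γ F) := Fintype.ofFinite _
  have hX : Fintype.card (SubMulAction.ofFixingSubgroup Γ F) = Fᶜ.ncard := by
    rw [← Nat.card_eq_fintype_card]; exact Nat.card_coe_set_eq _
  let M' : Subgroup (fixingSubgroup Γ F) := M.subgroupOf (fixingSubgroup Γ F)
  have : M'.Normal := ⟨fun m hm g => hMn g ((mem_fixingSubgroup_iff Γ).mp g.2) m hm⟩
  have htr' : IsPretransitive M' (SubMulAction.ofFixingSubgroup Γ F) := ⟨fun ⟨b, hb⟩ ⟨c, hc⟩ => by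
    obtain ⟨g, hg, hgb⟩ := htr b c hb hc
    exact ⟨⟨⟨g, (mem_fixingSubgroup_iff Γ).mpr (hMF g hg)⟩, hg⟩, Subtype.ext hgb⟩⟩
  have hreg' : ∀ x : SubMulAction.ofFixingSubgroup Γ F, stabilizer M' x = ⊥ := by
    intro ⟨b, hb⟩
    rw [eq_bot_iff]
    intro g hg
    rw [mem_stabilizer_iff] at hg
    have h1 : ((g : fixingSubgroup Γ F) : Γ) • b = b := congrArg Subtype.val hg
    have := hsr _ g.2 b hb h1
    rw [Subgroup.mem_bot]
    exact Subtype.ext (Subtype.ext this)
  have := Cfsg.Agent.S0696.result (G := fixingSubgroup Γ F)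
      (X := SubMulAction.ofFixingSubgroup Γ F) (by rw [hX]; exact hcard) h3 M' htr' hreg'
  rw [hX] at this
  exact this

/-- the complement of a pointwise fixed set as a sub-action -/
def complAct (L : Subgroup Γ) (F : Set α) (hLF : ∀ g ∈ L, ∀ a ∈ F, g • a = a) :
    SubMulAction L α where
  carrier := Fᶜ
  smul_mem' := by
    intro g x hx hgx
    apply hx
    have h1 : (g : Γ) • ((g : Γ) • x) = (g : Γ) • x := hLF g g.2 _ hgx
    have h2 : (g : Γ) • x = x := smul_left_cancel (g : Γ) h1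
    rw [← h2]; exact hgx

theorem sharp_adapter [Fintype α] [DecidableEq α] [Finite Γ] (L : Subgroup Γ) (F : Set α)
    (hLF : ∀ g ∈ L, ∀ a ∈ F, g • a = a)
    (ht2 : ∀ a b c d, a ∉ F → b ∉ F → c ∉ F → d ∉ F → a ≠ b → c ≠ d →
      ∃ g ∈ L, g • a = c ∧ g • b = d)
    (hsh : ∀ a b, a ∉ F → b ∉ F → a ≠ b → ∀ g ∈ L, g • a = a → g • b = b → g = 1)
    (hsz : ∃ a b, a ∉ F ∧ b ∉ F ∧ a ≠ b) :
    ∃ M : Subgroup Γ, M ≤ L ∧ (∀ g ∈ L, g ∈ M ↔ (g = 1 ∨ ∀ a, a ∉ F → g • a ≠ a)) ∧
      (∀ b c, b ∉ F → c ∉ F → ∃ g ∈ M, g • b = c) := by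
  classical
  have : Fintype (complAct L F hLF) := Fintype.ofFinite _
  have h2t : IsMultiplyPretransitive L (complAct L F hLF) 2 := by
    rw [is_two_pretransitive_iff]
    intro a b c d hab hcd
    obtain ⟨g, hg, hga, hgb⟩ := ht2 a b c d a.2 b.2 c.2 d.2 (fun h => hab (Subtype.ext h))
      (fun h => hcd (Subtype.ext h))
    exact ⟨⟨g, hg⟩, Subtype.ext hga, Subtype.ext hgb⟩
  have hsharp : ∀ a b : complAct L F hLF, a ≠ b → ∀ g : L, g • a = a → g • b = b → g = 1 := by
    intro a b hab g hga hgb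
    exact Subtype.ext (hsh a b a.2 b.2 (fun h => hab (Subtype.ext h)) g g.2
      (congrArg Subtype.val hga) (congrArg Subtype.val hgb))
  have hcard : 2 ≤ Fintype.card (complAct L F hLF) := by
    obtain ⟨a, b, ha, hb, hab⟩ := hsz
    have : 1 < Fintype.card (complAct L F hLF) :=
      Fintype.one_lt_card_iff.mpr ⟨⟨a, ha⟩, ⟨b, hb⟩, fun h => hab (congrArg Subtype.val h)⟩
    exact this
  obtain ⟨p, j, N, hp, hj1, hj, hNn, hNab, hNexp, hNmem, hNcard, hGcard⟩ :=
    Cfsg.Agent.S0680.sharp_main (G := L) (α := complAct L F hLF) h2t hsharp hcard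
  refine ⟨N.map L.subtype, ?_, ?_, ?_⟩
  · rintro _ ⟨g, -, rfl⟩; exact g.2
  · intro g hg
    constructor
    · rintro ⟨g', hg', hgg'⟩
      have : g' = ⟨g, hg⟩ := Subtype.ext hgg'
      subst this
      rcases (hNmem _).mp hg' with h | h
      · left; exact congrArg Subtype.val h
      · right; intro a ha hfix; exact h ⟨a, ha⟩ (Subtype.ext hfix)
    · intro h
      refine ⟨⟨g, hg⟩, (hNmem _).mpr ?_, rfl⟩
      rcases h with h | h
      · left; exact Subtype.ext h
      · right; intro a hfix; exact h a a.2 (congrArg Subtype.val hfix)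
  · intro b c hb hc
    have hinj : Function.Injective (fun g : N => (g : L) • (⟨b, hb⟩ : complAct L F hLF)) := by
      intro g h hgh
      have h1 : ((h : L)⁻¹ * (g : L)) • (⟨b, hb⟩ : complAct L F hLF) = ⟨b, hb⟩ := by
        rw [mul_smul]; simp only at hgh; rw [hgh, inv_smul_smul]
      have hmem : (h : L)⁻¹ * (g : L) ∈ N := N.mul_mem (N.inv_mem h.2) g.2
      rcases (hNmem _).mp hmem with h2 | h2
      · exact Subtype.ext (inv_mul_eq_one.mp h2).symm
      · exact absurd h1 (h2 _)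
    have hsurj : Function.Surjective (fun g : N => (g : L) • (⟨b, hb⟩ : complAct L F hLF)) := by
      apply (Function.Injective.bijective_of_nat_card_le hinj ?_).2
      rw [hNcard, Nat.card_eq_fintype_card]
    obtain ⟨g, hg⟩ := hsurj ⟨c, hc⟩
    exact ⟨((g : L) : Γ), ⟨(g : L), g.2, rfl⟩, congrArg Subtype.val hg⟩

end basic

section main
variable {Γ α : Type*} [Group Γ] [MulAction Γ α] [Fintype α] [DecidableEq α]

theorem ncard_compl_finset (F : Finset α) :
    ((F : Set α)ᶜ).ncard = Fintype.card α - F.card := by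
  rw [Set.ncard_compl, Set.ncard_coe_finset, Nat.card_eq_fintype_card]

theorem prim_fix {K : ℕ} (hK : IsMultiplyPreprimitive Γ α K) (hKα : K ≤ Fintype.card α)
    (F : Finset α) (m : ℕ) (hm : F.card + m ≤ K) :
    IsMultiplyPreprimitive (fixingSubgroup Γ (F : Set α))
      (SubMulAction.ofFixingSubgroup Γ (F : Set α)) m := by
  have h1 : IsMultiplyPreprimitive Γ α (F.card + m) :=
    isMultiplyPreprimitive_of_le Γ α hK hm (by
      rw [ENat.card_eq_coe_fintype_card]; exact_mod_cast hKα)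
  haveI := h1
  exact MulAction.ofFixingSubgroup.isMultiplyPreprimitive Γ α (n := F.card + m)
    (s := (F : Set α)) (by rw [Set.ncard_coe_finset])

theorem exists_move [FaithfulSMul Γ α] (h : Γ) (hh : h ≠ 1) : ∃ b : α, h • b ≠ b := by
  by_contra hcon
  push Not at hcon
  exact hh (eq_of_smul_eq_smul (α := α) (fun a => by rw [hcon a, one_smul]))

/-- the sharply 2-transitive situation on the complement of `F`: produces a regular subgroup
normalised by the pointwise stabiliser of `F`. -/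
theorem sharp_regular [Finite Γ] (N : Subgroup Γ) [N.Normal] (F : Finset α) (a : α) (haF : a ∉ F)
    (T1 : TransOn N (F : Set α) 1) (T1' : TransOn N (insert a (F : Set α)) 1)
    (hsr : ∀ b ∉ insert a F, ∀ h ∈ N, h ≠ 1 → (∀ c ∈ insert a F, h • c = c) → h • b ≠ b)
    (hsz : ∃ b₀, b₀ ∉ F ∧ b₀ ≠ a) :
    ∃ M : Subgroup Γ, (∀ g ∈ M, ∀ b ∈ (F : Set α), g • b = b) ∧
      (∀ g : Γ, (∀ b ∈ (F : Set α), g • b = b) → ∀ m ∈ M, g * m * g⁻¹ ∈ M) ∧
      (∀ b c, b ∉ (F : Set α) → c ∉ (F : Set α) → ∃ g ∈ M, g • b = c) ∧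
      (∀ g ∈ M, ∀ b, b ∉ (F : Set α) → g • b = b → g = 1) := by
  have haF' : a ∉ (F : Set α) := by simpa using haF
  have T2 : TransOn N (F : Set α) 2 := transOn_succ N _ a haF' 1 T1 T1'
  let L : Subgroup Γ := N ⊓ fixingSubgroup Γ (F : Set α)
  have hLmem : ∀ g, g ∈ L ↔ g ∈ N ∧ ∀ b ∈ F, g • b = b := by
    intro g
    simp [L, Subgroup.mem_inf, mem_fixingSubgroup_iff]
  have hLF : ∀ g ∈ L, ∀ b ∈ (F : Set α), g • b = b := fun g hg b hb => ((hLmem g).mp hg).2 b hb
  have ht2 := transOn_two N _ T2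
  have hsh : ∀ a' b', a' ∉ (F : Set α) → b' ∉ (F : Set α) → a' ≠ b' → ∀ g ∈ L,
      g • a' = a' → g • b' = b' → g = 1 := by
    intro a' b' ha' hb' hab g hg hga hgb
    by_contra hg1
    obtain ⟨g₁, hg₁N, hg₁F, hg₁a⟩ := (transOn_one_iff N _).mp T1 a' a ha' haF'
    have hgN := ((hLmem g).mp hg).1
    have hgF := ((hLmem g).mp hg).2
    have hc : g₁ * g * g₁⁻¹ ∈ N := N.mul_mem (N.mul_mem hg₁N hgN) (N.inv_mem hg₁N)
    have hc1 : g₁ * g * g₁⁻¹ ≠ 1 := by
      intro h
      apply hg1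
      have : g = g₁⁻¹ * (g₁ * g * g₁⁻¹) * g₁ := by group
      rw [this, h]
      group
    have hcF : ∀ c ∈ insert a F, (g₁ * g * g₁⁻¹) • c = c := by
      intro c hc'
      rcases Finset.mem_insert.mp hc' with rfl | hc'
      · rw [mul_smul, mul_smul, ← hg₁a, inv_smul_smul, hga]
      · rw [mul_smul, mul_smul, fix_inv (hg₁F c hc'), hgF c hc', hg₁F c hc']
    have hb'' : g₁ • b' ∉ insert a F := by
      intro hmem
      rcases Finset.mem_insert.mp hmem with h | h
      · exact hab (smul_left_cancel g₁ (hg₁a.trans h.symm))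
      · have h3 : g₁ • (g₁ • b') = g₁ • b' := hg₁F _ h
        have h4 : g₁ • b' = b' := smul_left_cancel g₁ h3
        exact hb' (by rw [← h4]; exact h)
    exact hsr (g₁ • b') hb'' (g₁ * g * g₁⁻¹) hc hc1 hcF
      (by rw [mul_smul, mul_smul, inv_smul_smul, hgb])
  obtain ⟨b₀, hb₀F, hb₀a⟩ := hsz
  obtain ⟨M, hML, hMmem, hMtr⟩ := sharp_adapter L (F : Set α) hLF
    (fun a' b' c' d' ha' hb' hc' hd' hab hcd => by
      obtain ⟨g, hgN, hgF, h1, h2⟩ := ht2 a' b' c' d' ha' hb' hc' hd' hab hcd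
      exact ⟨g, (hLmem g).mpr ⟨hgN, fun b hb => hgF b hb⟩, h1, h2⟩)
    hsh ⟨a, b₀, haF', by simpa using hb₀F, hb₀a.symm⟩
  refine ⟨M, fun g hg => hLF g (hML hg), ?_, hMtr, ?_⟩
  · intro g hgF m hm
    have hmL := hML hm
    have hcL : g * m * g⁻¹ ∈ L := (hLmem _).mpr
      ⟨Subgroup.Normal.conj_mem inferInstance m ((hLmem m).mp hmL).1 g, fun b hb => by
        rw [mul_smul, mul_smul, fix_inv (hgF b hb), ((hLmem m).mp hmL).2 b hb, hgF b hb]⟩
    rw [hMmem _ hcL]
    rcases (hMmem m hmL).mp hm with h | h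
    · left
      rw [h]
      group
    · right
      intro c hc hfix
      apply h (g⁻¹ • c)
      · intro hmem
        have := hgF _ hmem
        rw [smul_inv_smul] at this
        exact hc (this ▸ hmem)
      · calc m • (g⁻¹ • c) = g⁻¹ • ((g * m * g⁻¹) • c) := by
              rw [← mul_smul, ← mul_smul]
              congr 1
              group
          _ = g⁻¹ • c := by rw [hfix]
  · intro g hg b hb hfix
    rcases (hMmem g (hML hg)).mp hg with h | h
    · exact h
    · exact absurd hfix (h b hb)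

theorem exists_second (F : Finset α) (a : α) (h : F.card + 2 ≤ Fintype.card α) :
    ∃ b₀, b₀ ∉ F ∧ b₀ ≠ a := by
  by_contra hcon
  push Not at hcon
  have : Fintype.card α ≤ (insert a F).card := by
    rw [← Finset.card_univ]
    apply Finset.card_le_card
    intro x _
    by_cases hx : x ∈ F
    · exact Finset.mem_insert_of_mem hx
    · rw [hcon x hx]
      exact Finset.mem_insert_self _ _
  have := Finset.card_insert_le a F
  omega

theorem jordan_prim_aux [Finite Γ] [FaithfulSMul Γ α] (N : Subgroup Γ) [N.Normal] (K : ℕ)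
    (hK : IsMultiplyPreprimitive Γ α K) (hKα : K ≤ Fintype.card α)
    (hfull : ¬ IsMultiplyPretransitive Γ α (Fintype.card α - 1)) :
    ∀ k, 1 ≤ k → ∀ F : Finset α, F.card + k = K →
      (∃ a ∉ F, ∃ h ∈ N, h ≠ 1 ∧ (∀ b ∈ F, h • b = b) ∧ h • a = a) →
      TransOn N (F : Set α) k := by
  have hbase : ∀ F : Finset α, F.card + 1 ≤ K → (∃ h ∈ N, h ≠ 1 ∧ ∀ b ∈ F, h • b = b) →
      TransOn N (F : Set α) 1 := by
    intro F hF ⟨h, hhN, hh1, hhF⟩
    have hprim := prim_fix hK hKα F 1 hF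
    rw [is_one_preprimitive_iff] at hprim
    exact base_transitive _ hprim N ⟨h, hhN, fun a ha => hhF a (Finset.mem_coe.mp ha),
      exists_move h hh1⟩
  intro k
  induction k with
  | zero => intro h; omega
  | succ j ih =>
    intro _ F hF ⟨a, haF, h₀, hh₀N, hh₀1, hh₀F, hh₀a⟩
    have T1 : TransOn N (F : Set α) 1 := hbase F (by omega) ⟨h₀, hh₀N, hh₀1, hh₀F⟩
    rcases Nat.eq_zero_or_pos j with hj | hj
    · subst hj; exact T1
    have hF'card : (insert a F).card = F.card + 1 := Finset.card_insert_of_notMem haF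
    have hh₀F' : ∀ b ∈ insert a F, h₀ • b = b := by
      intro b hb
      rcases Finset.mem_insert.mp hb with rfl | hb
      exacts [hh₀a, hh₀F b hb]
    have hcoe : ((insert a F : Finset α) : Set α) = insert a (F : Set α) := Finset.coe_insert a F
    have haF' : a ∉ (F : Set α) := by simpa using haF
    by_cases hsr : ∃ b ∉ insert a F, ∃ h ∈ N, h ≠ 1 ∧ (∀ c ∈ insert a F, h • c = c) ∧ h • b = b
    · have := ih hj (insert a F) (by omega) hsr
      rw [hcoe] at this
      exact transOn_succ N _ a haF' j T1 this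
    · push Not at hsr
      have T1' : TransOn N ((insert a F : Finset α) : Set α) 1 :=
        hbase (insert a F) (by omega) ⟨h₀, hh₀N, hh₀1, hh₀F'⟩
      rw [hcoe] at T1'
      rcases Nat.lt_or_ge j 2 with hj2 | hj2
      · have : j = 1 := by omega
        subst this
        exact transOn_succ N _ a haF' 1 T1 T1'
      exfalso
      have hnc : ((F : Set α)ᶜ).ncard = Fintype.card α - F.card := ncard_compl_finset F
      have hnc' : (((insert a F : Finset α) : Set α)ᶜ).ncard = Fintype.card α - F.card - 1 := by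
        rw [ncard_compl_finset, hF'card]
        omega
      obtain ⟨M, hMF, hMn, hMtr, hMsr⟩ := sharp_regular N F a haF T1 T1' hsr
        (exists_second F a (by omega))
      have h2F := prim_fix hK hKα F 2 (by omega)
      have c1 := regular_two (F : Set α) h2F M hMF hMn hMtr hMsr (by rw [hnc]; omega)
      let L' : Subgroup Γ := N ⊓ fixingSubgroup Γ ((insert a F : Finset α) : Set α)
      have hL'mem : ∀ g, g ∈ L' ↔ g ∈ N ∧ ∀ b ∈ insert a F, g • b = b := by
        intro g
        simp only [L', Subgroup.mem_inf, mem_fixingSubgroup_iff, Finset.mem_coe]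
      have h2F' := prim_fix hK hKα (insert a F) 2 (by omega)
      have c2 := regular_two ((insert a F : Finset α) : Set α) h2F' L'
        (fun g hg b hb => ((hL'mem g).mp hg).2 b hb)
        (by
          intro g hgF m hm
          exact (hL'mem _).mpr ⟨Subgroup.Normal.conj_mem inferInstance m ((hL'mem m).mp hm).1 g,
            fun b hb => by
              rw [mul_smul, mul_smul, fix_inv (hgF b hb), ((hL'mem m).mp hm).2 b hb, hgF b hb]⟩)
        (by
          intro b c hb hc
          obtain ⟨g, hgN, hgF, hgb⟩ := (transOn_one_iff N _).mp T1' b c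
            (by rw [← hcoe]; exact hb) (by rw [← hcoe]; exact hc)
          exact ⟨g, (hL'mem g).mpr ⟨hgN, fun e he => hgF e (by rw [← hcoe]; exact he)⟩, hgb⟩)
        (by
          intro g hg b hb hfix
          by_contra hg1
          exact hsr b hb g ((hL'mem g).mp hg).1 hg1 ((hL'mem g).mp hg).2 hfix)
        (by rw [hnc']; omega)
      rw [hnc] at c1
      rw [hnc'] at c2
      have hn4 : Fintype.card α - F.card ≤ 4 := by
        rcases c1 with h | ⟨-, m', hm'⟩
        · omega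
        · rcases c2 with h | ⟨-, m, hm⟩
          · omega
          · exfalso
            have e1 : Even (2 ^ m') := by
              rcases m' with _ | m'
              · simp at hm'; omega
              · exact ⟨2 ^ m', by rw [pow_succ]; ring⟩
            have e2 : Even (2 ^ m) := by
              rcases m with _ | m
              · simp at hm; omega
              · exact ⟨2 ^ m, by rw [pow_succ]; ring⟩
            obtain ⟨s, hs⟩ := e1
            obtain ⟨t, ht⟩ := e2
            rw [hs] at hm'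
            rw [ht] at hm
            omega
      apply hfull
      have hKt : IsMultiplyPretransitive Γ α K := hK.isMultiplyPretransitive
      clear c1 c2
      exact isMultiplyPretransitive_of_le (n := K) (by omega)
        (by rw [Nat.card_eq_fintype_card]; exact hKα)

theorem trans_fix {K : ℕ} (hK : IsMultiplyPretransitive Γ α K) (hKα : K ≤ Fintype.card α)
    (F : Finset α) (m : ℕ) (hm : F.card + m ≤ K) :
    IsMultiplyPretransitive (fixingSubgroup Γ (F : Set α))
      (SubMulAction.ofFixingSubgroup Γ (F : Set α)) m := by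
  haveI := hK
  exact SubMulAction.ofFixingSubgroup.isMultiplyPretransitive' (G := Γ) (n := K) (F : Set α)
    (by rw [Set.ncard_coe_finset]; exact hm)
    (by rw [ENat.card_eq_coe_fintype_card]; exact_mod_cast hKα)

theorem prim_fix' {K : ℕ} (hK : IsMultiplyPretransitive Γ α K) (hKα : K ≤ Fintype.card α)
    (F : Finset α) (m : ℕ) (hm : F.card + (m + 1) ≤ K) :
    IsMultiplyPreprimitive (fixingSubgroup Γ (F : Set α))
      (SubMulAction.ofFixingSubgroup Γ (F : Set α)) m := by
  haveI := trans_fix hK hKα F (m + 1) hm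
  apply isMultiplyPreprimitive_of_isMultiplyPretransitive_succ
  have : Fintype (SubMulAction.ofFixingSubgroup Γ (F : Set α)) := Fintype.ofFinite _
  rw [ENat.card_eq_coe_fintype_card, ← Nat.card_eq_fintype_card]
  have h1 : Nat.card (SubMulAction.ofFixingSubgroup Γ (F : Set α)) = ((F : Set α)ᶜ).ncard :=
    Nat.card_coe_set_eq _
  rw [h1, ncard_compl_finset]
  exact_mod_cast (by omega : m + 1 ≤ Fintype.card α - F.card)

/-- Jordan's theorem on normal subgroups of multiply transitive groups, relative version. -/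
theorem jordan_trans_aux [Finite Γ] [FaithfulSMul Γ α] (N : Subgroup Γ) [N.Normal] (K : ℕ)
    (hK : IsMultiplyPretransitive Γ α K) (hKα : K < Fintype.card α) :
    ∀ m, 2 ≤ m → ∀ F : Finset α, F.card + m = K →
      (∃ h ∈ N, h ≠ 1 ∧ ∀ b ∈ F, h • b = b) →
      TransOn N (F : Set α) (m - 1) ∨
        (m = 3 ∧ (∀ b ∉ F, ∀ h ∈ N, h ≠ 1 → (∀ c ∈ F, h • c = c) → h • b ≠ b) ∧
          ∀ g ∈ N, (∀ c ∈ F, g • c = c) → g ^ 2 = 1) := by
  have hbase : ∀ F : Finset α, F.card + 2 ≤ K → (∃ h ∈ N, h ≠ 1 ∧ ∀ b ∈ F, h • b = b) →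
      TransOn N (F : Set α) 1 := by
    intro F hF ⟨h, hhN, hh1, hhF⟩
    have htr := trans_fix hK hKα.le F 2 hF
    have hprim := isPreprimitive_of_is_two_pretransitive htr
    exact base_transitive _ hprim N ⟨h, hhN, fun a ha => hhF a (Finset.mem_coe.mp ha),
      exists_move h hh1⟩
  intro m
  induction m with
  | zero => intro h; omega
  | succ j ih =>
    intro hj2 F hF hne
    have T1 : TransOn N (F : Set α) 1 := hbase F (by omega) hne
    rcases Nat.lt_or_ge j 2 with hj | hj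
    · left
      have : j = 1 := by omega
      subst this
      exact T1
    have hnc : ((F : Set α)ᶜ).ncard = Fintype.card α - F.card := ncard_compl_finset F
    by_cases hsr : ∃ a ∉ F, ∃ h ∈ N, h ≠ 1 ∧ (∀ c ∈ F, h • c = c) ∧ h • a = a
    · obtain ⟨a, haF, h₀, hh₀N, hh₀1, hh₀F, hh₀a⟩ := hsr
      have hF'card : (insert a F).card = F.card + 1 := Finset.card_insert_of_notMem haF
      have hh₀F' : ∀ b ∈ insert a F, h₀ • b = b := by
        intro b hb
        rcases Finset.mem_insert.mp hb with rfl | hb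
        exacts [hh₀a, hh₀F b hb]
      have hcoe : ((insert a F : Finset α) : Set α) = insert a (F : Set α) := Finset.coe_insert a F
      have haF' : a ∉ (F : Set α) := by simpa using haF
      rcases ih (by omega) (insert a F) (by omega) ⟨h₀, hh₀N, hh₀1, hh₀F'⟩ with
        h | ⟨hj3, hsr', hexp'⟩
      · left
        rw [hcoe] at h
        have key := transOn_succ N _ a haF' (j - 1) T1 h
        have e : j - 1 + 1 = j + 1 - 1 := by omega
        rw [e] at key
        exact key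
      · exfalso
        have T1' : TransOn N ((insert a F : Finset α) : Set α) 1 :=
          hbase (insert a F) (by omega) ⟨h₀, hh₀N, hh₀1, hh₀F'⟩
        rw [hcoe] at T1'
        obtain ⟨M, hMF, hMn, hMtr, hMsr⟩ := sharp_regular N F a haF T1 T1' hsr'
          (exists_second F a (by omega))
        have h3F := prim_fix' hK hKα.le F 3 (by omega)
        have c := regular_three (F : Set α) h3F M hMF hMn hMtr hMsr (by rw [hnc]; omega)
        rw [hnc] at c
        omega
    · push Not at hsr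
      let L : Subgroup Γ := N ⊓ fixingSubgroup Γ (F : Set α)
      have hLmem : ∀ g, g ∈ L ↔ g ∈ N ∧ ∀ b ∈ F, g • b = b := by
        intro g
        simp only [L, Subgroup.mem_inf, mem_fixingSubgroup_iff, Finset.mem_coe]
      have a1 : ∀ g ∈ L, ∀ b ∈ (F : Set α), g • b = b := fun g hg b hb => ((hLmem g).mp hg).2 b hb
      have a2 : ∀ g : Γ, (∀ b ∈ (F : Set α), g • b = b) → ∀ m ∈ L, g * m * g⁻¹ ∈ L := by
        intro g hgF m hm
        exact (hLmem _).mpr ⟨Subgroup.Normal.conj_mem inferInstance m ((hLmem m).mp hm).1 g,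
          fun b hb => by
            rw [mul_smul, mul_smul, fix_inv (hgF b hb), ((hLmem m).mp hm).2 b hb, hgF b hb]⟩
      have a3 : ∀ b c, b ∉ (F : Set α) → c ∉ (F : Set α) → ∃ g ∈ L, g • b = c := by
        intro b c hb hc
        obtain ⟨g, hgN, hgF, hgb⟩ := (transOn_one_iff N _).mp T1 b c hb hc
        exact ⟨g, (hLmem g).mpr ⟨hgN, fun e he => hgF e he⟩, hgb⟩
      have a4 : ∀ g ∈ L, ∀ b, b ∉ (F : Set α) → g • b = b → g = 1 := by
        intro g hg b hb hfix
        by_contra hg1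
        exact hsr b hb g ((hLmem g).mp hg).1 hg1 ((hLmem g).mp hg).2 hfix
      have h2F := prim_fix' hK hKα.le F 2 (by omega)
      have c1 := regular_two (F : Set α) h2F L a1 a2 a3 a4 (by rw [hnc]; omega)
      rw [hnc] at c1
      rcases c1 with h | ⟨hexp, -⟩
      · omega
      · rcases Nat.lt_or_ge j 3 with hj3 | hj3
        · right
          refine ⟨by omega, hsr, ?_⟩
          intro g hgN hgF
          exact hexp g ((hLmem g).mpr ⟨hgN, hgF⟩)
        · exfalso
          have h3F := prim_fix' hK hKα.le F 3 (by omega)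
          have c := regular_three (F : Set α) h3F L a1 a2 a3 a4 (by rw [hnc]; omega)
          rw [hnc] at c
          omega

end main

end Cfsg.Agent.H15
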