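import Mathlib
import Cfsg.Agent.H76.NCZDefs
import Cfsg.Agent.S1417
import Cfsg.Agent.S1418
import Cfsg.Agent.Lib.Helper30.CoprimeIface

/-!
# S1353/S1354 piece NCZ-C3SYL (helper15)

Case 3 of helper76's configuration: `P` does not centralize `A` and the Sylow `r`-subgroups of `G`
are commutative.  Then there is a `P`-invariant commutative Sylow `r`-subgroup `S` of `G` with
`A ≤ S ≤ C_G(A)` and `Ω₁(C_S(P)) ≤ R`.
-/

set_option autoImplicit false

namespace Cfsg.Agent.H15.NCZ

open Cfsg Subgroup Cfsg.Agent.H76.NCKill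

universe u

variable {G : Type u} [Group G]

/-- `N(A)` normalizes `C(A)` (elementwise form). -/
theorem conj_mem_centralizer_of_mem_normalizer {A : Subgroup G} {g z : G}
    (hg : g ∈ normalizer (A : Set G)) (hz : z ∈ centralizer (A : Set G)) :
    g * z * g⁻¹ ∈ centralizer (A : Set G) := by
  rw [Subgroup.mem_centralizer_iff] at hz ⊢
  intro x hx
  have hx' : g⁻¹ * x * g ∈ A := (Subgroup.mem_normalizer_iff''.mp hg x).mp hx
  have h1 := hz _ hx'
  calc x * (g * z * g⁻¹) = g * ((g⁻¹ * x * g) * z) * g⁻¹ := by group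
    _ = g * (z * (g⁻¹ * x * g)) * g⁻¹ := by rw [h1]
    _ = g * z * g⁻¹ * x := by group

theorem normalizer_le_normalizer_cent (A : Subgroup G) :
    normalizer (A : Set G) ≤ normalizer ((centralizer (A : Set G) : Subgroup G) : Set G) := by
  intro g hg
  rw [Subgroup.mem_normalizer_iff]
  intro z
  constructor
  · intro hz
    exact conj_mem_centralizer_of_mem_normalizer hg hz
  · intro hz
    have h1 := conj_mem_centralizer_of_mem_normalizer (Subgroup.inv_mem _ hg) hz
    have h2 : g⁻¹ * (g * z * g⁻¹) * g⁻¹⁻¹ = z := by group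
    rwa [h2] at h1

/-- In a subgroup `M` of `p`-rank at most 1, an element `x` with `x ^ p = 1` commuting with an
element `z` of order `p` is a power of `z`. -/
theorem mem_zpowers_of_rank_one [Finite G] (p : ℕ) [Fact p.Prime] {M : Subgroup G}
    (hrk : PRankLE p 1 ↥M) {x z : G} (hx : x ∈ M) (hz : z ∈ M) (hxz : x * z = z * x)
    (hxp : x ^ p = 1) (hzp : orderOf z = p) : x ∈ zpowers z := by
  classical
  by_contra hxZ
  set T : Subgroup G := closure ({x, z} : Set G) with hT
  have hxT : x ∈ T := subset_closure (by simp)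
  have hzT : z ∈ T := subset_closure (by simp)
  have hTM : T ≤ M := by
    rw [hT, closure_le]
    intro y hy
    rcases hy with rfl | rfl
    · exact hx
    · exact hz
  have h1 : T ≤ centralizer ({x, z} : Set G) := by
    rw [hT, closure_le]
    intro y hy
    rw [SetLike.mem_coe, Subgroup.mem_centralizer_iff]
    intro w hw
    rcases hy with rfl | rfl <;> rcases hw with rfl | rfl
    · rfl
    · exact hxz.symm
    · exact hxz
    · rfl
  have hTcomm : ∀ a ∈ T, ∀ b ∈ T, a * b = b * a := by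
    intro a ha
    have h2 : T ≤ centralizer ({a} : Set G) := by
      rw [hT, closure_le]
      intro y hy
      rw [SetLike.mem_coe, Subgroup.mem_centralizer_iff]
      intro w hw
      rw [Set.mem_singleton_iff] at hw
      subst hw
      exact (Subgroup.mem_centralizer_iff.mp (h1 ha) y hy).symm
    intro b hb
    exact Subgroup.mem_centralizer_iff.mp (h2 hb) a rfl
  have hTexp : ∀ a ∈ T, a ^ p = 1 := by
    intro a ha
    have hzp' : z ^ p = 1 := by rw [← hzp]; exact pow_orderOf_eq_one z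
    have key : ∀ (y : G) (hy : y ∈ closure ({x, z} : Set G)), y ^ p = 1 := by
      intro y hy
      induction hy using Subgroup.closure_induction with
      | mem y hy =>
        rcases hy with rfl | rfl
        · exact hxp
        · exact hzp'
      | one => exact one_pow p
      | mul a b ha hb iha ihb =>
        have hc : Commute a b := hTcomm a ha b hb
        rw [hc.mul_pow, iha, ihb, one_mul]
      | inv a ha iha => rw [inv_pow, iha, inv_one]
    exact key a ha
  have hZT : zpowers z ≤ T := by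
    rw [zpowers_le]
    exact hzT
  have hZcard : Nat.card (zpowers z) = p := by rw [Nat.card_zpowers, hzp]
  have hlt : p < Nat.card T := by
    by_contra hle
    have h2 : zpowers z = T := Subgroup.eq_of_le_of_card_ge hZT (by rw [hZcard]; omega)
    exact hxZ (h2 ▸ hxT)
  have hcomm' : IsMulCommutative ↥(T.subgroupOf M) :=
    ⟨⟨fun a b => Subtype.ext (Subtype.ext
      (hTcomm a.1.1 (Subgroup.mem_subgroupOf.mp a.2) b.1.1 (Subgroup.mem_subgroupOf.mp b.2)))⟩⟩
  have hexp' : ∀ a ∈ T.subgroupOf M, a ^ p = 1 := by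
    intro a ha
    exact Subtype.ext (hTexp a.1 (Subgroup.mem_subgroupOf.mp ha))
  have h3 := hrk (T.subgroupOf M) hcomm' hexp'
  have h4 : Nat.card ↥(T.subgroupOf M) = Nat.card ↥T :=
    Nat.card_congr (Subgroup.subgroupOfEquivOfLe hTM).toEquiv
  rw [h4, pow_one] at h3
  omega

/-- A `p`-subgroup `Q` of a subgroup `M` of `p`-rank at most 1 has at most one subgroup of
order `p`. -/
theorem uniq_order_p [Finite G] (p : ℕ) [Fact p.Prime] {Q M : Subgroup G} (hQ : IsPGroup p Q)
    (hQM : Q ≤ M) (hrk : PRankLE p 1 ↥M) {X Y : Subgroup G} (hX : X ≤ Q) (hY : Y ≤ Q)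
    (hXc : Nat.card X = p) (hYc : Nat.card Y = p) : X = Y := by
  classical
  have hp : p.Prime := Fact.out
  have hQnt : Nontrivial ↥Q := by
    have h1 : Nat.card X ≤ Nat.card Q := Subgroup.card_le_of_le hX
    rw [hXc] at h1
    exact Finite.one_lt_card_iff_nontrivial.mp (lt_of_lt_of_le hp.one_lt h1)
  have hZnt : Nontrivial (Subgroup.center ↥Q) := hQ.center_nontrivial
  have hdvd : p ∣ Nat.card (Subgroup.center ↥Q) := by
    have hZp : IsPGroup p (Subgroup.center ↥Q) := hQ.to_subgroup _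
    obtain ⟨k, hk⟩ := IsPGroup.iff_card.mp hZp
    have h1 : 1 < Nat.card (Subgroup.center ↥Q) := Finite.one_lt_card
    rw [hk] at h1 ⊢
    cases k with
    | zero => simp at h1
    | succ k => exact dvd_pow_self p (Nat.succ_ne_zero k)
  obtain ⟨z, hz⟩ := exists_prime_orderOf_dvd_card' p hdvd
  have hz0Q : ((z : ↥Q) : G) ∈ Q := (z : ↥Q).2
  have hz0ord : orderOf ((z : ↥Q) : G) = p := by
    rw [Subgroup.orderOf_coe, Subgroup.orderOf_coe, hz]
  have hz0c : ∀ q ∈ Q, q * ((z : ↥Q) : G) = ((z : ↥Q) : G) * q := by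
    intro q hq
    exact congrArg Subtype.val (Subgroup.mem_center_iff.mp z.2 ⟨q, hq⟩)
  have key : ∀ X : Subgroup G, X ≤ Q → Nat.card X = p → X = zpowers ((z : ↥Q) : G) := by
    intro X hX hXc
    have hle : X ≤ zpowers ((z : ↥Q) : G) := by
      intro x hx
      have hxp : x ^ p = 1 := by
        have h1 : (⟨x, hx⟩ : ↥X) ^ Nat.card ↥X = 1 := pow_card_eq_one'
        rw [hXc] at h1
        exact congrArg Subtype.val h1
      exact mem_zpowers_of_rank_one p hrk (hQM (hX hx)) (hQM hz0Q) (hz0c x (hX hx)) hxp hz0ord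
    exact Subgroup.eq_of_le_of_card_ge hle (by rw [Nat.card_zpowers, hz0ord, hXc])
  rw [key X hX hXc, key Y hY hYc]

/-- Two subgroups of order `p` of `E ≤ M`, `M` of `p`-rank at most 1, are conjugate in `E`. -/
theorem conj_order_p [Finite G] (p : ℕ) [Fact p.Prime] {E M : Subgroup G} (hEM : E ≤ M)
    (hrk : PRankLE p 1 ↥M) {X Y : Subgroup G} (hX : X ≤ E) (hY : Y ≤ E)
    (hXc : Nat.card X = p) (hYc : Nat.card Y = p) :
    ∃ e ∈ E, ∀ y ∈ Y, e * y * e⁻¹ ∈ X := by
  classical
  have hXp : IsPGroup p ↥(X.subgroupOf E) := by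
    apply IsPGroup.of_card (n := 1)
    rw [pow_one, ← hXc]
    exact Nat.card_congr (Subgroup.subgroupOfEquivOfLe hX).toEquiv
  have hYp : IsPGroup p ↥(Y.subgroupOf E) := by
    apply IsPGroup.of_card (n := 1)
    rw [pow_one, ← hYc]
    exact Nat.card_congr (Subgroup.subgroupOfEquivOfLe hY).toEquiv
  obtain ⟨SX, hSX⟩ := hXp.exists_le_sylow
  obtain ⟨SY, hSY⟩ := hYp.exists_le_sylow
  obtain ⟨e, he⟩ := MulAction.exists_smul_eq ↥E SY SX
  let Q : Subgroup G := (SX : Subgroup ↥E).map E.subtype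
  have hQp : IsPGroup p Q := SX.2.map E.subtype
  have hQE : Q ≤ E := by
    rintro _ ⟨x, -, rfl⟩
    exact x.2
  have hXQ : X ≤ Q := by
    intro x hx
    exact ⟨⟨x, hX hx⟩, hSX (Subgroup.mem_subgroupOf.mpr hx), rfl⟩
  let Ye : Subgroup G := Y.map (MulAut.conj (e : G)).toMonoidHom
  have hYeQ : Ye ≤ Q := by
    rintro _ ⟨y, hy, rfl⟩
    have h1 : (⟨y, hY hy⟩ : ↥E) ∈ (SY : Subgroup ↥E) := hSY (Subgroup.mem_subgroupOf.mpr hy)
    have h2 : e * ⟨y, hY hy⟩ * e⁻¹ ∈ (SX : Subgroup ↥E) := by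
      rw [← he, Sylow.coe_subgroup_smul]
      exact Subgroup.smul_mem_pointwise_smul _ _ _ h1
    exact ⟨e * ⟨y, hY hy⟩ * e⁻¹, h2, rfl⟩
  have hYec : Nat.card Ye = p := by
    rw [← hYc]
    exact Subgroup.card_map_of_injective (MulAut.conj (e : G)).injective
  have h3 : Ye = X := uniq_order_p p hQp (hQE.trans hEM) hrk hYeQ hXQ hYec hXc
  refine ⟨(e : G), e.2, fun y hy => ?_⟩
  rw [← h3]
  exact ⟨y, hy, rfl⟩

/-- If one Sylow `r`-subgroup is commutative, all are. -/
theorem sylow_comm_all [Finite G] (r : ℕ) [Fact r.Prime]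
    (h : ∃ S : Sylow r G, IsMulCommutative (S : Subgroup G)) (S : Sylow r G) :
    ∀ a ∈ (S : Subgroup G), ∀ b ∈ (S : Subgroup G), a * b = b * a := by
  obtain ⟨S0, hS0⟩ := h
  obtain ⟨g, rfl⟩ := MulAction.exists_smul_eq G S0 S
  intro a ha b hb
  rw [Sylow.coe_subgroup_smul] at ha hb
  obtain ⟨x, hx, rfl⟩ := (Subgroup.mem_smul_pointwise_iff_exists _ _ _).mp ha
  obtain ⟨y, hy, rfl⟩ := (Subgroup.mem_smul_pointwise_iff_exists _ _ _).mp hb
  have hxy : x * y = y * x := congrArg Subtype.val (hS0.is_comm.comm ⟨x, hx⟩ ⟨y, hy⟩)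
  rw [MulAut.smul_def, MulAut.smul_def, ← map_mul, ← map_mul, hxy]

/-- (C3SYL) from the conclusions of S1417 and S1418. -/
theorem c3Syl_aux [Finite G] (M E A P R : Subgroup G) (r p : ℕ) [Fact r.Prime]
    (c : Cfg M E A P R r p) (hPA : ¬ P ≤ centralizer (A : Set G))
    (hS : ∃ S : Sylow r G, IsMulCommutative (S : Subgroup G))
    (h18a : E ≤ normalizer (A : Set G))
    (h18b : centralizer (A : Set G) ≤ M ⊓ normalizer (A : Set G))
    (h18c : M ⊓ normalizer (A : Set G) = E)
    (h17 : ∀ P0 : Sylow r M, A ≤ (P0 : Subgroup M).map M.subtype →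
        ∀ x ∈ (P0 : Subgroup M).map M.subtype, x ^ r = 1 ↔ x ∈ A) :
    ∃ S : Sylow r G, IsMulCommutative (S : Subgroup G) ∧ A ≤ (S : Subgroup G) ∧
      (S : Subgroup G) ≤ centralizer (A : Set G) ∧ P ≤ normalizer ((S : Subgroup G) : Set G) ∧
      ∀ x ∈ (S : Subgroup G) ⊓ centralizer (P : Set G), x ^ r = 1 → x ∈ R := by
  classical
  have hr : r.Prime := Fact.out
  have hpp : p.Prime := c.tau1.1
  have _instp : Fact p.Prime := ⟨hpp⟩
  have hrk : PRankLE p 1 ↥M := c.tau1.2.2.2.2
  have hEM : E ≤ M := c.compl.1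
  set C : Subgroup G := centralizer (A : Set G) with hC
  have hCE : C ≤ E := by
    rw [← h18c]
    exact h18b
  have hEC : E ≤ normalizer (C : Set G) := h18a.trans (normalizer_le_normalizer_cent A)
  have hPC : P ≤ normalizer (C : Set G) := c.PE.trans hEC
  have hAcomm : ∀ a ∈ A, ∀ b ∈ A, a * b = b * a := fun a ha b hb =>
    congrArg Subtype.val (c.Ael.1.is_comm.comm ⟨a, ha⟩ ⟨b, hb⟩)
  have hAC : A ≤ C := by
    intro a ha
    rw [hC, Subgroup.mem_centralizer_iff]
    intro b hb
    exact hAcomm b hb a ha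
  -- `p ∤ |C|`
  have hpC : ¬ p ∣ Nat.card C := by
    intro hdvd
    obtain ⟨x, hx⟩ := exists_prime_orderOf_dvd_card' p hdvd
    have hxo : orderOf (x : G) = p := by rw [Subgroup.orderOf_coe, hx]
    have hXC : zpowers (x : G) ≤ C := by
      rw [zpowers_le]
      exact x.2
    have hXc : Nat.card (zpowers (x : G)) = p := by rw [Nat.card_zpowers, hxo]
    obtain ⟨e, he, hconj⟩ := conj_order_p p hEM hrk (hXC.trans hCE) c.PE hXc c.Pcard
    apply hPA
    intro y hy
    have h1 : e * y * e⁻¹ ∈ C := hXC (hconj y hy)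
    have h2 : e⁻¹ ∈ normalizer (C : Set G) := hEC (Subgroup.inv_mem _ he)
    have h3 : e⁻¹ * (e * y * e⁻¹) * e⁻¹⁻¹ ∈ C := (Subgroup.mem_normalizer_iff.mp h2 _).mp h1
    have h4 : e⁻¹ * (e * y * e⁻¹) * e⁻¹⁻¹ = y := by group
    rwa [h4] at h3
  -- a Sylow `r`-subgroup of `G` inside `C`
  have hAr : IsPGroup r A := IsPGroup.of_card c.Acard
  obtain ⟨S1, hS1⟩ := hAr.exists_le_sylow
  have hS1comm := sylow_comm_all r hS S1
  have hS1C : (S1 : Subgroup G) ≤ C := by
    intro s hs
    rw [hC, Subgroup.mem_centralizer_iff]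
    intro a ha
    exact hS1comm a (hS1 ha) s hs
  -- coprime action of `P` on `C`
  have hcop : (Nat.card P).Coprime (Nat.card C) := by
    rw [c.Pcard]
    exact (Nat.Prime.coprime_iff_not_dvd hpp).mpr hpC
  have hPsolv : Group.IsSolvable ↥P := by
    have hPp : IsPGroup p ↥P := IsPGroup.of_card (n := 1) (by rw [pow_one]; exact c.Pcard)
    have _inst : Group.IsNilpotent ↥P := hPp.isNilpotent
    exact inferInstance
  obtain ⟨S', hAS', hPS'⟩ := Cfsg.Agent.Lib.Helper30.coprime_invariant_le_sylow P C hPC hcop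
    (Or.inl hPsolv) r A hAC hAr (c.PE.trans h18a)
  set S : Subgroup G := (S' : Subgroup ↥C).map C.subtype with hSdef
  have hSC : S ≤ C := by
    rintro _ ⟨x, -, rfl⟩
    exact x.2
  have hcardS : Nat.card S = r ^ (Nat.card G).factorization r := by
    have h1 : Nat.card S = Nat.card (S' : Subgroup ↥C) :=
      Subgroup.card_map_of_injective C.subtype_injective
    rw [h1, Sylow.card_eq_multiplicity]
    congr 1
    apply le_antisymm
    · exact (Nat.factorization_le_iff_dvd Nat.card_pos.ne' Nat.card_pos.ne').mpr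
        (Subgroup.card_subgroup_dvd_card C) r
    · have h2 : r ^ (Nat.card G).factorization r ∣ Nat.card C := by
        rw [← S1.card_eq_multiplicity]
        exact Subgroup.card_dvd_of_le hS1C
      exact (hr.pow_dvd_iff_le_factorization Nat.card_pos.ne').mp h2
  let SG : Sylow r G := Sylow.ofCard S hcardS
  have hSGcomm := sylow_comm_all r hS SG
  refine ⟨SG, ⟨⟨fun a b => Subtype.ext (hSGcomm a a.2 b b.2)⟩⟩, hAS', hSC, hPS', ?_⟩
  intro x hx hxr
  obtain ⟨hxS, hxP⟩ := Subgroup.mem_inf.mp hx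
  have hSM : S ≤ M := hSC.trans (hCE.trans hEM)
  have hcardSM : Nat.card ↥(S.subgroupOf M) = r ^ (Nat.card ↥M).factorization r := by
    have h1 : Nat.card ↥(S.subgroupOf M) = Nat.card S :=
      Nat.card_congr (Subgroup.subgroupOfEquivOfLe hSM).toEquiv
    rw [h1, hcardS]
    congr 1
    apply le_antisymm
    · have h2 : r ^ (Nat.card G).factorization r ∣ Nat.card M := by
        rw [← hcardS]
        exact Subgroup.card_dvd_of_le hSM
      exact (hr.pow_dvd_iff_le_factorization Nat.card_pos.ne').mp h2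
    · exact (Nat.factorization_le_iff_dvd Nat.card_pos.ne' Nat.card_pos.ne').mpr
        (Subgroup.card_subgroup_dvd_card M) r
  let P0 : Sylow r ↥M := Sylow.ofCard (S.subgroupOf M) hcardSM
  have hP0 : (P0 : Subgroup ↥M).map M.subtype = S := Subgroup.map_subgroupOf_eq_of_le hSM
  have h17' := h17 P0 (by rw [hP0]; exact hAS') x (by rw [hP0]; exact hxS)
  have hxA : x ∈ A := h17'.mp hxr
  have hRle : R ≤ A ⊓ centralizer (P : Set G) :=
    le_inf c.RA (Subgroup.le_centralizer_iff.mp c.PR)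
  have hne : A ⊓ centralizer (P : Set G) ≠ A := by
    intro h
    apply hPA
    have h1 : A ≤ centralizer (P : Set G) := by
      rw [← h]
      exact inf_le_right
    exact Subgroup.le_centralizer_iff.mp h1
  have hcard : Nat.card ↥(A ⊓ centralizer (P : Set G)) = r := by
    have hd : Nat.card ↥(A ⊓ centralizer (P : Set G)) ∣ r ^ 2 := by
      rw [← c.Acard]
      exact Subgroup.card_dvd_of_le inf_le_left
    obtain ⟨k, hk, hk2⟩ := (Nat.dvd_prime_pow hr).mp hd
    have hRc : r ≤ Nat.card ↥(A ⊓ centralizer (P : Set G)) := by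
      rw [← c.Rcard]
      exact Subgroup.card_le_of_le hRle
    interval_cases k
    · rw [hk2, pow_zero] at hRc
      exact absurd hr.one_lt (by omega)
    · rw [hk2, pow_one]
    · exfalso
      apply hne
      exact Subgroup.eq_of_le_of_card_ge inf_le_left (by rw [c.Acard, hk2])
  have hReq : R = A ⊓ centralizer (P : Set G) :=
    Subgroup.eq_of_le_of_card_ge hRle (by rw [hcard, c.Rcard])
  rw [hReq]
  exact Subgroup.mem_inf.mpr ⟨hxA, hxP⟩

/-- **NCZ-C3SYL**. -/
theorem c3Syl [Finite G] : StC3Syl G := by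
  intro hG M E A P R r p _ c hPA hS
  have h18 := Cfsg.Agent.S1418.result hG M c.coatom E c.compl r c.tau2 A ⟨c.AE, c.Ael, c.Acard⟩
  have h17 := Cfsg.Agent.S1417.result hG M c.coatom r c.tau2 A
    ⟨c.AE.trans c.compl.1, c.Ael, c.Acard⟩
  exact c3Syl_aux M E A P R r p c hPA hS h18.1.1 h18.2.1.1 h18.2.1.2.1
    (fun P0 hP0 => ((h17.2.1 P0).2 hP0).1)

example [Finite G] : StC3Syl G := c3Syl

end Cfsg.Agent.H15.NCZ

#print axioms Cfsg.Agent.H15.NCZ.c3Syl
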