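import Mathlib
import Cfsg.Agent.H76.NCZDefs
import Cfsg.Agent.S1350

/-!
# S1353/S1354 piece NCZ-EXA (helper15)

A complement `E` of `M_σ` in `M` contains an elementary abelian subgroup of order `r²` for
`r ∈ τ₂(M)`: an elementary abelian subgroup of order `r²` of `M` is an `r`-subgroup, `r ∤ |M_σ|`, so
a Sylow `r`-subgroup of `E` is a Sylow `r`-subgroup of `M` and Sylow's theorem conjugates the
subgroup into `E`.
-/

set_option autoImplicit false

namespace Cfsg.Agent.H15.NCZ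

open Cfsg Subgroup Cfsg.Agent.H76.NCKill

universe u

variable {G : Type u} [Group G]

/-- The order of `M` is the product of the orders of two complements of each other in `M`. -/
theorem card_of_compl {A B M : Subgroup G} (h : IsComplIn A B M) :
    Nat.card M = Nat.card A * Nat.card B := by
  obtain ⟨hA, hB, hdisj, hsurj⟩ := h
  rw [← Nat.card_prod]
  symm
  apply Nat.card_congr
  refine Equiv.ofBijective
    (fun ab : A × B => (⟨(ab.1 : G) * ab.2, mul_mem (hA ab.1.2) (hB ab.2.2)⟩ : M)) ⟨?_, ?_⟩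
  · rintro ⟨a, b⟩ ⟨a', b'⟩ hab
    have hab' : (a : G) * b = a' * b' := congrArg Subtype.val hab
    have h1 : (a' : G)⁻¹ * a = b' * (b : G)⁻¹ := by
      rw [inv_mul_eq_iff_eq_mul, ← mul_assoc, ← hab']; group
    have h2 : (a' : G)⁻¹ * a ∈ A ⊓ B :=
      Subgroup.mem_inf.mpr
        ⟨mul_mem (inv_mem a'.2) a.2, by rw [h1]; exact mul_mem b'.2 (inv_mem b.2)⟩
    rw [hdisj, Subgroup.mem_bot] at h2
    have h3 : (a : G) = a' := (inv_mul_eq_one.mp h2).symm
    have h4 : (b : G) = b' := by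
      rw [h3] at hab'
      exact mul_left_cancel hab'
    exact Prod.ext (Subtype.ext h3) (Subtype.ext h4)
  · rintro ⟨m, hm⟩
    obtain ⟨a, ha, b, hb, rfl⟩ := hsurj m hm
    exact ⟨(⟨a, ha⟩, ⟨b, hb⟩), rfl⟩

/-- An `r`-subgroup of `M` is `M`-conjugate into a complement `E` of a subgroup `N` of order prime
to `r`. -/
theorem conj_into_compl [Finite G] {E N M : Subgroup G} (h : IsComplIn E N M) (r : ℕ)
    [Fact r.Prime] (hN : ¬ r ∣ Nat.card N) (X : Subgroup ↥M) (hXr : IsPGroup r X) :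
    ∃ m : ↥M, ∀ x ∈ X, ((m * x * m⁻¹ : ↥M) : G) ∈ E := by
  classical
  have hEM : E ≤ M := h.1
  let EM : Subgroup ↥M := E.subgroupOf M
  obtain ⟨Q0⟩ : Nonempty (Sylow r ↥EM) := inferInstance
  let Q : Subgroup ↥M := (Q0 : Subgroup ↥EM).map EM.subtype
  have hQE : Q ≤ EM := by
    rintro _ ⟨x, -, rfl⟩
    exact x.2
  have hcardQ : Nat.card Q = r ^ (Nat.card ↥M).factorization r := by
    have h1 : Nat.card Q = Nat.card (Q0 : Subgroup ↥EM) :=
      (Nat.card_congr ((Q0 : Subgroup ↥EM).equivMapOfInjective EM.subtype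
        EM.subtype_injective).toEquiv).symm
    rw [h1, Sylow.card_eq_multiplicity]
    congr 1
    have h2 : Nat.card ↥EM = Nat.card ↥E :=
      Nat.card_congr (Subgroup.subgroupOfEquivOfLe hEM).toEquiv
    rw [h2, card_of_compl h, Nat.factorization_mul Nat.card_pos.ne' Nat.card_pos.ne',
      Finsupp.add_apply, Nat.factorization_eq_zero_of_not_dvd hN, add_zero]
  let QS : Sylow r ↥M := Sylow.ofCard Q hcardQ
  obtain ⟨S, hS⟩ := hXr.exists_le_sylow
  obtain ⟨m, hm⟩ := MulAction.exists_smul_eq ↥M S QS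
  refine ⟨m, fun x hx => ?_⟩
  have h1 : x ∈ (S : Subgroup ↥M) := hS hx
  have h2 : m * x * m⁻¹ ∈ (QS : Subgroup ↥M) := by
    rw [← hm, Sylow.coe_subgroup_smul]
    exact Subgroup.smul_mem_pointwise_smul _ _ _ h1
  have h3 : m * x * m⁻¹ ∈ EM := hQE h2
  exact Subgroup.mem_subgroupOf.mp h3

/-- (EXA) from the Hall property of `M_σ`. -/
theorem exA_aux [Finite G] (M E : Subgroup G) (r : ℕ) (hE : IsComplIn E (sigmaCore M) M)
    (hr : r ∈ tau2 M) (hσ : ∀ p : ℕ, p.Prime → p ∣ Nat.card (sigmaCore M) → p ∈ sigma M) :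
    ∃ A : Subgroup G, A ≤ E ∧ IsElementaryAbelian r A ∧ Nat.card A = r ^ 2 := by
  classical
  obtain ⟨hrp, hrσ, -, hr1⟩ := hr
  have _instr : Fact r.Prime := ⟨hrp⟩
  unfold PRankLE at hr1
  push Not at hr1
  obtain ⟨B, hBc, hBe, hBcard⟩ := hr1
  have hBp : IsPGroup r B := by
    intro x
    refine ⟨1, ?_⟩
    rw [pow_one]
    exact Subtype.ext (hBe x.1 x.2)
  obtain ⟨k, hk⟩ := IsPGroup.iff_card.mp hBp
  have hk2 : 2 ≤ k := by
    by_contra hlt
    have hk1 : k ≤ 1 := by omega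
    have := Nat.pow_le_pow_right hrp.pos hk1
    rw [hk] at hBcard
    omega
  obtain ⟨H, hH⟩ := Sylow.exists_subgroup_card_pow_prime (G := ↥B) r (n := 2)
    (by rw [hk]; exact pow_dvd_pow r hk2)
  let X : Subgroup ↥M := H.map B.subtype
  have hXB : X ≤ B := by
    rintro _ ⟨x, -, rfl⟩
    exact x.2
  have hXcard : Nat.card X = r ^ 2 := by
    rw [← hH]
    exact (Nat.card_congr (H.equivMapOfInjective B.subtype B.subtype_injective).toEquiv).symm
  have hXr : IsPGroup r X := hBp.to_le hXB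
  have hN : ¬ r ∣ Nat.card (sigmaCore M) := fun h => hrσ (hσ r hrp h)
  obtain ⟨m, hm⟩ := conj_into_compl hE r hN X hXr
  let f : ↥M →* G := M.subtype.comp (MulAut.conj m).toMonoidHom
  have hf : Function.Injective f := M.subtype_injective.comp (MulAut.conj m).injective
  have hfx : ∀ x : ↥M, f x = ((m * x * m⁻¹ : ↥M) : G) := fun x => rfl
  refine ⟨X.map f, ?_, ⟨⟨⟨?_⟩⟩, ?_⟩, ?_⟩
  · rintro _ ⟨x, hx, rfl⟩
    rw [hfx]
    exact hm x hx
  · rintro ⟨_, ⟨x, hx, rfl⟩⟩ ⟨_, ⟨y, hy, rfl⟩⟩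
    apply Subtype.ext
    show f x * f y = f y * f x
    have h1 : x * y = y * x :=
      congrArg Subtype.val (hBc.is_comm.comm ⟨x, hXB hx⟩ ⟨y, hXB hy⟩)
    rw [← map_mul, ← map_mul, h1]
  · rintro _ ⟨x, hx, rfl⟩
    rw [← map_pow, hBe x (hXB hx), map_one]
  · rw [Subgroup.card_map_of_injective hf]
    exact hXcard

/-- **NCZ-EXA**. -/
theorem exA [Finite G] : StExA G := by
  intro hG M E r hM hE hr
  exact exA_aux M E r hE hr (Cfsg.Agent.S1350.result hG M hM).1.2.1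

example [Finite G] : StExA G := exA

end Cfsg.Agent.H15.NCZ

#print axioms Cfsg.Agent.H15.NCZ.exA
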