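import Cfsg.Agent.H90.NSDefs
import Cfsg.Agent.H86.FusSat
import Cfsg.Agent.H86.FusGroup

/-!
# S5121-A7 (team piece for helper90): `S ∩ B₁ ≤ T Q`
-/

set_option autoImplicit false

namespace Cfsg.Agent.H15.NS

open Cfsg Cfsg.FusionSystem Cfsg.Agent.H86 Cfsg.Agent.H90.NS

universe u

/-- `R = T ∩ O_p(G)` is weakly closed in `E` (as `R ⊴ G` and `E ≤ F_S(G)`). -/
theorem rSub_weaklyClosed {G : Type u} [Group G] [Finite G] {p : ℕ} {S T : Subgroup G}
    {E : FusionSystem T} (hsub : E.IsSubsystemOf (groupFusionSystem S))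
    (hRn : (rSub p T).Normal) (f : G → G) (hf : Mor E (rSub p T) f) :
    imgS (rSub p T) f = rSub p T := by
  apply imgS_eq_of_maps hf
  intro x hx
  obtain ⟨φ, hφ, hφf⟩ := hf
  have hF : Mor (groupFusionSystem S) (rSub p T) f := ⟨φ, hsub _ hφ, hφf⟩
  obtain ⟨-, -, g, hg⟩ := mor_groupFusionSystem_iff.1 hF
  rw [hg x hx]
  exact hRn.conj_mem x hx g

theorem rSub_fullyNormalized {G : Type u} [Group G] [Finite G] {p : ℕ} {S T : Subgroup G}
    {E : FusionSystem T} (hsub : E.IsSubsystemOf (groupFusionSystem S))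
    (hRn : (rSub p T).Normal) : E.IsFullyNormalized (rSub p T) := by
  refine ⟨inf_le_left, fun Q hQ => ?_⟩
  obtain ⟨f, hf, rfl⟩ := isConj_iff.1 hQ
  rw [rSub_weaklyClosed hsub hRn f hf]

theorem a7 : A7Stmt.{u} := by
  intro G _ _ p _ S T E hyp hSC hRn hChain hRNC hBOK s hsS hsb
  obtain ⟨hCQ, hTS, hEn⟩ := hyp
  have hEsat : E.IsSaturated p := hEn.1.1
  have hsub : E.IsSubsystemOf (groupFusionSystem (S : Subgroup G)) := hEn.1.2.2.1
  have hTp : IsPGroup p T := S.isPGroup'.to_le hTS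
  have hfn := rSub_fullyNormalized hsub hRn
  obtain ⟨-, -, Sy, hSy⟩ := saturated_fullyNormalized hTp hEsat hfn
  obtain ⟨hsQR, hsMor⟩ := hsb
  have himg := rSub_weaklyClosed hsub hRn _ hsMor
  obtain ⟨α, hα⟩ : ∃ α : MulAut (rSub p T), α = mkAut hsMor himg := ⟨_, rfl⟩
  have hαE : α ∈ E.autGroup (rSub p T) := by
    rw [hα]
    exact mkAut_mem hsMor himg
  have hαx : ∀ x : rSub p T, ((α x : rSub p T) : G) = s * (x : G) * s⁻¹ := by
    intro x
    rw [hα]
    exact mkAut_apply hsMor himg x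
  have hαS : α ∈ autInducedBy (S : Subgroup G) (rSub p T) := by
    rw [mem_autInducedBy_iff]
    exact ⟨s, hsS, hαx⟩
  have hP' : IsPGroup p ((autInducedBy (S : Subgroup G) (rSub p T)).subgroupOf
      (E.autGroup (rSub p T))) :=
    (autInducedBy_isPGroup S.isPGroup' (rSub p T)).comap_subtype
  have hle : (Sy : Subgroup (E.autGroup (rSub p T))) ≤
      (autInducedBy (S : Subgroup G) (rSub p T)).subgroupOf (E.autGroup (rSub p T)) := by
    rw [hSy]
    intro x hx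
    exact autInducedBy_mono (rSub p T) hTS hx
  have heq := Sy.is_maximal' hP' hle
  have hαSy : (⟨α, hαE⟩ : E.autGroup (rSub p T)) ∈ (Sy : Subgroup (E.autGroup (rSub p T))) := by
    rw [← heq]
    exact hαS
  rw [hSy, Subgroup.mem_subgroupOf, mem_autInducedBy_iff] at hαSy
  obtain ⟨t, ht, hαt⟩ := hαSy
  have hst : ∀ x ∈ rSub p T, s * x * s⁻¹ = t * x * t⁻¹ := by
    intro x hx
    rw [← hαt ⟨x, hx⟩]
    exact (hαx ⟨x, hx⟩).symm
  obtain ⟨hb1, hbn, hTb⟩ := hBOK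
  have hub : t⁻¹ * s ∈ bSub p T E := by
    apply Subgroup.mul_mem _ (Subgroup.inv_mem _ (hTb ht))
    show s ∈ ((bSub p T E : Subgroup G) : Set G)
    rw [hb1]
    exact ⟨hsQR, hsMor⟩
  have hub1 : t⁻¹ * s ∈ b1 p T E := by
    rw [← hb1]
    exact hub
  have huQ : t⁻¹ * s ∈ pCore p G := by
    apply hChain _ hub1.1
    intro r hr
    have h1 := hst r hr
    calc t⁻¹ * s * r * (t⁻¹ * s)⁻¹ = t⁻¹ * (s * r * s⁻¹) * t := by group
      _ = t⁻¹ * (t * r * t⁻¹) * t := by rw [h1]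
      _ = r := by group
  exact ⟨t, ht, t⁻¹ * s, huQ, by group⟩

end Cfsg.Agent.H15.NS

universe u in
example : Cfsg.Agent.H90.NS.A7Stmt.{u} := Cfsg.Agent.H15.NS.a7
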