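import Cfsg.Agent.H90.NSDefs
import Cfsg.Agent.H90.NSLam
import Cfsg.Agent.H89.Series
import Cfsg.Agent.H86.FusGroup
import Cfsg.Agent.H15.NSA7

/-!
# S5121-A3 (team piece for helper90): `R = T ∩ O_p(G)` is normal and centric in `E`
-/

set_option autoImplicit false

namespace Cfsg.Agent.H15.NS

open Cfsg Cfsg.FusionSystem Cfsg.Agent.H86 Cfsg.Agent.H89 Cfsg.Agent.H90.NS

universe u

theorem lcs_normal {G : Type u} [Group G] (Q : Subgroup G) (hQ : Q.Normal) (n : ℕ) :
    (Q.lowerCentralSeries n).Normal := by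
  induction n with
  | zero => exact hQ
  | succ n ih =>
    rw [Subgroup.lowerCentralSeries_succ]
    infer_instance

/-- `T ∩ N` is weakly closed in `E ≤ F_S(G)` for `N ⊴ G`. -/
theorem inf_normal_weaklyClosed {G : Type u} [Group G] [Finite G] {S T : Subgroup G}
    {E : FusionSystem T} (hsub : E.IsSubsystemOf (groupFusionSystem S)) (N : Subgroup G)
    (hN : N.Normal) : E.WeaklyClosed (T ⊓ N) := by
  rw [weaklyClosed_iff]
  refine ⟨inf_le_left, fun f hf => ?_⟩
  apply imgS_eq_of_maps hf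
  intro x hx
  have hxT : f x ∈ T := hf.mem hx
  obtain ⟨φ, hφ, hφf⟩ := hf
  have hF : Mor (groupFusionSystem S) (T ⊓ N) f := ⟨φ, hsub _ hφ, hφf⟩
  obtain ⟨-, -, g, hg⟩ := mor_groupFusionSystem_iff.1 hF
  refine ⟨hxT, ?_⟩
  rw [hg x hx]
  exact hN.conj_mem x hx.2 g

theorem a3 : A3Stmt.{u} := by
  intro G _ _ p _ S T E hyp hSC hRn hChain
  obtain ⟨hCQ, hTS, hEn⟩ := hyp
  have hEsat : E.IsSaturated p := hEn.1.1
  have hsub : E.IsSubsystemOf (groupFusionSystem (S : Subgroup G)) := hEn.1.2.2.1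
  have hTp : IsPGroup p T := S.isPGroup'.to_le hTS
  have hQn : (pCore p G).Normal := pCore_normal p G
  have hQp : IsPGroup p (pCore p G) := pCore_isPGroup p G
  have hsc : E.StronglyClosed (rSub p T) := by
    rw [stronglyClosed_iff]
    refine ⟨inf_le_left, fun R' f hR' hf x hx => ?_⟩
    obtain ⟨φ, hφ, hφf⟩ := hf
    have hF : Mor (groupFusionSystem (S : Subgroup G)) R' f := ⟨φ, hsub _ hφ, hφf⟩
    obtain ⟨-, -, g, hg⟩ := mor_groupFusionSystem_iff.1 hF
    rw [hg x hx]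
    exact hRn.conj_mem x (hR' hx) g
  have hcen : E.IsCentric (rSub p T) := by
    refine ⟨inf_le_left, fun Q' hQ' => ?_⟩
    obtain ⟨f, hf, rfl⟩ := isConj_iff.1 hQ'
    rw [rSub_weaklyClosed hsub hRn f hf]
    intro t ht
    obtain ⟨htT, htc⟩ := mem_centralizerIn_iff.1 ht
    have hqr : QR p T t := qr_of_mem hTS hSC htT
    have htQ : t ∈ pCore p G := hChain t hqr (fun r hr => by
      rw [← htc r hr, mul_inv_cancel_right])
    exact ⟨htT, htQ⟩
  have hnil : Group.IsNilpotent (pCore p G) := hQp.isNilpotent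
  obtain ⟨c, hc⟩ := (Subgroup.isNilpotent_iff_lowerCentralSeries (pCore p G)).1 hnil
  obtain ⟨D, hD⟩ : ∃ D : ℕ → Subgroup G, ∀ i, D i = T ⊓ (pCore p G).lowerCentralSeries (c - i) :=
    ⟨_, fun _ => rfl⟩
  have h0 : D 0 = ⊥ := by
    rw [hD, Nat.sub_zero, hc, inf_bot_eq]
  have hn : D c = rSub p T := by
    rw [hD, Nat.sub_self, Subgroup.lowerCentralSeries_zero]
    rfl
  have hmono : ∀ i < c, D i ≤ D (i + 1) := by
    intro i _
    rw [hD, hD]
    exact inf_le_inf_left T ((pCore p G).lowerCentralSeries_antitone (by omega))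
  have hcomm : ∀ i < c, ⁅D (i + 1), rSub p T⁆ ≤ D i := by
    intro i hi
    rw [Subgroup.commutator_le]
    intro x hx y hy
    rw [hD] at hx ⊢
    refine ⟨?_, ?_⟩
    · rw [commutatorElement_def]
      exact T.mul_mem (T.mul_mem (T.mul_mem hx.1 hy.1) (T.inv_mem hx.1)) (T.inv_mem hy.1)
    · have e : c - i = (c - (i + 1)) + 1 := by omega
      rw [e, Subgroup.lowerCentralSeries_succ]
      exact Subgroup.commutator_mem_commutator hx.2 hy.2
  have hwc : ∀ i < c, E.WeaklyClosed (D i) := by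
    intro i _
    rw [hD]
    exact inf_normal_weaklyClosed hsub _ (lcs_normal _ hQn _)
  exact ⟨(isNormal_iff_stronglyClosed hTp hEsat _).2 ⟨hsc, fun P hPc hPr =>
    le_centric_radical_of_series hTp hsc D c h0 hn hmono hcomm hwc hPc hPr⟩, hcen⟩

end Cfsg.Agent.H15.NS

universe u in
example : Cfsg.Agent.H90.NS.A3Stmt.{u} := Cfsg.Agent.H15.NS.a3
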