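import Cfsg.Agent.H46.OSDefs
import Cfsg.Agent.H23.GraphD4
import Cfsg.Agent.H23.Gen.D4.Tbl0

/-!
# OS-D4C (helper15, for helper46's S2159): the triality automorphism of `D₄(F)`

A wrap of helper23's `Cfsg.Agent.H23.graph_aut` for the table `graphOK_D4a` (the 3-cycle `[2, 1, 3, 0]` of the
outer nodes of the diagram).
-/

set_option autoImplicit false
set_option maxRecDepth 100000

namespace Cfsg.Agent.H15.OS

open Cfsg Cfsg.Lie Cfsg.Agent.H46.OS
open scoped MatrixGroups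

universe u

theorem d4c_lt (i : Fin chevD4.rank) : Cfsg.Agent.H23.sigD4a.getD i.val 0 < chevD4.rank := by
  revert i; decide

theorem d4c_ltI (i : Fin chevD4.rank) : Cfsg.Agent.H23.sigID4a.getD i.val 0 < chevD4.rank := by
  revert i; decide

/-- The 3-cycle `0 ↦ 2 ↦ 3 ↦ 0` of the nodes of the diagram of `D₄`. -/
def d4cPerm : Equiv.Perm (Fin chevD4.rank) where
  toFun i := ⟨Cfsg.Agent.H23.sigD4a.getD i.val 0, d4c_lt i⟩
  invFun i := ⟨Cfsg.Agent.H23.sigID4a.getD i.val 0, d4c_ltI i⟩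
  left_inv := by intro i; revert i; decide
  right_inv := by intro i; revert i; decide

theorem d4cPerm_val (i : Fin chevD4.rank) : ((d4cPerm i : Fin chevD4.rank) : ℕ) = Cfsg.Agent.H23.sigD4a.getD i.val 0 :=
  rfl

theorem d4cPerm_ne_one : d4cPerm ≠ 1 := by
  intro h
  have h0 : ∀ i : Fin chevD4.rank, ((d4cPerm i : Fin chevD4.rank) : ℕ) = i.val := by
    intro i; rw [h]; rfl
  revert h0
  simp only [d4cPerm_val]
  decide

theorem d4cPerm_cube : d4cPerm * d4cPerm * d4cPerm = 1 := by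
  apply Equiv.ext
  intro i
  apply Fin.ext
  show ((d4cPerm (d4cPerm (d4cPerm i)) : Fin chevD4.rank) : ℕ) = i.val
  simp only [d4cPerm_val]
  revert i
  decide

theorem d4cPerm_sym : chevD4.IsDiagramSymmetry d4cPerm := by
  unfold ChevalleyDatum.IsDiagramSymmetry
  simp only [d4cPerm_val]
  decide +kernel

/-- **OS-D4C**. -/
theorem d4C : StD4C.{u} := by
  intro F _
  have h4 : Cfsg.Agent.H23.TblOK Lie.chevD4 Cfsg.Agent.H23.tblD4 :=
    Cfsg.Agent.H23.all_of_allFrom _ 24 Cfsg.Agent.H23.tbl_D4_file0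
  obtain ⟨α, hα⟩ := Cfsg.Agent.H23.graph_aut h4 Cfsg.Agent.H23.graphOK_D4a F
  refine ⟨d4cPerm, α, ⟨d4cPerm_ne_one, d4cPerm_cube⟩, d4cPerm_sym, fun g i t => ?_⟩
  exact hα g i.val t i.isLt

example : StD4C.{u} := d4C

end Cfsg.Agent.H15.OS

#print axioms Cfsg.Agent.H15.OS.d4C
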