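import Cfsg.Agent.H99.OrtDefs

set_option autoImplicit false

/-!
# S5981 (helper99), piece RSA

The extension field of even degree `c` of a finite field `F`, with the symmetric non-degenerate
`F`-bilinear form `Tr (u * v ^ (q ^ (c / 2)))`.
-/

namespace Cfsg.Agent.H15.Ort

open Cfsg.Agent.H99.Ort

universe u

theorem rsa : StRSA.{u} := by
  intro F _ _ q c hq hce hc2
  classical
  obtain ⟨p, hp⟩ := CharP.exists F
  have : CharP F p := hp
  have : Fact p.Prime := ⟨CharP.char_is_prime F p⟩
  have : NeZero c := ⟨by omega⟩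
  obtain ⟨h, hh⟩ : ∃ h, c = 2 * h := ⟨c / 2, by obtain ⟨m, hm⟩ := hce; omega⟩
  have hc2' : c / 2 = h := by omega
  rw [hc2']
  let K := FiniteField.Extension F p c
  let _ : Fintype K := Fintype.ofFinite K
  have hcardK : Fintype.card K = (q ^ h) ^ 2 := by
    rw [Fintype.card_eq_nat_card, FiniteField.natCard_extension, ← Fintype.card_eq_nat_card, hq,
      hh, ← pow_mul, mul_comm]
  let b : Module.Basis (Fin c) F K :=
    Module.finBasisOfFinrankEq F K (FiniteField.finrank_extension F p c)
  let σ : K ≃ₐ[F] K := (FiniteField.Extension.frob F p c) ^ h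
  have hσ : ∀ x : K, σ x = x ^ (q ^ h) := by
    intro x
    show ((FiniteField.Extension.frob F p c) ^ h) x = _
    rw [FiniteField.Extension.frob_iterate_apply, ← Fintype.card_eq_nat_card, hq]
  have hσσ : ∀ x : K, σ (σ x) = x := by
    intro x
    rw [hσ, hσ, ← pow_mul, ← pow_two, ← hcardK, FiniteField.pow_card]
  have htr : ∀ x : K, Algebra.trace F K (σ x) = Algebra.trace F K x :=
    fun x => Algebra.trace_eq_of_algEquiv σ x
  let A₁ : Matrix (Fin c) (Fin c) F := fun α β => Algebra.trace F K (b α * σ (b β))
  have hform : ∀ u v : K, ∑ α, ∑ β, b.repr u α * A₁ α β * b.repr v β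
      = Algebra.trace F K (u * v ^ (q ^ h)) := by
    intro u v
    rw [← hσ]
    conv_rhs => rw [← b.sum_repr u, ← b.sum_repr v]
    rw [map_sum, Finset.sum_mul, map_sum]
    refine Finset.sum_congr rfl fun α _ => ?_
    rw [Finset.mul_sum, map_sum]
    refine Finset.sum_congr rfl fun β _ => ?_
    rw [map_smul, smul_mul_smul_comm, map_smul, smul_eq_mul]
    show b.repr u α * Algebra.trace F K (b α * σ (b β)) * b.repr v β = _
    ring
  have hsymm : A₁.transpose = A₁ := by
    ext α β
    show Algebra.trace F K (b β * σ (b α)) = Algebra.trace F K (b α * σ (b β))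
    rw [← htr (b β * σ (b α)), map_mul, hσσ, mul_comm]
  have hnd : (Algebra.traceForm F K).Nondegenerate := traceForm_nondegenerate F K
  have hdet : IsUnit A₁.det := by
    rw [isUnit_iff_ne_zero]
    intro h0
    obtain ⟨w, hw, hw0⟩ := Matrix.exists_mulVec_eq_zero_iff.mpr h0
    apply hw
    let v : K := ∑ β, w β • b β
    have hv : ∀ β, b.repr v β = w β := by
      intro β
      exact congrFun (b.repr_sum_self w) β
    have hz : ∀ u : K, Algebra.trace F K (u * σ v) = 0 := by
      intro u
      rw [hσ, ← hform]
      refine Finset.sum_eq_zero fun α _ => ?_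
      have h1 := congrFun hw0 α
      have h2 : ∑ β, b.repr u α * A₁ α β * b.repr v β
          = b.repr u α * (A₁.mulVec w) α := by
        rw [Matrix.mulVec, dotProduct, Finset.mul_sum]
        refine Finset.sum_congr rfl fun β _ => ?_
        rw [hv, mul_assoc]
      rw [h2, h1, Pi.zero_apply, mul_zero]
    have hσv : σ v = 0 := by
      have := hnd.2 (σ v) (fun u => by rw [Algebra.traceForm_apply]; exact hz u)
      exact this
    have hv0 : v = 0 := by
      have := congrArg σ hσv
      rw [hσσ, map_zero] at this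
      exact this
    funext β
    rw [← hv β, hv0, map_zero]
    rfl
  exact ⟨K, inferInstance, inferInstance, inferInstance, b, A₁, hcardK, hsymm, hdet, hform⟩

example : Cfsg.Agent.H99.Ort.StRSA.{u} := rsa

end Cfsg.Agent.H15.Ort
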