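import Cfsg.Agent.H99.OrtDefs

set_option autoImplicit false

/-!
# S5981 (helper99), piece RSB

Restriction of scalars of the unitary group `GU_k(K)` to the ground field `F`: it preserves the
symmetric form `1 ⊗ A₁`, where `A₁` is the Gram matrix of `Tr (u * v ^ Q₁)`.
-/

namespace Cfsg.Agent.H15.Ort

open Cfsg.Agent.H99.Ort
open scoped MatrixGroups

universe u

theorem bil_ext {ι : Type*} {F : Type*} [Fintype ι] [DecidableEq ι] [CommRing F]
    (M N : Matrix ι ι F)
    (h : ∀ w w' : ι → F, dotProduct w (M.mulVec w') = dotProduct w (N.mulVec w')) : M = N := by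
  ext i j
  have := h (Pi.single i 1) (Pi.single j 1)
  simpa using this

/-- Restriction of scalars of endomorphisms, as a ring homomorphism. -/
noncomputable def rsHom (F K V : Type*) [Field F] [Field K] [Algebra F K] [AddCommGroup V]
    [Module K V] [Module F V] [IsScalarTower F K V] : (V →ₗ[K] V) →+* (V →ₗ[F] V) where
  toFun f := f.restrictScalars F
  map_one' := rfl
  map_mul' _ _ := rfl
  map_zero' := rfl
  map_add' _ _ := rfl

theorem rsb : StRSB.{u} := by
  intro F _ _ K _ _ _ c Q₁ hK b A₁ hA₁ r hr _hr2 hrQ k _hk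
  classical
  let V := Fin k → K
  let B : Module.Basis (Fin k × Fin c) F V :=
    (Pi.basis (fun _ : Fin k => b)).reindex (Equiv.sigmaEquivProd (Fin k) (Fin c))
  have hB : ∀ (u : V) (i : Fin k) (α : Fin c), B.repr u (i, α) = b.repr (u i) α := by
    intro u i α
    show ((Pi.basis (fun _ : Fin k => b)).reindex
      (Equiv.sigmaEquivProd (Fin k) (Fin c))).repr u (i, α) = _
    rw [Module.Basis.repr_reindex_apply, Pi.basis_repr]
    rfl
  let Φ : Matrix (Fin k) (Fin k) K →+* Matrix (Fin k × Fin c) (Fin k × Fin c) F :=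
    (((LinearMap.toMatrixAlgEquiv B : (V →ₗ[F] V) ≃ₐ[F] _) : (V →ₗ[F] V) →+* _).comp
      (rsHom F K V)).comp
      ((Matrix.toLinAlgEquiv' : Matrix (Fin k) (Fin k) K ≃ₐ[K] _) :
        Matrix (Fin k) (Fin k) K →+* (V →ₗ[K] V))
  have hΦ : ∀ (M : Matrix (Fin k) (Fin k) K) (u : V),
      (Φ M).mulVec (B.repr u) = B.repr (M.mulVec u) := by
    intro M u
    show (LinearMap.toMatrix B B ((Matrix.toLin' M).restrictScalars F)).mulVec (B.repr u) = _
    rw [LinearMap.toMatrix_mulVec_repr]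
    rfl
  have hΦinj : Function.Injective Φ := by
    intro M N h
    apply Matrix.toLin'.injective
    apply LinearMap.ext
    intro u
    rw [Matrix.toLin'_apply, Matrix.toLin'_apply]
    have h1 := hΦ M u
    rw [h, hΦ N u] at h1
    exact (B.repr.injective (DFunLike.coe_injective h1)).symm
  obtain ⟨G, hGdef⟩ : ∃ G, G = Matrix.kroneckerMap (· * ·) (1 : Matrix (Fin k) (Fin k) F) A₁ :=
    ⟨_, rfl⟩
  rw [← hGdef]
  have hG : ∀ u v : V, dotProduct (B.repr u) (G.mulVec (B.repr v))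
      = Algebra.trace F K (Cfsg.hermForm k K Q₁ u v) := by
    intro u v
    unfold Cfsg.hermForm
    rw [map_sum]
    simp only [dotProduct, Matrix.mulVec, Fintype.sum_prod_type, hB, hGdef,
      Matrix.kroneckerMap_apply, Matrix.one_apply]
    refine Finset.sum_congr rfl fun i _ => ?_
    rw [← hA₁]
    refine Finset.sum_congr rfl fun α _ => ?_
    rw [Finset.sum_eq_single i, Finset.mul_sum]
    · refine Finset.sum_congr rfl fun β _ => ?_
      rw [if_pos rfl]
      ring
    · intro j _ hj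
      refine Finset.sum_eq_zero fun β _ => ?_
      rw [if_neg (fun h => hj h.symm)]
      ring
    · intro h
      exact absurd (Finset.mem_univ i) h
  have hpres : ∀ M : Matrix (Fin k) (Fin k) K,
      (∀ u v, Cfsg.hermForm k K Q₁ (M.mulVec u) (M.mulVec v) = Cfsg.hermForm k K Q₁ u v) →
      (Φ M).transpose * G * Φ M = G := by
    intro M hM
    apply bil_ext
    intro w w'
    obtain ⟨u, rfl⟩ := B.equivFun.surjective w
    obtain ⟨v, rfl⟩ := B.equivFun.surjective w'
    rw [Module.Basis.equivFun_apply, Module.Basis.equivFun_apply, Matrix.mul_assoc,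
      ← Matrix.mulVec_mulVec, Matrix.dotProduct_mulVec, Matrix.vecMul_transpose,
      ← Matrix.mulVec_mulVec, hΦ, hΦ, hG, hG, hM]
  -- an element of order `r` in `Kˣ`
  have hcardU : Nat.card Kˣ = Q₁ ^ 2 - 1 := by
    rw [Nat.card_eq_fintype_card, Fintype.card_units, hK]
  have hdvd : r ∣ Nat.card Kˣ := by
    rw [hcardU]
    have h1 : Q₁ ^ 2 - 1 = (Q₁ + 1) * (Q₁ - 1) := by
      have := Nat.sq_sub_sq Q₁ 1
      simpa using this
    rw [h1]
    exact Dvd.dvd.mul_right hrQ _
  have : Fact r.Prime := ⟨hr⟩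
  obtain ⟨lam, hlam⟩ := exists_prime_orderOf_dvd_card' r hdvd
  have hl_r : (lam : K) ^ r = 1 := by
    rw [← Units.val_pow_eq_pow_val, ← hlam, pow_orderOf_eq_one, Units.val_one]
  have hl_Q : (lam : K) ^ (Q₁ + 1) = 1 := by
    obtain ⟨t, ht⟩ := hrQ
    rw [ht, pow_mul, hl_r, one_pow]
  have hl_1 : (lam : K) - 1 ≠ 0 := by
    intro h
    have h1 : lam = 1 := Units.ext (by rw [Units.val_one]; exact sub_eq_zero.mp h)
    rw [h1, orderOf_one] at hlam
    exact hr.one_lt.ne hlam
  obtain ⟨M₀, hM₀def⟩ : ∃ M₀, M₀ = (lam : K) • (1 : Matrix (Fin k) (Fin k) K) := ⟨_, rfl⟩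
  have hM₀ : ∀ u v, Cfsg.hermForm k K Q₁ (M₀.mulVec u) (M₀.mulVec v)
      = Cfsg.hermForm k K Q₁ u v := by
    intro u v
    rw [hM₀def, Matrix.smul_mulVec, Matrix.smul_mulVec, Matrix.one_mulVec, Matrix.one_mulVec]
    unfold Cfsg.hermForm
    have h1 : ∀ i, ((lam : K) • u) i * ((lam : K) • v) i ^ Q₁
        = (lam : K) ^ (Q₁ + 1) * (u i * v i ^ Q₁) := by
      intro i
      rw [Pi.smul_apply, Pi.smul_apply, smul_eq_mul, smul_eq_mul]
      ring
    simp_rw [h1]
    rw [← Finset.mul_sum, hl_Q, one_mul]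
  refine ⟨(Cfsg.GU k K Q₁).map (Units.map (Φ : _ →* _)), Φ M₀, ?_, ?_, hpres M₀ hM₀, ?_, ?_⟩
  · intro g hg
    obtain ⟨g₀, hg₀, rfl⟩ := Subgroup.mem_map.mp hg
    rw [Units.coe_map]
    exact hpres _ (fun u v => hg₀ u v)
  · exact Subgroup.card_map_of_injective (Units.map_injective hΦinj)
  · rw [← map_pow, hM₀def, smul_pow, one_pow, hl_r, one_smul, map_one]
  · rw [← Matrix.isUnit_iff_isUnit_det]
    have h1 : Φ M₀ - 1 = Φ (((lam : K) - 1) • (1 : Matrix (Fin k) (Fin k) K)) := by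
      rw [sub_smul, one_smul, map_sub, map_one, hM₀def]
    rw [h1]
    apply IsUnit.map
    rw [Matrix.isUnit_iff_isUnit_det, Matrix.det_smul, Matrix.det_one, mul_one]
    exact (isUnit_iff_ne_zero.mpr hl_1).pow _

example : Cfsg.Agent.H99.Ort.StRSB.{u} := rsb

end Cfsg.Agent.H15.Ort
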