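import Mathlib
import Cfsg.Agent.H26.P2Defs
import Cfsg.Agent.H82.Rep

/-!
# S4705 piece P2-DET (helper15): the determinant kills `Z(G) ∩ G'`

For a faithful irreducible character `ζ` of degree `n`, a central element `z` of the commutator
subgroup satisfies `z ^ n = 1`: `z` acts by a scalar `c`, `det = c ^ n` is trivial on `G'`.
-/

set_option autoImplicit false

namespace Cfsg.Agent.H15.P2

open Cfsg

universe u

theorem det : Cfsg.Agent.H26.P2.StDet.{u} := by
  intro G _ _ ζ hζ hfaith z hz hzc
  obtain ⟨n, ρ, hirr, rfl⟩ := hζ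
  have _hirr := hirr
  obtain ⟨c, hc⟩ := Cfsg.Agent.H82.schur_scalar ρ (ρ z) (fun g => by
    rw [← Module.End.mul_eq_comp, ← Module.End.mul_eq_comp, ← map_mul, ← map_mul,
      Subgroup.mem_center_iff.mp hz g])
  have hdeg : charDegree ρ.character = n := by
    unfold charDegree
    rw [Representation.char_one]
    simp
  let f : G →* ℂˣ := MonoidHom.toHomUnits (LinearMap.det.comp (ρ : G →* _))
  have hf : f z = 1 := MonoidHom.mem_ker.mp (Abelianization.commutator_subset_ker f hzc)
  have hdet : LinearMap.det (ρ z) = 1 := by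
    have h1 := congrArg (fun u : ℂˣ => (u : ℂ)) hf
    simpa [f, MonoidHom.coe_toHomUnits] using h1
  rw [hc, LinearMap.det_smul, LinearMap.det_id, mul_one, Module.finrank_fin_fun] at hdet
  apply hfaith
  rw [hdeg]
  unfold Representation.character
  rw [map_pow, hc, map_one]
  congr 1
  rw [smul_pow, hdet, one_smul]
  exact one_pow n

example : Cfsg.Agent.H26.P2.StDet.{u} := det

end Cfsg.Agent.H15.P2

#print axioms Cfsg.Agent.H15.P2.det
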