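import Mathlib
import Cfsg.Agent.H26.P2Defs
import Cfsg.Agent.H7.SL2

/-!
# S4705 piece P2-SYLR (helper15): abelian Sylow `r`-subgroups for odd `r ∣ q - 1`

`G / Z(G) ≃ SL₂(F)`.  The preimage `T` of the diagonal torus is abelian (cyclic modulo the centre) of
index `q (q + 1)`, prime to `r`; so `T` contains a Sylow `r`-subgroup of `G`, and all of them are
conjugate.
-/

set_option autoImplicit false

namespace Cfsg.Agent.H15.P2

open Matrix

universe u

/-- The diagonal torus `a ↦ diag(a, a⁻¹)` of `SL₂(F)`. -/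
def torusHom (F : Type*) [Field F] : Fˣ →* Matrix.SpecialLinearGroup (Fin 2) F where
  toFun a := ⟨!![(a : F), 0; 0, ((a⁻¹ : Fˣ) : F)], by simp [Matrix.det_fin_two]⟩
  map_one' := by
    ext i j
    fin_cases i <;> fin_cases j <;> simp
  map_mul' a b := by
    apply Subtype.ext
    show !![((a * b : Fˣ) : F), 0; 0, (((a * b)⁻¹ : Fˣ) : F)] =
      !![(a : F), 0; 0, ((a⁻¹ : Fˣ) : F)] * !![(b : F), 0; 0, ((b⁻¹ : Fˣ) : F)]
    rw [Matrix.mul_fin_two]
    simp [mul_comm]

theorem torusHom_injective (F : Type*) [Field F] : Function.Injective (torusHom F) := by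
  intro a b h
  have h1 : ((torusHom F a).1 0 0 : F) = (torusHom F b).1 0 0 := by rw [h]
  exact Units.ext h1

theorem sylR : Cfsg.Agent.H26.P2.StSylR.{u} := by
  intro G _ _ F _ _ e r _ hr2 hrq R
  classical
  have hr : r.Prime := Fact.out
  let φ : G →* Matrix.SpecialLinearGroup (Fin 2) F :=
    e.toMonoidHom.comp (QuotientGroup.mk' (Subgroup.center G))
  have hφs : Function.Surjective φ := e.surjective.comp (QuotientGroup.mk'_surjective _)
  have hker : ∀ g : G, φ g = 1 → g ∈ Subgroup.center G := by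
    intro g hg
    have h1 : QuotientGroup.mk' (Subgroup.center G) g = 1 :=
      e.injective (by rw [map_one]; exact hg)
    exact (QuotientGroup.eq_one_iff g).mp h1
  let Tb : Subgroup (Matrix.SpecialLinearGroup (Fin 2) F) := (torusHom F).range
  let T : Subgroup G := Tb.comap φ
  have hcyc : IsCyclic Tb :=
    isCyclic_of_surjective (torusHom F).rangeRestrict (torusHom F).rangeRestrict_surjective
  obtain ⟨⟨t, ht⟩, hgen⟩ := hcyc.exists_generator
  obtain ⟨g0, hg0⟩ := hφs t
  have hT : ∀ a ∈ T, ∃ i : ℤ, ∃ z ∈ Subgroup.center G, a = g0 ^ i * z := by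
    intro a ha
    obtain ⟨i, hi⟩ := Subgroup.mem_zpowers_iff.mp (hgen ⟨φ a, ha⟩)
    have hi' : t ^ i = φ a := by simpa using congrArg Subtype.val hi
    refine ⟨i, (g0 ^ i)⁻¹ * a, hker _ ?_, by group⟩
    rw [map_mul, map_inv, map_zpow, hg0, hi', inv_mul_cancel]
  have hTab : ∀ a ∈ T, ∀ b ∈ T, a * b = b * a := by
    intro a ha b hb
    obtain ⟨i, z1, hz1, rfl⟩ := hT a ha
    obtain ⟨j, z2, hz2, rfl⟩ := hT b hb
    have c1 : ∀ x : G, Commute z1 x := fun x => (Subgroup.mem_center_iff.mp hz1 x).symm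
    have c2 : ∀ x : G, Commute x z2 := fun x => Subgroup.mem_center_iff.mp hz2 x
    have h : Commute (g0 ^ i * z1) (g0 ^ j * z2) :=
      Commute.mul_left (Commute.mul_right (Commute.zpow_zpow_self g0 i j) (c2 _)) (c1 _)
    exact h
  have hidx : T.index = Tb.index := Subgroup.index_comap_of_surjective Tb hφs
  have hq : 2 ≤ Fintype.card F := Fintype.one_lt_card
  have hcardTb : Nat.card Tb = Fintype.card F - 1 := by
    rw [← Nat.card_congr (MonoidHom.ofInjective (torusHom_injective F)).toEquiv, Nat.card_units,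
      Nat.card_eq_fintype_card]
  have hindex : Tb.index = Fintype.card F * (Fintype.card F + 1) := by
    have h1 := Subgroup.card_mul_index Tb
    have hSL : Nat.card (Matrix.SpecialLinearGroup (Fin 2) F) =
        Fintype.card F * (Fintype.card F ^ 2 - 1) := Cfsg.Agent.H7.card_SL2 (F := F)
    rw [hcardTb, hSL] at h1
    have h2 : Fintype.card F * (Fintype.card F ^ 2 - 1) =
        (Fintype.card F - 1) * (Fintype.card F * (Fintype.card F + 1)) := by
      obtain ⟨m, hm⟩ : ∃ m, Fintype.card F = m + 1 := ⟨Fintype.card F - 1, by omega⟩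
      rw [hm]
      have h3 : (m + 1) ^ 2 - 1 = m * (m + 2) := by
        have : (m + 1) ^ 2 = m * (m + 2) + 1 := by ring
        omega
      rw [h3, Nat.add_sub_cancel]
      ring
    rw [h2] at h1
    exact Nat.eq_of_mul_eq_mul_left (by omega) h1
  have hrT : ¬ r ∣ T.index := by
    rw [hidx, hindex]
    intro hdvd
    rcases (Nat.Prime.dvd_mul hr).mp hdvd with h | h
    · have h1 : r ∣ Fintype.card F - (Fintype.card F - 1) := Nat.dvd_sub h hrq
      rw [show Fintype.card F - (Fintype.card F - 1) = 1 by omega] at h1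
      exact hr.one_lt.ne' (Nat.dvd_one.mp h1)
    · have h1 : r ∣ Fintype.card F + 1 - (Fintype.card F - 1) := Nat.dvd_sub h hrq
      rw [show Fintype.card F + 1 - (Fintype.card F - 1) = 2 by omega] at h1
      exact hr2 ((Nat.prime_dvd_prime_iff_eq hr Nat.prime_two).mp h1)
  obtain ⟨S⟩ : Nonempty (Sylow r ↥T) := inferInstance
  let S' : Subgroup G := (S : Subgroup ↥T).map T.subtype
  have hS'T : S' ≤ T := by
    rintro _ ⟨x, -, rfl⟩
    exact x.2
  have hcardS' : Nat.card S' = r ^ (Nat.card G).factorization r := by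
    have h1 : Nat.card S' = Nat.card (S : Subgroup ↥T) :=
      (Nat.card_congr ((S : Subgroup ↥T).equivMapOfInjective T.subtype
        T.subtype_injective).toEquiv).symm
    rw [h1, Sylow.card_eq_multiplicity]
    congr 1
    have h2 : Nat.card G = Nat.card T * T.index := (Subgroup.card_mul_index T).symm
    have h3 : T.index ≠ 0 := Subgroup.index_ne_zero_of_finite
    rw [h2, Nat.factorization_mul Nat.card_pos.ne' h3, Finsupp.add_apply,
      Nat.factorization_eq_zero_of_not_dvd hrT, add_zero]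
  let Q : Sylow r G := Sylow.ofCard S' hcardS'
  obtain ⟨g, rfl⟩ := MulAction.exists_smul_eq G Q R
  intro a ha b hb
  rw [Sylow.coe_subgroup_smul] at ha hb
  obtain ⟨x, hx, rfl⟩ := (Subgroup.mem_smul_pointwise_iff_exists _ _ _).mp ha
  obtain ⟨y, hy, rfl⟩ := (Subgroup.mem_smul_pointwise_iff_exists _ _ _).mp hb
  have hx' : x ∈ T := hS'T hx
  have hy' : y ∈ T := hS'T hy
  rw [MulAut.smul_def, MulAut.smul_def, ← map_mul, ← map_mul, hTab x hx' y hy']

example : Cfsg.Agent.H26.P2.StSylR.{u} := sylR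

end Cfsg.Agent.H15.P2

#print axioms Cfsg.Agent.H15.P2.sylR
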