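import Mathlib
import Cfsg.Prelude.Def_PLocal

set_option autoImplicit false

namespace Cfsg.Agent.H15

open Cfsg

/-- Three subgroups lemma modulo a normal subgroup. -/
theorem three_subgroups_le {G : Type*} [Group G] (H₁ H₂ H₃ N : Subgroup G) [N.Normal]
    (h1 : ⁅⁅H₂, H₃⁆, H₁⁆ ≤ N) (h2 : ⁅⁅H₃, H₁⁆, H₂⁆ ≤ N) : ⁅⁅H₁, H₂⁆, H₃⁆ ≤ N := by
  have key : ∀ K : Subgroup G, K ≤ N ↔ K.map (QuotientGroup.mk' N) = ⊥ := by
    intro K
    rw [Subgroup.map_eq_bot_iff, QuotientGroup.ker_mk']
  rw [key] at h1 h2 ⊢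
  rw [Subgroup.map_commutator, Subgroup.map_commutator] at h1 h2 ⊢
  exact Subgroup.commutator_commutator_eq_bot_of_rotate h1 h2

section
variable {G : Type*} [Group G]

theorem iterComm_zero (M : Subgroup G) : iterCommutator M ⊤ 0 = M := rfl

theorem iterComm_succ (M : Subgroup G) (k : ℕ) :
    iterCommutator M ⊤ (k + 1) = ⁅iterCommutator M ⊤ k, ⊤⁆ := rfl

theorem iterComm_normal (M : Subgroup G) [M.Normal] (k : ℕ) :
    (iterCommutator M ⊤ k).Normal := by
  induction k with
  | zero => exact ‹M.Normal›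
  | succ k ih =>
    rw [iterComm_succ]
    haveI := ih
    infer_instance

theorem iterComm_shift (M : Subgroup G) (k : ℕ) :
    iterCommutator ⁅M, ⊤⁆ ⊤ k = iterCommutator M ⊤ (k + 1) := by
  induction k with
  | zero => rfl
  | succ k ih => rw [iterComm_succ, ih]; rfl

theorem iterComm_succ_le (M : Subgroup G) [M.Normal] (k : ℕ) :
    iterCommutator M ⊤ (k + 1) ≤ iterCommutator M ⊤ k := by
  haveI := iterComm_normal M k
  rw [iterComm_succ]
  exact Subgroup.commutator_le_left _ _

theorem iterComm_antitone (M : Subgroup G) [M.Normal] : Antitone (iterCommutator M ⊤) :=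
  antitone_nat_of_succ_le (iterComm_succ_le M)

theorem iterComm_mono {M M' : Subgroup G} (h : M ≤ M') (k : ℕ) :
    iterCommutator M ⊤ k ≤ iterCommutator M' ⊤ k := by
  induction k with
  | zero => exact h
  | succ k ih => exact Subgroup.commutator_mono ih le_rfl

/-- `[M, γ_{j+1}(G)] ≤ [M, G; j+1]` for normal `M` -/
theorem commutator_lcs_le (j : ℕ) : ∀ (M : Subgroup G) [M.Normal],
    ⁅M, (⊤ : Subgroup G).lowerCentralSeries j⁆ ≤ iterCommutator M ⊤ (j + 1) := by
  induction j with
  | zero => intro M _; exact le_rfl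
  | succ j ih =>
    intro M hM
    rw [Subgroup.lowerCentralSeries_succ, Subgroup.commutator_comm]
    haveI := iterComm_normal M (j + 2)
    apply three_subgroups_le
    · rw [Subgroup.commutator_comm ⊤ M]
      have := ih ⁅M, ⊤⁆
      rwa [iterComm_shift] at this
    · exact Subgroup.commutator_mono (ih M) le_rfl

theorem eq_bot_of_commutator_top_eq [Group.IsNilpotent G] (A : Subgroup G)
    (h : ⁅A, ⊤⁆ = A) : A = ⊥ := by
  obtain ⟨n, hn⟩ := Subgroup.nilpotent_iff_lowerCentralSeries.mp ‹Group.IsNilpotent G›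
  have hk : ∀ k, A ≤ (⊤ : Subgroup G).lowerCentralSeries k := by
    intro k
    induction k with
    | zero => exact le_top
    | succ k ih =>
      calc A = ⁅A, ⊤⁆ := h.symm
        _ ≤ ⁅(⊤ : Subgroup G).lowerCentralSeries k, ⊤⁆ := Subgroup.commutator_mono ih le_rfl
  have := hk n
  rw [hn] at this
  exact le_bot_iff.mp this

theorem card_mul_le_of_lt [Finite G] {p : ℕ} [Fact p.Prime] (hG : IsPGroup p G)
    {H K : Subgroup G} (h : H < K) : p * Nat.card H ≤ Nat.card K := by
  obtain ⟨a, ha⟩ := (hG.to_subgroup K).exists_card_eq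
  have hdvd : Nat.card H ∣ Nat.card K := Subgroup.card_dvd_of_le h.le
  rw [ha] at hdvd
  obtain ⟨b, hb, hb'⟩ := (Nat.dvd_prime_pow (Fact.out : p.Prime)).mp hdvd
  have hne : b ≠ a := by
    rintro rfl
    exact h.ne (Subgroup.eq_of_le_of_card_ge h.le (by rw [ha, hb']))
  rw [ha, hb', ← pow_succ']
  exact Nat.pow_le_pow_right (Fact.out : p.Prime).pos (by omega)

theorem card_iterComm_ge [Finite G] {p : ℕ} [Fact p.Prime] (hG : IsPGroup p G)
    (M : Subgroup G) [M.Normal] (n : ℕ) (hn : iterCommutator M ⊤ n ≠ ⊥) :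
    ∀ d ≤ n, p ^ d * Nat.card (iterCommutator M ⊤ n) ≤ Nat.card (iterCommutator M ⊤ (n - d)) := by
  haveI : Group.IsNilpotent G := hG.isNilpotent
  intro d
  induction d with
  | zero => intro _; simp
  | succ d ih =>
    intro hd
    have h1 := ih (by omega)
    have e : n - d = (n - (d + 1)) + 1 := by omega
    have hlt : iterCommutator M ⊤ (n - d) < iterCommutator M ⊤ (n - (d + 1)) := by
      rw [e]
      refine lt_of_le_of_ne (iterComm_succ_le M _) ?_
      intro heq
      have h0 := eq_bot_of_commutator_top_eq _ heq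
      apply hn
      have hle : iterCommutator M ⊤ n ≤ iterCommutator M ⊤ (n - (d + 1)) :=
        iterComm_antitone M (by omega)
      rw [h0] at hle
      exact le_bot_iff.mp hle
    have h2 := card_mul_le_of_lt hG hlt
    calc p ^ (d + 1) * Nat.card (iterCommutator M ⊤ n)
        = p * (p ^ d * Nat.card (iterCommutator M ⊤ n)) := by ring
      _ ≤ p * Nat.card (iterCommutator M ⊤ (n - d)) := Nat.mul_le_mul_left _ h1
      _ ≤ _ := h2

theorem card_mul_relIndex {H K : Subgroup G} (h : H ≤ K) :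
    Nat.card H * H.relIndex K = Nat.card K := by
  have h1 := Subgroup.card_mul_index (H.subgroupOf K)
  rw [Nat.card_congr (Subgroup.subgroupOfEquivOfLe h).toEquiv] at h1
  exact h1

end

end Cfsg.Agent.H15
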