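import Mathlib
import Cfsg.Agent.H17.PmDefs

/-!
# S2140-SLTR (team piece for helper17): `SL` is transitive on non-zero vectors
-/

set_option autoImplicit false

namespace Cfsg.Agent.H15.Pm

open Cfsg Cfsg.Geo Cfsg.Agent.H17.Mn Cfsg.Agent.H17.Pm
open scoped MatrixGroups Matrix

variable {ι : Type} [Fintype ι] [DecidableEq ι] {F : Type*} [Field F]

/-- A linear form vanishing on a subspace and taking the value `1` at a vector outside it. -/
lemma exists_form_one {p : Submodule F (ι → F)} {x : ι → F} (hx : x ∉ p) :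
    ∃ f : (ι → F) →ₗ[F] F, f x = 1 ∧ ∀ y ∈ p, f y = 0 := by
  obtain ⟨f, hfx, hf⟩ := Submodule.exists_le_ker_of_notMem hx
  refine ⟨(f x)⁻¹ • f, ?_, fun y hy => ?_⟩
  · rw [LinearMap.smul_apply, smul_eq_mul, inv_mul_cancel₀ hfx]
  · rw [LinearMap.smul_apply, LinearMap.mem_ker.mp (hf hy), smul_zero]

lemma sl_trans_aux (v w : ι → F) (hv : v ≠ 0) (h : w ∉ Submodule.span F {v}) :
    ∃ g : GL ι F, g ∈ specialLinear ι F ∧ (g : Matrix ι ι F) *ᵥ v = w := by
  have hv' : v ∉ Submodule.span F {w - v} := by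
    intro hmem
    obtain ⟨a, ha⟩ := Submodule.mem_span_singleton.mp hmem
    apply h
    have ha0 : a ≠ 0 := by
      rintro rfl
      rw [zero_smul] at ha
      exact hv ha.symm
    rw [Submodule.mem_span_singleton]
    refine ⟨a⁻¹ * (1 + a), ?_⟩
    have h1 : a • w = (1 + a) • v := by
      rw [smul_sub] at ha
      calc a • w = (a • w - a • v) + a • v := by abel
        _ = v + a • v := by rw [ha]
        _ = (1 + a) • v := by rw [add_smul, one_smul]
    rw [mul_smul, ← h1, smul_smul, inv_mul_cancel₀ ha0, one_smul]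
  obtain ⟨φ, hφv, hφ⟩ := exists_form_one hv'
  have hφwv : φ (w - v) = 0 := hφ _ (Submodule.mem_span_singleton_self _)
  refine ⟨H95.tvGL (w - v) φ hφwv, H95.tvGL_mem_specialLinear _ _ _, ?_⟩
  rw [H95.tvGL_mulVec, hφv, one_smul]
  abel

theorem sl_trans (hn : 2 ≤ Fintype.card ι) (v w : ι → F) (hv : v ≠ 0) (hw : w ≠ 0) :
    ∃ g : GL ι F, g ∈ specialLinear ι F ∧ (g : Matrix ι ι F) *ᵥ v = w := by
  by_cases h : w ∈ Submodule.span F {v}
  · have hne : Submodule.span F {v} ≠ ⊤ := by
      intro htop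
      have h1 : Module.finrank F (Submodule.span F ({v} : Set (ι → F))) = 1 :=
        finrank_span_singleton hv
      rw [htop, finrank_top, Module.finrank_fintype_fun_eq_card] at h1
      omega
    obtain ⟨u, hu⟩ : ∃ u, u ∉ Submodule.span F {v} := by
      by_contra hall
      push Not at hall
      exact hne (Submodule.eq_top_iff'.mpr hall)
    obtain ⟨g₁, hg₁, hg₁v⟩ := sl_trans_aux v u hv hu
    have hu0 : u ≠ 0 := by
      rintro rfl
      exact hu (Submodule.zero_mem _)
    have hwu : w ∉ Submodule.span F {u} := by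
      intro hmem
      obtain ⟨a, ha⟩ := Submodule.mem_span_singleton.mp h
      obtain ⟨b, hb⟩ := Submodule.mem_span_singleton.mp hmem
      have ha0 : a ≠ 0 := by
        rintro rfl
        rw [zero_smul] at ha
        exact hw ha.symm
      apply hu
      rw [Submodule.mem_span_singleton]
      refine ⟨b⁻¹ * a, ?_⟩
      have hb0 : b ≠ 0 := by
        rintro rfl
        rw [zero_smul] at hb
        exact hw hb.symm
      rw [mul_smul, ha, ← hb, smul_smul, inv_mul_cancel₀ hb0, one_smul]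
    obtain ⟨g₂, hg₂, hg₂u⟩ := sl_trans_aux u w hu0 hwu
    exact ⟨g₂ * g₁, Subgroup.mul_mem _ hg₂ hg₁, by rw [mulVec_mul, hg₁v, hg₂u]⟩
  · exact sl_trans_aux v w hv h

end Cfsg.Agent.H15.Pm

section verbatim
open Cfsg Cfsg.Geo Cfsg.Agent.H17.Mn Cfsg.Agent.H17.Pm
open scoped MatrixGroups Matrix
variable {ι : Type} [Fintype ι] [DecidableEq ι] {F : Type*} [Field F]
example (hn : 2 ≤ Fintype.card ι) (v w : ι → F) (hv : v ≠ 0) (hw : w ≠ 0) : ∃ g : GL ι F, g ∈ specialLinear ι F ∧ (g : Matrix ι ι F) *ᵥ v = w := Cfsg.Agent.H15.Pm.sl_trans hn v w hv hw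
end verbatim
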