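import Mathlib
import Cfsg.Agent.H17.PmDefs
import Cfsg.Agent.H15.PmSltr

/-!
# S2140-CSPACE (team piece for helper17): the centres `c` with `Q_c ≤ H` form an `H`-invariant
subspace
-/

set_option autoImplicit false

namespace Cfsg.Agent.H15.Pm

open Cfsg Cfsg.Geo Cfsg.Agent Cfsg.Agent.H17.Mn Cfsg.Agent.H17.Pm
open scoped MatrixGroups Matrix

variable {ι : Type} [Fintype ι] [DecidableEq ι] {F : Type*} [Field F]

lemma tvGL_congr {u u' : ι → F} {φ φ' : (ι → F) →ₗ[F] F} (hu : u = u') (hφ : φ = φ')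
    (h : φ u = 0) (h' : φ' u' = 0) : H95.tvGL u φ h = H95.tvGL u' φ' h' := by
  subst hu
  subst hφ
  rfl

lemma comp_toLin_inv (g : GL ι F) (φ : (ι → F) →ₗ[F] F) :
    (φ ∘ₗ Matrix.toLin' (g : Matrix ι ι F)) ∘ₗ
      Matrix.toLin' ((g⁻¹ : GL ι F) : Matrix ι ι F) = φ := by
  apply LinearMap.ext
  intro v
  rw [LinearMap.comp_apply, LinearMap.comp_apply, Matrix.toLin'_apply, Matrix.toLin'_apply,
    mulVec_inv_mulVec]

/-- If all transvections with centre `x` lie in `H` and `g ∈ H`, then all transvections with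
centre `g x` lie in `H`. -/
lemma tvGL_mulVec_mem (H : Subgroup (GL ι F)) (g : GL ι F) (hg : g ∈ H) (x : ι → F)
    (hx : ∀ (χ : (ι → F) →ₗ[F] F) (hχ : χ x = 0), H95.tvGL x χ hχ ∈ H)
    (φ : (ι → F) →ₗ[F] F) (hφ : φ ((g : Matrix ι ι F) *ᵥ x) = 0) :
    H95.tvGL ((g : Matrix ι ι F) *ᵥ x) φ hφ ∈ H := by
  have hχ : (φ ∘ₗ Matrix.toLin' (g : Matrix ι ι F)) x = 0 := by
    rw [LinearMap.comp_apply, Matrix.toLin'_apply]
    exact hφ
  have key := conj_tvGL g x (φ ∘ₗ Matrix.toLin' (g : Matrix ι ι F)) hχ (conj_tvGL_aux g x _ hχ)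
  have e : H95.tvGL ((g : Matrix ι ι F) *ᵥ x) φ hφ =
      g * H95.tvGL x (φ ∘ₗ Matrix.toLin' (g : Matrix ι ι F)) hχ * g⁻¹ := by
    rw [key]
    exact tvGL_congr rfl (comp_toLin_inv g φ).symm _ _
  rw [e]
  exact H.mul_mem (H.mul_mem hg (hx _ hχ)) (H.inv_mem hg)

theorem centre_space (H : Subgroup (GL ι F)) : ∃ C : Submodule F (ι → F),
    (∀ c : ι → F, c ∈ C ↔ ∀ (φ : (ι → F) →ₗ[F] F) (hφ : φ c = 0), H95.tvGL c φ hφ ∈ H) ∧
    ∀ h ∈ H, ∀ v ∈ C, (h : Matrix ι ι F) *ᵥ v ∈ C := by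
  let C : Submodule F (ι → F) :=
    { carrier := {c | ∀ (φ : (ι → F) →ₗ[F] F) (hφ : φ c = 0), H95.tvGL c φ hφ ∈ H}
      zero_mem' := by
        intro φ hφ
        rw [tvGL_zero_left]
        exact H.one_mem
      add_mem' := by
        intro c₁ c₂ h₁ h₂ φ hφ
        by_cases h1 : φ c₁ = 0
        · have h2 : φ c₂ = 0 := by
            have h3 := hφ
            rw [map_add, h1, zero_add] at h3
            exact h3
          rw [← tvGL_mul_centre c₁ c₂ φ h1 h2 hφ]
          exact H.mul_mem (h₁ φ h1) (h₂ φ h2)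
        · by_cases hmem : c₁ ∈ Submodule.span F {c₂}
          · obtain ⟨a, ha⟩ := Submodule.mem_span_singleton.mp hmem
            have hsum : c₁ + c₂ = 0 := by
              have h3 := hφ
              rw [← ha, map_add, map_smul, smul_eq_mul] at h3
              have h4 : (a + 1) * φ c₂ = 0 := by linear_combination h3
              have h5 : φ c₂ ≠ 0 := by
                intro h6
                apply h1
                rw [← ha, map_smul, h6, smul_zero]
              have h7 : a + 1 = 0 := by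
                rcases mul_eq_zero.mp h4 with h8 | h8
                · exact h8
                · exact absurd h8 h5
              rw [← ha]
              calc a • c₂ + c₂ = (a + 1) • c₂ := by rw [add_smul, one_smul]
                _ = 0 := by rw [h7, zero_smul]
            rw [tvGL_congr hsum rfl hφ (map_zero φ), tvGL_zero_left]
            exact H.one_mem
          · obtain ⟨ψ, hψ1, hψ⟩ := exists_form_one hmem
            have hψ2 : ψ c₂ = 0 := hψ _ (Submodule.mem_span_singleton_self _)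
            have hg : H95.tvGL c₂ ψ hψ2 ∈ H := h₂ ψ hψ2
            have hgc : ((H95.tvGL c₂ ψ hψ2 : GL ι F) : Matrix ι ι F) *ᵥ c₁ = c₁ + c₂ := by
              rw [H95.tvGL_mulVec, hψ1, one_smul]
            have hφ' : φ (((H95.tvGL c₂ ψ hψ2 : GL ι F) : Matrix ι ι F) *ᵥ c₁) = 0 := by
              rw [hgc]
              exact hφ
            have h3 := tvGL_mulVec_mem H _ hg c₁ h₁ φ hφ'
            rw [tvGL_congr hgc.symm rfl hφ hφ']
            exact h3
      smul_mem' := by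
        intro a c hc φ hφ
        have h' : (a • φ) c = 0 := by
          rw [LinearMap.smul_apply, ← map_smul]
          exact hφ
        rw [tvGL_smul a c φ hφ h']
        exact hc _ h' }
  exact ⟨C, fun c => Iff.rfl, fun h hh v hv φ hφ => tvGL_mulVec_mem H h hh v hv φ hφ⟩

end Cfsg.Agent.H15.Pm

section verbatim
open Cfsg Cfsg.Geo Cfsg.Agent Cfsg.Agent.H17.Mn Cfsg.Agent.H17.Pm
open scoped MatrixGroups Matrix
variable {ι : Type} [Fintype ι] [DecidableEq ι] {F : Type*} [Field F]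
example (H : Subgroup (GL ι F)) : ∃ C : Submodule F (ι → F), (∀ c : ι → F, c ∈ C ↔ ∀ (φ : (ι → F) →ₗ[F] F) (hφ : φ c = 0), H95.tvGL c φ hφ ∈ H) ∧ ∀ h ∈ H, ∀ v ∈ C, (h : Matrix ι ι F) *ᵥ v ∈ C := Cfsg.Agent.H15.Pm.centre_space H
end verbatim
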