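import Mathlib
import Cfsg.Agent.H17.PmDefs
import Cfsg.Agent.H15.PmSltr

/-!
# S2140-FORMTR (team piece for helper17): the stabiliser of `c` in `SL` is transitive on the
non-zero linear forms vanishing at `c` (`n ≥ 3`)
-/

set_option autoImplicit false

namespace Cfsg.Agent.H15.Pm

open Cfsg Cfsg.Geo Cfsg.Agent.H17.Mn Cfsg.Agent.H17.Pm
open scoped MatrixGroups Matrix

variable {ι : Type} [Fintype ι] [DecidableEq ι] {F : Type*} [Field F]

lemma exists_apply_ne_zero (φ : (ι → F) →ₗ[F] F) (h0 : φ ≠ 0) : ∃ a, φ a ≠ 0 := by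
  by_contra hall
  push Not at hall
  exact h0 (LinearMap.ext fun v => by rw [hall v]; rfl)

lemma exists_vec (φ φ' : (ι → F) →ₗ[F] F) (h0' : φ' ≠ 0) (hind : ∀ μ : F, φ ≠ μ • φ') :
    ∃ u, φ u = φ' u ∧ φ' u ≠ 0 := by
  obtain ⟨a₀, ha₀⟩ := exists_apply_ne_zero φ' h0'
  obtain ⟨a, ha⟩ : ∃ a, φ' a = 1 :=
    ⟨(φ' a₀)⁻¹ • a₀, by rw [map_smul, smul_eq_mul, inv_mul_cancel₀ ha₀]⟩
  by_cases ht : φ a = 1
  · exact ⟨a, by rw [ht, ha], by rw [ha]; exact one_ne_zero⟩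
  · obtain ⟨b, hb, hb'⟩ : ∃ b, φ' b = 0 ∧ φ b ≠ 0 := by
      by_contra hall
      push Not at hall
      apply hind (φ a)
      apply LinearMap.ext
      intro v
      have h1 : φ' (v - φ' v • a) = 0 := by
        rw [map_sub, map_smul, ha, smul_eq_mul, mul_one, sub_self]
      have h2 := hall _ h1
      rw [map_sub, map_smul, smul_eq_mul, sub_eq_zero] at h2
      rw [LinearMap.smul_apply, smul_eq_mul, h2, mul_comm]
    refine ⟨a - ((φ a - 1) / φ b) • b, ?_, ?_⟩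
    · rw [map_sub, map_smul, map_sub, map_smul, hb, ha, smul_eq_mul, smul_eq_mul,
        div_mul_cancel₀ _ hb', mul_zero]
      ring
    · rw [map_sub, map_smul, hb, ha, smul_zero, sub_zero]
      exact one_ne_zero

lemma form_step (c : ι → F) (φ φ' : (ι → F) →ₗ[F] F) (hφ : φ c = 0) (hφ' : φ' c = 0)
    (h0' : φ' ≠ 0) (hind : ∀ μ : F, φ ≠ μ • φ') :
    ∃ g : GL ι F, g ∈ specialLinear ι F ∧ (g : Matrix ι ι F) *ᵥ c = c ∧
      ∀ v, φ' ((g : Matrix ι ι F) *ᵥ v) = φ v := by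
  obtain ⟨u, hu, hu'⟩ := exists_vec φ φ' h0' hind
  have hψ : ((φ' u)⁻¹ • (φ - φ')) u = 0 := by
    rw [LinearMap.smul_apply, LinearMap.sub_apply, hu, sub_self, smul_zero]
  refine ⟨H95.tvGL u _ hψ, H95.tvGL_mem_specialLinear _ _ _, ?_, fun v => ?_⟩
  · rw [H95.tvGL_mulVec, LinearMap.smul_apply, LinearMap.sub_apply, hφ, hφ', sub_self, smul_zero,
      zero_smul, add_zero]
  · rw [H95.tvGL_mulVec, map_add, map_smul, LinearMap.smul_apply, LinearMap.sub_apply, smul_eq_mul,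
      smul_eq_mul]
    have e : (φ' u)⁻¹ * (φ v - φ' v) * φ' u = φ v - φ' v := by
      field_simp
    rw [e]
    ring

lemma form_eq_of_apply (g : GL ι F) (φ φ' : (ι → F) →ₗ[F] F)
    (h : ∀ v, φ' ((g : Matrix ι ι F) *ᵥ v) = φ v) :
    φ' = φ ∘ₗ Matrix.toLin' ((g⁻¹ : GL ι F) : Matrix ι ι F) := by
  apply LinearMap.ext
  intro v
  rw [LinearMap.comp_apply, Matrix.toLin'_apply, ← h, mulVec_inv_mulVec]

theorem sl_form_trans (hn : 3 ≤ Fintype.card ι) (c : ι → F) (hc : c ≠ 0)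
    (φ φ' : (ι → F) →ₗ[F] F) (hφ : φ c = 0) (hφ' : φ' c = 0) (h0 : φ ≠ 0) (h0' : φ' ≠ 0) :
    ∃ g : GL ι F, g ∈ specialLinear ι F ∧ (g : Matrix ι ι F) *ᵥ c = c ∧
      φ' = φ ∘ₗ Matrix.toLin' ((g⁻¹ : GL ι F) : Matrix ι ι F) := by
  by_cases hdep : ∃ μ : F, φ = μ • φ'
  · obtain ⟨μ, hμ⟩ := hdep
    have hμ0 : μ ≠ 0 := by
      rintro rfl
      rw [zero_smul] at hμ
      exact h0 hμ
    obtain ⟨u, hu⟩ := exists_apply_ne_zero φ' h0'
    have hne : Submodule.span F (Set.range ![c, u]) ≠ ⊤ := by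
      intro htop
      have h1 := finrank_range_le_card (R := F) ![c, u]
      rw [Set.finrank, htop, finrank_top, Module.finrank_fintype_fun_eq_card,
        Fintype.card_fin] at h1
      omega
    obtain ⟨x, hx⟩ : ∃ x, x ∉ Submodule.span F (Set.range ![c, u]) := by
      by_contra hall
      push Not at hall
      exact hne (Submodule.eq_top_iff'.mpr hall)
    obtain ⟨φ'', hx1, hφ''⟩ := exists_form_one hx
    have hc'' : φ'' c = 0 := hφ'' c (Submodule.subset_span ⟨0, rfl⟩)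
    have hu'' : φ'' u = 0 := hφ'' u (Submodule.subset_span ⟨1, rfl⟩)
    have h0'' : φ'' ≠ 0 := by
      intro h
      rw [h, LinearMap.zero_apply] at hx1
      exact zero_ne_one hx1
    have hind1 : ∀ ν : F, φ ≠ ν • φ'' := by
      intro ν h
      have h1 : φ u = (ν • φ'') u := by rw [← h]
      rw [LinearMap.smul_apply, hu'', smul_zero, hμ, LinearMap.smul_apply, smul_eq_mul] at h1
      exact (mul_ne_zero hμ0 hu) h1
    have hind2 : ∀ ν : F, φ'' ≠ ν • φ' := by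
      intro ν h
      have h1 : φ'' u = (ν • φ') u := by rw [← h]
      rw [LinearMap.smul_apply, hu'', smul_eq_mul] at h1
      have hν : ν = 0 := by
        rcases mul_eq_zero.mp h1.symm with h2 | h2
        · exact h2
        · exact absurd h2 hu
      rw [hν, zero_smul] at h
      exact h0'' h
    obtain ⟨g₁, hg₁, hg₁c, hg₁f⟩ := form_step c φ φ'' hφ hc'' h0'' hind1
    obtain ⟨g₂, hg₂, hg₂c, hg₂f⟩ := form_step c φ'' φ' hc'' hφ' h0' hind2
    refine ⟨g₂ * g₁, Subgroup.mul_mem _ hg₂ hg₁, by rw [mulVec_mul, hg₁c, hg₂c], ?_⟩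
    apply form_eq_of_apply
    intro v
    rw [mulVec_mul, hg₂f, hg₁f]
  · push Not at hdep
    obtain ⟨g, hg, hgc, hgf⟩ := form_step c φ φ' hφ hφ' h0' hdep
    exact ⟨g, hg, hgc, form_eq_of_apply g φ φ' hgf⟩

end Cfsg.Agent.H15.Pm

section verbatim
open Cfsg Cfsg.Geo Cfsg.Agent.H17.Mn Cfsg.Agent.H17.Pm
open scoped MatrixGroups Matrix
variable {ι : Type} [Fintype ι] [DecidableEq ι] {F : Type*} [Field F]
example (hn : 3 ≤ Fintype.card ι) (c : ι → F) (hc : c ≠ 0) (φ φ' : (ι → F) →ₗ[F] F) (hφ : φ c = 0) (hφ' : φ' c = 0) (h0 : φ ≠ 0) (h0' : φ' ≠ 0) : ∃ g : GL ι F, g ∈ specialLinear ι F ∧ (g : Matrix ι ι F) *ᵥ c = c ∧ φ' = φ ∘ₗ Matrix.toLin' ((g⁻¹ : GL ι F) : Matrix ι ι F) := Cfsg.Agent.H15.Pm.sl_form_trans hn c hc φ φ' hφ hφ' h0 h0'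
end verbatim
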