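import Mathlib
import Cfsg.Agent.H49.PtDefs
import Cfsg.Agent.H77.TmDefs2
import Cfsg.Agent.H49.Plus
import Cfsg.Agent.H49.InvOmega

/-!
# S5973 (helper49): bridge lemmas for the structure pieces MODD / MEVEN (helper15)

* `qctx_of_isom`: `T = toLin' y` is a `QCtx r (QP d F) T` for an isometry `y` with `y ^ r = 1`.
* `ts_sup`: the sum of two mutually orthogonal totally singular subspaces is totally singular.
* `finrank_sup_of_disjoint`, `fixed_mem_invt`, `dims`.
-/

set_option autoImplicit false
open scoped MatrixGroups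
open scoped Matrix

namespace Cfsg.Agent.H15.Pt

open Cfsg.Agent.H49.Pt Cfsg.Agent.H77.Tm Cfsg.Agent.H45 Cfsg.Agent.H42.Spd Cfsg.Agent.H42.Ti
  Module Polynomial

universe u v

/-- `T = toLin' y` is a quadratic context for the plus-type form. -/
theorem qctx_of_isom {F : Type u} [Field F] [Fintype F] (p : ℕ) [Fact p.Prime] [CharP F p]
    (d r : ℕ) (hr : r.Prime) (hr2 : r ≠ 2) (hrp : r ≠ p) (y : GL (Fin d ⊕ Fin d) F)
    (hy : y ∈ Cfsg.isometryGroup F (Cfsg.quadFormPlus d F)) (hyr : y ^ r = 1) :
    QCtx r (Cfsg.Agent.H49.QP d F)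
      (Matrix.toLin' (y : Matrix (Fin d ⊕ Fin d) (Fin d ⊕ Fin d) F)) := by
  have hp : p.Prime := Fact.out
  refine ⟨hr, hr2, ?_, ?_, ?_, ?_⟩
  · intro h0
    have h1 := (CharP.cast_eq_zero_iff F p r).mp h0
    exact hrp ((Nat.prime_dvd_prime_iff_eq hp hr).mp h1).symm
  · intro x hx
    exact (Cfsg.Agent.H49.QP_nondeg d F).1 x hx
  · intro x
    rw [Matrix.toLin'_apply]
    exact (Cfsg.Agent.H49.mem_isometryGroup_iff.mp hy) x
  · rw [← Matrix.toLin'_pow, ← Units.val_pow_eq_pow_val, hyr, Units.val_one, Matrix.toLin'_one]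
    rfl

section Gen

variable {F : Type u} [Field F] {V : Type v} [AddCommGroup V] [Module F V]

/-- The sum of two mutually orthogonal totally singular subspaces is totally singular. -/
theorem ts_sup (Q : QuadraticForm F V) (J W : Submodule F V) (hJ : TS Q J) (hW : TS Q W)
    (hperp : ∀ c ∈ J, ∀ u ∈ W, QuadraticMap.polar ⇑Q c u = 0) : TS Q (J ⊔ W) := by
  intro v hv
  obtain ⟨c, hc, u, hu, rfl⟩ := Submodule.mem_sup.mp hv
  have h1 := hperp c hc u hu
  unfold QuadraticMap.polar at h1
  rw [hJ c hc, hW u hu, sub_zero, sub_zero] at h1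
  exact h1

theorem ts_mono (Q : QuadraticForm F V) {J W : Submodule F V} (h : J ≤ W) (hW : TS Q W) :
    TS Q J := fun u hu => hW u (h hu)

/-- Dimension of a sum of two subspaces meeting trivially. -/
theorem finrank_sup_of_disjoint [FiniteDimensional F V] (J W : Submodule F V)
    (h : J ⊓ W = ⊥) : finrank F ↥(J ⊔ W) = finrank F ↥J + finrank F ↥W := by
  have h1 := Submodule.finrank_sup_add_finrank_inf_eq J W
  rw [h, finrank_bot] at h1
  omega

/-- A subspace of the fixed space of `T` is `T`-invariant. -/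
theorem fixed_mem_invt (T : Module.End F V) (J : Submodule F V)
    (h : J ≤ LinearMap.ker (T - 1)) : J ∈ T.invtSubmodule := by
  rw [Module.End.mem_invtSubmodule]
  intro x hx
  have h1 := h hx
  rw [LinearMap.mem_ker, LinearMap.sub_apply, Module.End.one_apply, sub_eq_zero] at h1
  rw [Submodule.mem_comap, h1]
  exact hx

/-- `dim ker (T - 1) + dim range (T - 1) = dim V`. -/
theorem dims [FiniteDimensional F V] (T : Module.End F V) :
    finrank F ↥(LinearMap.ker (T - 1)) + finrank F ↥(LinearMap.range (T - 1)) = finrank F V := by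
  have h1 := LinearMap.finrank_range_add_finrank_ker (T - 1)
  omega

end Gen

end Cfsg.Agent.H15.Pt
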