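import Mathlib
import Cfsg.Agent.H49.PtDefs
import Cfsg.Agent.H28.TmExOdd
import Cfsg.Agent.H28.TqpMinElOdd
import Cfsg.Agent.H49.Plus

/-!
# S5973-EXODD (helper15, for helper49)

`exOdd : Cfsg.Agent.H49.Pt.StExOdd`: for `i = ord_r(q)` odd, `1 ≤ A`, `i A ≤ d`, an element of
`Ω⁺_{2d}(q)` of order `r` with `dim [V, x] = 2 i A`:
`x = diag(M, M⁻ᵀ)`, `M = (A copies of A₀) ⊕ 1`, `A₀ ∈ GL_i(F)` of order `r` (Cauchy).
Plus-type twin of helper28's `Cfsg.Agent.H28.Tm.exOdd` (same construction).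
-/

set_option autoImplicit false
open scoped MatrixGroups
open scoped Matrix

namespace Cfsg.Agent.H15.Pt

open Cfsg.Agent.H49.Pt Cfsg.Agent.H42.Ti Cfsg.Agent.H28.Tq Module Matrix

universe u

/-- From a block `B₀` with `B₀ ^ r = 1` on `ι₀`, `ι₀ ⊕ Fin N ≃ Fin d`: the isometry
`diag(B, B⁻ᵀ)`, `B = B₀ ⊕ 1`, of the plus-type form. -/
theorem ex_of_blockP {F : Type u} [Field F] [Fintype F] {ι₀ : Type} [Fintype ι₀]
    [DecidableEq ι₀] (d : ℕ) (r N : ℕ) (e : ι₀ ⊕ Fin N ≃ Fin d)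
    (B₀ B₀' : Matrix ι₀ ι₀ F) (h01 : B₀' * B₀ = 1) (h10 : B₀ * B₀' = 1) (hr : B₀ ^ r = 1)
    (hr' : B₀' ^ r = 1) (ρ : ℕ) (hρ : 0 < ρ) (hrank : (B₀ - 1).rank = ρ) (hodd : Odd r)
    (hd : 0 < d) :
    ∃ x : GL (Fin d ⊕ Fin d) F, x ∈ Cfsg.isometryGroup F (Cfsg.quadFormPlus d F) ∧ x ^ r = 1 ∧
      ((x : Matrix (Fin d ⊕ Fin d) (Fin d ⊕ Fin d) F) - 1).rank = 2 * ρ ∧
      ∀ z : F, (x : Matrix (Fin d ⊕ Fin d) (Fin d ⊕ Fin d) F) ≠
        z • (1 : Matrix (Fin d ⊕ Fin d) (Fin d ⊕ Fin d) F) := by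
  classical
  obtain ⟨B, hB⟩ : ∃ B : Matrix (ι₀ ⊕ Fin N) (ι₀ ⊕ Fin N) F,
      B = fromBlocks B₀ 0 0 1 := ⟨_, rfl⟩
  obtain ⟨B', hB'⟩ : ∃ B' : Matrix (ι₀ ⊕ Fin N) (ι₀ ⊕ Fin N) F,
      B' = fromBlocks B₀' 0 0 1 := ⟨_, rfl⟩
  have hB'B : B' * B = 1 := by
    rw [hB, hB', bd_mul, h01, Matrix.mul_one, Matrix.fromBlocks_one]
  have hBB' : B * B' = 1 := by
    rw [hB, hB', bd_mul, h10, Matrix.mul_one, Matrix.fromBlocks_one]
  have hBr : B ^ r = 1 := by
    rw [hB, bd_pow, hr, one_pow, Matrix.fromBlocks_one]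
  have hB'r : B' ^ r = 1 := by
    rw [hB', bd_pow, hr', one_pow, Matrix.fromBlocks_one]
  have hrankB : (B - 1).rank = ρ := by
    rw [hB, bd_sub_one, rank_bd, hrank, sub_self, Matrix.rank_zero, add_zero]
  obtain ⟨A, hA⟩ : ∃ A : Matrix (Fin d) (Fin d) F, A = B.submatrix e.symm e.symm := ⟨_, rfl⟩
  obtain ⟨A', hA'⟩ : ∃ A' : Matrix (Fin d) (Fin d) F, A' = B'.submatrix e.symm e.symm :=
    ⟨_, rfl⟩
  have hA'A : A' * A = 1 := by
    rw [hA, hA', Matrix.submatrix_mul_equiv, hB'B, Matrix.submatrix_one_equiv]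
  have hAA' : A * A' = 1 := by
    rw [hA, hA', Matrix.submatrix_mul_equiv, hBB', Matrix.submatrix_one_equiv]
  have hAr : A ^ r = 1 := by
    rw [hA, submatrix_pow_equiv, hBr, Matrix.submatrix_one_equiv]
  have hA'r : A' ^ r = 1 := by
    rw [hA', submatrix_pow_equiv, hB'r, Matrix.submatrix_one_equiv]
  have hrankA : (A - 1).rank = ρ := by
    have h1 : A - 1 = (B - 1).submatrix e.symm e.symm := by
      rw [hA]
      ext a b
      simp [Matrix.one_apply]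
    rw [h1, Matrix.rank_submatrix, hrankB]
  have hrankA' : (A'ᵀ - 1).rank = ρ := by
    have h1 : A'ᵀ - 1 = (A' - 1)ᵀ := by rw [Matrix.transpose_sub, Matrix.transpose_one]
    have h3 : A' - 1 = (-A') * (A - 1) := by
      rw [Matrix.mul_sub, Matrix.neg_mul, hA'A, Matrix.mul_one]
      abel
    have h4 : IsUnit (-A').det := by
      apply Matrix.isUnit_det_of_right_inverse (B := -A)
      rw [neg_mul_neg, hA'A]
    rw [h1, Matrix.rank_transpose, h3, Matrix.rank_mul_eq_right_of_isUnit_det _ _ h4, hrankA]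
  obtain ⟨X, hX⟩ : ∃ X : Matrix (Fin d ⊕ Fin d) (Fin d ⊕ Fin d) F,
      X = fromBlocks A 0 0 A'ᵀ := ⟨_, rfl⟩
  obtain ⟨X', hX'⟩ : ∃ X' : Matrix (Fin d ⊕ Fin d) (Fin d ⊕ Fin d) F,
      X' = fromBlocks A' 0 0 Aᵀ := ⟨_, rfl⟩
  have hXX' : X * X' = 1 := by
    rw [hX, hX', bd_mul, hAA', ← Matrix.transpose_mul, hAA', Matrix.transpose_one,
      Matrix.fromBlocks_one]
  have hX'X : X' * X = 1 := by
    rw [hX, hX', bd_mul, hA'A, ← Matrix.transpose_mul, hA'A, Matrix.transpose_one,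
      Matrix.fromBlocks_one]
  have hXr : X ^ r = 1 := by
    rw [hX, bd_pow, hAr, ← Matrix.transpose_pow, hA'r, Matrix.transpose_one,
      Matrix.fromBlocks_one]
  have hrankX : (X - 1).rank = 2 * ρ := by
    rw [hX, bd_sub_one, rank_bd, hrankA, hrankA']
    ring
  obtain ⟨x, hx⟩ : ∃ x : GL (Fin d ⊕ Fin d) F,
      (x : Matrix (Fin d ⊕ Fin d) (Fin d ⊕ Fin d) F) = X :=
    ⟨⟨X, X', hXX', hX'X⟩, rfl⟩
  have hxr : x ^ r = 1 := by
    apply Units.ext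
    rw [Units.val_pow_eq_pow_val, hx, hXr, Units.val_one]
  have hxiso : x ∈ Cfsg.isometryGroup F (Cfsg.quadFormPlus d F) := by
    rw [Cfsg.Agent.H49.mem_isometryGroup_iff]
    intro v
    rw [hx, hX]
    exact Cfsg.Agent.H28.Tqp.plus_isom d A A' hA'A v
  refine ⟨x, hxiso, hxr, ?_, ?_⟩
  · rw [hx]
    exact hrankX
  · intro z hz
    rw [hx, hX] at hz
    have hAz : A = z • (1 : Matrix (Fin d) (Fin d) F) := by
      ext a b
      have h1 := congrFun (congrFun hz (Sum.inl a)) (Sum.inl b)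
      simpa [Matrix.one_apply] using h1
    have hA'z : A' = z • (1 : Matrix (Fin d) (Fin d) F) := by
      ext a b
      have h1 := congrFun (congrFun hz (Sum.inr b)) (Sum.inr a)
      simp only [Matrix.fromBlocks_apply₂₂, Matrix.transpose_apply, Matrix.smul_apply,
        Matrix.one_apply, Sum.inr.injEq, smul_eq_mul] at h1
      rw [h1]
      simp [Matrix.one_apply, eq_comm]
    have hzz : z * z = 1 := by
      have h1 := congrFun (congrFun hA'A ⟨0, hd⟩) ⟨0, hd⟩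
      rw [hAz, hA'z] at h1
      simpa using h1
    have hzr : z ^ r = 1 := by
      have h1 := congrFun (congrFun hAr ⟨0, hd⟩) ⟨0, hd⟩
      rw [hAz, smul_pow, one_pow] at h1
      simpa using h1
    have hz1 : z = 1 := by
      obtain ⟨k, rfl⟩ := hodd
      rw [pow_succ, pow_mul, pow_two, hzz, one_pow, one_mul] at hzr
      exact hzr
    rw [hz1, one_smul] at hAz
    rw [hAz, sub_self, Matrix.rank_zero] at hrankA
    omega

/-- S5973-EXODD. -/
theorem exOdd : Cfsg.Agent.H49.Pt.StExOdd.{u} := by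
  intro F _ _ p _ _ d r hd hr hr2 hrp hodd A hA hle
  classical
  have hp : p.Prime := Fact.out
  have : Fact r.Prime := ⟨hr⟩
  have hrF : (r : F) ≠ 0 := by
    intro h0
    have h1 := (CharP.cast_eq_zero_iff F p r).mp h0
    exact hrp ((Nat.prime_dvd_prime_iff_eq hp hr).mp h1).symm
  obtain ⟨i, hi⟩ : ∃ i : ℕ, i = orderOf (Fintype.card F : ZMod r) := ⟨_, rfl⟩
  have hii : ii F r = i := by rw [hi]; rfl
  rw [hii] at hodd hle ⊢
  have hipos : 0 < i := by rw [hi]; exact Cfsg.Agent.H99.El.orderOf_card_pos r hr hrF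
  -- Cauchy in `GL_i(F)`
  have hdvd1 : r ∣ Fintype.card F ^ i - 1 := by
    have h1 : ((Fintype.card F : ZMod r)) ^ i = 1 := by rw [hi]; exact pow_orderOf_eq_one _
    have h3 : 1 ≤ Fintype.card F ^ i := Nat.one_le_pow _ _ Fintype.card_pos
    rw [← ZMod.natCast_eq_zero_iff, Nat.cast_sub h3, Nat.cast_pow, h1]
    simp
  have hdvd : r ∣ Nat.card (GL (Fin i) F) := by
    rw [Matrix.card_GL_field]
    have h4 : Fintype.card F ^ i - Fintype.card F ^ ((⟨0, hipos⟩ : Fin i) : ℕ) ∣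
        ∏ j : Fin i, (Fintype.card F ^ i - Fintype.card F ^ (j : ℕ)) :=
      Finset.dvd_prod_of_mem (fun j : Fin i => Fintype.card F ^ i - Fintype.card F ^ (j : ℕ))
        (Finset.mem_univ _)
    have h5 : Fintype.card F ^ ((⟨0, hipos⟩ : Fin i) : ℕ) = 1 := by simp
    rw [h5] at h4
    exact hdvd1.trans h4
  obtain ⟨g, hg⟩ := exists_prime_orderOf_dvd_card' r hdvd
  have hgr : g ^ r = 1 := by rw [← hg]; exact pow_orderOf_eq_one g
  obtain ⟨A₀, hA₀⟩ : ∃ A₀ : Matrix (Fin i) (Fin i) F, A₀ = (g : Matrix (Fin i) (Fin i) F) :=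
    ⟨_, rfl⟩
  obtain ⟨A₀', hA₀'⟩ : ∃ A₀' : Matrix (Fin i) (Fin i) F,
      A₀' = ((g⁻¹ : GL (Fin i) F) : Matrix (Fin i) (Fin i) F) := ⟨_, rfl⟩
  have h01 : A₀' * A₀ = 1 := by
    rw [hA₀, hA₀', ← Units.val_mul, inv_mul_cancel, Units.val_one]
  have h10 : A₀ * A₀' = 1 := by
    rw [hA₀, hA₀', ← Units.val_mul, mul_inv_cancel, Units.val_one]
  have hA₀r : A₀ ^ r = 1 := by
    rw [hA₀, ← Units.val_pow_eq_pow_val, hgr, Units.val_one]
  have hA₀'r : A₀' ^ r = 1 := by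
    rw [hA₀', ← Units.val_pow_eq_pow_val, inv_pow, hgr, inv_one, Units.val_one]
  have hA₀ne : A₀ ≠ 1 := by
    intro h
    have h1 : g = 1 := Units.ext (by rw [← hA₀, h, Units.val_one])
    rw [h1, orderOf_one] at hg
    exact hr.one_lt.ne hg
  have hrank₀ : (A₀ - 1).rank = i := by
    have hdiv := Cfsg.Agent.H53.Ten.order_dvd_rank_sub_one r hr hrF A₀ hA₀r
    rw [← hi] at hdiv
    have hle' : (A₀ - 1).rank ≤ i := by
      have := Matrix.rank_le_card_width (A₀ - 1)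
      simpa using this
    have hne : (A₀ - 1).rank ≠ 0 := by
      intro h0
      exact hA₀ne (sub_eq_zero.mp (eq_zero_of_rank_eq_zero _ h0))
    have := Nat.le_of_dvd (Nat.pos_of_ne_zero hne) hdiv
    omega
  have hunit₀ : IsUnit (A₀ - 1) := by
    rw [← Matrix.mulVec_injective_iff_isUnit]
    have h1 := rank_add_ker (A₀ - 1)
    rw [hrank₀, Fintype.card_fin] at h1
    have h2 : finrank F (LinearMap.ker (Matrix.toLin' (A₀ - 1))) = 0 := by omega
    have h3 : LinearMap.ker (Matrix.toLin' (A₀ - 1)) = ⊥ := Submodule.finrank_eq_zero.mp h2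
    exact LinearMap.ker_eq_bot.mp h3
  -- `A` diagonal copies
  obtain ⟨B₀, hB₀⟩ : ∃ B₀ : Matrix (Fin i × Fin A) (Fin i × Fin A) F,
      B₀ = Matrix.blockDiagonal (fun _ : Fin A => A₀) := ⟨_, rfl⟩
  obtain ⟨B₀', hB₀'⟩ : ∃ B₀' : Matrix (Fin i × Fin A) (Fin i × Fin A) F,
      B₀' = Matrix.blockDiagonal (fun _ : Fin A => A₀') := ⟨_, rfl⟩
  have hone : (1 : Matrix (Fin i × Fin A) (Fin i × Fin A) F) =
      Matrix.blockDiagonal (fun _ : Fin A => (1 : Matrix (Fin i) (Fin i) F)) :=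
    Matrix.blockDiagonal_one.symm
  have hb01 : B₀' * B₀ = 1 := by
    rw [hB₀, hB₀', ← Matrix.blockDiagonal_mul, hone]
    simp only [h01]
  have hb10 : B₀ * B₀' = 1 := by
    rw [hB₀, hB₀', ← Matrix.blockDiagonal_mul, hone]
    simp only [h10]
  have hb0r : B₀ ^ r = 1 := by
    rw [hB₀, ← Matrix.blockDiagonal_pow, hone]
    congr 1
    funext j
    rw [Pi.pow_apply, hA₀r]
  have hb0'r : B₀' ^ r = 1 := by
    rw [hB₀', ← Matrix.blockDiagonal_pow, hone]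
    congr 1
    funext j
    rw [Pi.pow_apply, hA₀'r]
  have hB₀sub : B₀ - 1 = Matrix.blockDiagonal (fun _ : Fin A => A₀ - 1) := by
    rw [hB₀, hone, ← Matrix.blockDiagonal_sub]
    rfl
  have hrankB₀ : (B₀ - 1).rank = i * A := by
    have hu : IsUnit (B₀ - 1) := by
      rw [Matrix.isUnit_iff_isUnit_det, hB₀sub, Matrix.det_blockDiagonal, Finset.prod_const]
      exact ((Matrix.isUnit_iff_isUnit_det _).mp hunit₀).pow _
    rw [Matrix.rank_of_isUnit _ hu]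
    simp
  have hk' : i * A + (d - i * A) = d := by omega
  obtain ⟨e, -⟩ : ∃ e : (Fin i × Fin A) ⊕ Fin (d - i * A) ≃ Fin d, e = e :=
    ⟨((Equiv.sumCongr finProdFinEquiv (Equiv.refl _)).trans finSumFinEquiv).trans
      (finCongr hk'), rfl⟩
  have hρ : 0 < i * A := Nat.mul_pos hipos (by omega)
  obtain ⟨x, hxiso, hxr, hxrank, hxns⟩ :=
    ex_of_blockP d r (d - i * A) e B₀ B₀' hb01 hb10 hb0r hb0'r (i * A) hρ hrankB₀
      (hr.odd_of_ne_two hr2) (by omega)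
  refine ⟨x, ?_, hxr, ?_, hxns⟩
  · have h5 : 5 ≤ finrank F (Fin d ⊕ Fin d → F) := by
      have h6 : finrank F (Fin d ⊕ Fin d → F) = 2 * d := Cfsg.Agent.H49.finrank_plus d F
      omega
    exact Cfsg.Agent.H28.Tm.oddMemAll' (Cfsg.Agent.H49.QP d F) (Cfsg.Agent.H49.QP_nondeg d F) h5 x r
      hxiso (hr.odd_of_ne_two hr2) hxr
  · have h1 := rank_add_ker ((x : Matrix (Fin d ⊕ Fin d) (Fin d ⊕ Fin d) F) - 1)
    have h2 : Matrix.toLin' ((x : Matrix (Fin d ⊕ Fin d) (Fin d ⊕ Fin d) F) - 1) =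
        Matrix.toLin' (x : Matrix (Fin d ⊕ Fin d) (Fin d ⊕ Fin d) F) - 1 := by
      rw [map_sub, Matrix.toLin'_one]
      rfl
    have h3 : Fintype.card (Fin d ⊕ Fin d) = 2 * d := by
      simp [Fintype.card_sum]
      ring
    rw [h2, hxrank, h3] at h1
    have h4 : 2 * i * A = 2 * (i * A) := by ring
    unfold fixDim
    omega

example : Cfsg.Agent.H49.Pt.StExOdd.{u} := exOdd

end Cfsg.Agent.H15.Pt

#print axioms Cfsg.Agent.H15.Pt.exOdd
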