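import Mathlib
import Cfsg.Agent.H15.PtBridge

/-!
# S5973-MEVEN (helper15, for helper49)

`mEven (hQS) (hW) (hTU) (hCP) : Cfsg.Agent.H49.Pt.StMEven`: for `i = ord_r(q)` even, `h = i / 2`,
the invariant totally singular subspaces of an isometry `y` of the plus-type form with `y ^ r = 1`.
-/

set_option autoImplicit false
open scoped MatrixGroups
open scoped Matrix

namespace Cfsg.Agent.H15.Pt

open Cfsg.Agent.H49.Pt Cfsg.Agent.H77.Tm Cfsg.Agent.H45 Cfsg.Agent.H42.Spd Cfsg.Agent.H42.Ti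
  Module Polynomial

universe u

/-- S5973-MEVEN. -/
theorem mEven (hQS : StQStruct.{u,u}) (hW : StQWitt.{u,u}) (hTU : StTypeU.{u,u})
    (hCP : StComplPlus.{u,u}) : Cfsg.Agent.H49.Pt.StMEven.{u} := by
  intro F _ _ p _ _ d r hr hr2 hrp hev Φs hΦ y hy hyr
  classical
  obtain ⟨Q, hQ⟩ : ∃ Q : QuadraticForm F (Fin d ⊕ Fin d → F), Q = Cfsg.Agent.H49.QP d F :=
    ⟨_, rfl⟩
  obtain ⟨T, hT⟩ : ∃ T : Module.End F (Fin d ⊕ Fin d → F),
      T = Matrix.toLin' (y : Matrix (Fin d ⊕ Fin d) (Fin d ⊕ Fin d) F) := ⟨_, rfl⟩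
  have hctx : QCtx r Q T := by
    rw [hQ, hT]
    exact qctx_of_isom p d r hr hr2 hrp y hy hyr
  obtain ⟨⟨hCU, hCUtop, hperp, hCnd, hUnd⟩, ⟨A, hA⟩, hup, hex⟩ :=
    hQS F (Fin d ⊕ Fin d → F) r Q T hctx
  have hTU' := hTU F (Fin d ⊕ Fin d → F) r Q T hctx hev A
  obtain ⟨i, hi⟩ : ∃ i : ℕ, i = ii F r := ⟨_, rfl⟩
  have hcc : cc F r = i := by
    have hev' : Even (orderOf (Fintype.card F : ZMod r)) := hev
    unfold cc
    rw [if_pos hev', hi]
    rfl
  rw [hcc] at hA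
  rw [← hi] at hev hup hex hTU' ⊢
  have hh : ∃ h : ℕ, i = h + h := hev
  obtain ⟨h, hh⟩ := hh
  obtain ⟨C, hC⟩ : ∃ C : Submodule F (Fin d ⊕ Fin d → F), C = LinearMap.ker (T - 1) :=
    ⟨_, rfl⟩
  obtain ⟨U, hU⟩ : ∃ U : Submodule F (Fin d ⊕ Fin d → F), U = LinearMap.range (T - 1) :=
    ⟨_, rfl⟩
  rw [← hC] at hCU hCUtop hperp hCnd hup
  rw [← hU] at hCU hCUtop hperp hUnd hup hex hA hTU'
  have hdimV : finrank F (Fin d ⊕ Fin d → F) = 2 * d := Cfsg.Agent.H49.finrank_plus d F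
  have hdims : finrank F ↥C + finrank F ↥U = 2 * d := by
    rw [hC, hU, dims T, hdimV]
  have hiA : i * A = h * A + h * A := by rw [hh]; ring
  have hi2 : i / 2 = h := by omega
  obtain ⟨n, hn⟩ : ∃ n : ℕ, n = h * A := ⟨_, rfl⟩
  rw [← hn] at hiA
  have hUdim : finrank F ↥U = n + n := by rw [hA, hiA]
  have hCdim : finrank F ↥C + (n + n) = 2 * d := by rw [← hUdim]; exact hdims
  have hU0ts : TS Q (Cfsg.Agent.H49.U0 d F) := by
    rw [hQ]; exact Cfsg.Agent.H49.U0_ts d F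
  have hU0dim : finrank F ↥(Cfsg.Agent.H49.U0 d F) = d := Cfsg.Agent.H49.finrank_U0 d F
  have hTUe := (hTU' hA).1
  have hTUo := (hTU' hA).2
  have hb : Odd A → n + 1 ≤ d := by
    intro hAo
    by_contra hcon
    have hUtop : U = ⊤ := by
      apply Submodule.eq_top_of_finrank_eq
      rw [hdimV, hUdim]; omega
    have h1 := hTUo hAo (Cfsg.Agent.H49.U0 d F) (by rw [hUtop]; exact le_top) hU0ts
    rw [hU0dim, hUdim] at h1
    omega
  refine ⟨A, ?_, ?_, ?_, ?_⟩
  · have h1 : Cfsg.Agent.H49.Pt.fixDim d y = finrank F ↥C := by rw [hC, hT]; rfl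
    rw [h1, hiA]
    exact hCdim
  · intro hAo
    rw [hi2, ← hn]
    exact hb hAo
  · intro j w hj hw
    rw [hi2, ← hn] at hw
    obtain ⟨WU, hWUle, hWUinv, hWUts, hWUdim⟩ := hex j
      (fun hodd => absurd hev (Nat.not_even_iff_odd.mpr hodd))
      (fun _ => hj.imp id (fun h1 => by
        rw [hA]
        exact Nat.mul_le_mul_left i (by omega)))
    have hJ : ∃ J : Submodule F (Fin d ⊕ Fin d → F), J ≤ C ∧ TS Q J ∧ finrank F ↥J = w := by
      rcases Nat.even_or_odd A with hAe | hAo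
      · rw [if_neg (Nat.not_odd_iff_even.mpr hAe)] at hw
        obtain ⟨L, hLU, hLts, hLdim⟩ := hTUe hAe
        obtain ⟨N, hNC, hNts, hNdim⟩ := hCP F (Fin d ⊕ Fin d → F) Q C U L
          (Cfsg.Agent.H49.U0 d F) hperp hUnd hLU hLts hLdim (by rw [hCUtop]; exact le_top) hU0ts
          (by rw [hCUtop, finrank_top, hU0dim, hdimV])
        obtain ⟨J, hJN, hJdim⟩ := Cfsg.Agent.H49.exists_le_finrank_eq' N w (by omega)
        exact ⟨J, hJN.trans hNC, ts_mono Q hJN hNts, hJdim⟩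
      · rw [if_pos hAo] at hw
        exact hW F (Fin d ⊕ Fin d → F) Q C w hCnd (by omega)
    obtain ⟨J, hJC, hJts, hJdim⟩ := hJ
    have hdisj : J ⊓ WU = ⊥ := by
      apply le_bot_iff.mp
      rw [← hCU]
      exact inf_le_inf hJC hWUle
    refine ⟨J ⊔ WU, ?_, ?_, ?_⟩
    · rw [finrank_sup_of_disjoint J WU hdisj, hJdim, hWUdim, add_comm]
    · have h1 := ts_sup Q J WU hJts hWUts (fun c hc u hu => hperp c (hJC hc) u (hWUle hu))
      intro v hv
      have h2 := h1 v hv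
      rw [hQ] at h2
      exact h2
    · have h0 : J ∈ T.invtSubmodule := fixed_mem_invt T J (by rw [← hC]; exact hJC)
      have h1 : J ⊔ WU ∈ T.invtSubmodule := Sublattice.sup_mem h0 hWUinv
      rw [Module.End.mem_invtSubmodule_iff_map_le, hT] at h1
      exact h1
  · intro W hWts hWinv
    have hWinv' : W ∈ T.invtSubmodule := by
      rw [Module.End.mem_invtSubmodule_iff_map_le, hT]; exact hWinv
    have hWts' : TS Q W := by rw [hQ]; exact hWts
    obtain ⟨s, hs1, hs2, hs3⟩ := hup W hWinv' hWts'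
    refine ⟨s, finrank F ↥(W ⊓ C), by rw [hs1, add_comm], ?_, ?_⟩
    · have h1 := hs3 hev Φs hΦ
      unfold Cfsg.Agent.H49.Pt.sDim
      rw [← hT, ← hi]
      exact h1
    · rw [hi2, ← hn]
      have hWCts : TS Q (W ⊓ C) := ts_mono Q inf_le_left hWts'
      rcases Nat.even_or_odd A with hAe | hAo
      · rw [if_neg (Nat.not_odd_iff_even.mpr hAe)]
        obtain ⟨L, hLU, hLts, hLdim⟩ := hTUe hAe
        have hdisj : (W ⊓ C) ⊓ L = ⊥ := by
          apply le_bot_iff.mp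
          rw [← hCU]
          exact inf_le_inf inf_le_right hLU
        have h1 := ts_sup Q (W ⊓ C) L hWCts hLts
          (fun c hc u hu => hperp c (Submodule.mem_inf.mp hc).2 u (hLU hu))
        have h2 : finrank F ↥((W ⊓ C) ⊔ L) ≤ d := by
          rw [hQ] at h1
          exact Cfsg.Agent.H49.IsTS.finrank_le_half (Cfsg.Agent.H49.QP_nondeg d F) hdimV h1
        rw [finrank_sup_of_disjoint _ _ hdisj] at h2
        omega
      · rw [if_pos hAo]
        have hb' := hb hAo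
        by_contra hcon
        obtain ⟨L', hL'le, hL'dim⟩ :=
          Cfsg.Agent.H49.exists_le_finrank_eq' (W ⊓ C) (d - n) (by omega)
        obtain ⟨N, hNU, hNts, hNdim⟩ := hCP F (Fin d ⊕ Fin d → F) Q U C L'
          (Cfsg.Agent.H49.U0 d F)
          (fun c hc u hu => by rw [QuadraticMap.polar_comm]; exact hperp u hu c hc) hCnd
          (hL'le.trans inf_le_right) (ts_mono Q hL'le hWCts) (by rw [hL'dim]; omega)
          (by rw [sup_comm, hCUtop]; exact le_top) hU0ts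
          (by rw [sup_comm, hCUtop, finrank_top, hU0dim, hdimV])
        have h1 := hTUo hAo N hNU hNts
        omega

example (hQS : StQStruct.{u,u}) (hW : StQWitt.{u,u}) (hTU : StTypeU.{u,u})
    (hCP : StComplPlus.{u,u}) : Cfsg.Agent.H49.Pt.StMEven.{u} := mEven hQS hW hTU hCP

end Cfsg.Agent.H15.Pt

#print axioms Cfsg.Agent.H15.Pt.mEven
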