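import Mathlib
import Cfsg.Agent.H51.RsDefs

/-!
# S2113 (helper51), piece RS-TWO (helper15)

An abelian subgroup `S` of order 8 normalised but not centralised by an element `y` with
`y ^ 7 = 1` has abelian preimage in every central extension.
-/

set_option autoImplicit false

namespace Cfsg.Agent.H15.Rs

open Cfsg.Agent.H96.Ro Cfsg.Agent.H51.Rs

universe v w

/-- commutators of lifts depend only on the images (central kernel) -/
theorem cm_congr' {Γ : Type w} {G : Type v} [Group Γ] [Group G] (σ : Γ →* G)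
    (hc : ∀ z : Γ, σ z = 1 → ∀ x : Γ, x * z = z * x) {x x' y y' : Γ}
    (hx : σ x = σ x') (hy : σ y = σ y') : cm x y = cm x' y' := by
  have h1 : ∀ z : Γ, σ z = 1 → ∀ u v : Γ, cm (u * z) v = cm u v := by
    intro z hz u v
    have e1 : cm (u * z) v = u * (z * v) * (z⁻¹ * u⁻¹) * v⁻¹ := by unfold cm; group
    rw [e1, ← hc z hz v]
    unfold cm; group
  have h2 : ∀ z : Γ, σ z = 1 → ∀ u v : Γ, cm u (v * z) = cm u v := by
    intro z hz u v
    have e1 : cm u (v * z) = u * v * (z * u⁻¹) * (z⁻¹ * v⁻¹) := by unfold cm; group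
    rw [e1, ← hc z hz u⁻¹]
    unfold cm; group
  have hzx : σ (x⁻¹ * x') = 1 := by rw [map_mul, map_inv, hx, inv_mul_cancel]
  have hzy : σ (y⁻¹ * y') = 1 := by rw [map_mul, map_inv, hy, inv_mul_cancel]
  calc cm x y = cm (x * (x⁻¹ * x')) (y * (y⁻¹ * y')) := by rw [h1 _ hzx, h2 _ hzy]
    _ = cm x' y' := by
      have e1 : x * (x⁻¹ * x') = x' := by group
      have e2 : y * (y⁻¹ * y') = y' := by group
      rw [e1, e2]

/-- **RS-TWO**. -/
theorem two : StTwo.{v, w} := by
  rintro G _ S y hS hab hnorm hy7 ⟨a, haS, hya⟩ Γ _ σ hσ hc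
  classical
  have hfin : Finite ↥S := Nat.finite_of_card_ne_zero (by rw [hS]; norm_num)
  have hFt : Fintype ↥S := Fintype.ofFinite _
  -- the conjugates of `a`
  obtain ⟨A, hAdef⟩ : ∃ A : ℕ → G, ∀ n, A n = y ^ n * a * (y ^ n)⁻¹ :=
    ⟨fun n => y ^ n * a * (y ^ n)⁻¹, fun n => rfl⟩
  have hA0 : A 0 = a := by rw [hAdef, pow_zero, one_mul, inv_one, mul_one]
  have hAsucc : ∀ n, A (n + 1) = y * A n * y⁻¹ := by
    intro n
    rw [hAdef, hAdef, pow_succ']
    group
  have hAS : ∀ n, A n ∈ S := by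
    intro n
    induction n with
    | zero => rw [hA0]; exact haS
    | succ n ih => rw [hAsucc]; exact hnorm _ ih
  have hA7 : ∀ n, A (n + 7) = A n := by
    intro n
    rw [hAdef, hAdef, pow_add, hy7, mul_one]
  have hAadd : ∀ i t, A (i + t) = y ^ i * A t * (y ^ i)⁻¹ := by
    intro i t
    rw [hAdef, hAdef, pow_add]
    group
  have ha1 : a ≠ 1 := by
    rintro rfl
    apply hya
    group
  have hAne : ∀ n, A n ≠ 1 := by
    intro n h
    apply ha1
    rw [hAdef, mul_inv_eq_iff_eq_mul, one_mul] at h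
    exact mul_left_cancel (h.trans (mul_one _).symm)
  have hAt : ∀ t, 0 < t → t < 7 → A t ≠ a := by
    intro t ht0 ht7 h
    rw [hAdef, mul_inv_eq_iff_eq_mul] at h
    obtain ⟨m, hm⟩ : ∃ m, t * m % 7 = 1 := by
      interval_cases t
      exacts [⟨1, rfl⟩, ⟨4, rfl⟩, ⟨5, rfl⟩, ⟨2, rfl⟩, ⟨3, rfl⟩, ⟨6, rfl⟩]
    have hyp : (y ^ t) ^ m = y := by
      rw [← pow_mul]
      have e : t * m = 7 * (t * m / 7) + 1 := by omega
      rw [e, pow_add, pow_mul, hy7, one_pow, one_mul, pow_one]
    have hC : Commute (y ^ t) a := h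
    have hC2 := hC.pow_left m
    rw [hyp] at hC2
    apply hya
    rw [hC2.eq]
    group
  have hAinj : ∀ i j, i < j → j < 7 → A i ≠ A j := by
    intro i j hij hj7 h
    have hj : j = i + (j - i) := by omega
    rw [hj, hAadd] at h
    have h0 : A i = y ^ i * a * (y ^ i)⁻¹ := hAdef i
    rw [h0] at h
    have h1 : a = A (j - i) := mul_left_cancel (mul_right_cancel h)
    exact hAt (j - i) (by omega) (by omega) h1.symm
  -- every non-identity element of `S` is a conjugate of `a`
  have hSurj : ∀ s ∈ S, s ≠ 1 → ∃ n, n < 7 ∧ A n = s := by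
    intro s hs hs1
    obtain ⟨f, hf⟩ : ∃ f : ℕ → ↥S, ∀ n, (f n : G) = A n :=
      ⟨fun n => ⟨A n, hAS n⟩, fun n => rfl⟩
    have hinj : Set.InjOn f (Finset.range 7 : Set ℕ) := by
      intro i hi j hj hij
      have hij' : A i = A j := by rw [← hf i, ← hf j, hij]
      simp only [Finset.coe_range, Set.mem_Iio] at hi hj
      rcases Nat.lt_trichotomy i j with h | h | h
      · exact absurd hij' (hAinj i j h hj)
      · exact h
      · exact absurd hij'.symm (hAinj j i h hi)
    have hcard : ((Finset.range 7).image f).card = 7 := by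
      rw [Finset.card_image_of_injOn hinj, Finset.card_range]
    have hsub : (Finset.range 7).image f ⊆ (Finset.univ : Finset ↥S).erase 1 := by
      intro x hx
      obtain ⟨n, -, rfl⟩ := Finset.mem_image.mp hx
      rw [Finset.mem_erase]
      refine ⟨?_, Finset.mem_univ _⟩
      intro h
      apply hAne n
      rw [← hf n, h]
      rfl
    have hcard2 : ((Finset.univ : Finset ↥S).erase 1).card = 7 := by
      rw [Finset.card_erase_of_mem (Finset.mem_univ _), Finset.card_univ,
        ← Nat.card_eq_fintype_card, hS]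
    have heq := Finset.eq_of_subset_of_card_le hsub (by rw [hcard, hcard2])
    have hmem : (⟨s, hs⟩ : ↥S) ∈ (Finset.univ : Finset ↥S).erase 1 := by
      rw [Finset.mem_erase]
      refine ⟨?_, Finset.mem_univ _⟩
      intro h
      exact hs1 (congrArg (fun t : ↥S => (t : G)) h)
    rw [← heq] at hmem
    obtain ⟨n, hn, hn'⟩ := Finset.mem_image.mp hmem
    refine ⟨n, Finset.mem_range.mp hn, ?_⟩
    rw [← hf n, hn']
  -- all non-identity elements are involutions
  have haa : a * a = 1 := by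
    obtain ⟨x, hx⟩ := exists_prime_orderOf_dvd_card' (G := ↥S) 2 (by rw [hS]; norm_num)
    have hx1 : (x : G) ≠ 1 := by
      intro h
      have h2 : x = 1 := Subtype.ext h
      rw [h2, orderOf_one] at hx
      norm_num at hx
    have hxx : (x : G) * (x : G) = 1 := by
      have h1 : x ^ 2 = 1 := by rw [← hx]; exact pow_orderOf_eq_one x
      have h2 := congrArg (fun t : ↥S => (t : G)) h1
      simpa [pow_two] using h2
    obtain ⟨n, -, hn⟩ := hSurj x x.2 hx1
    rw [← hn, hAdef] at hxx
    have e : a * a =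
        (y ^ n)⁻¹ * (y ^ n * a * (y ^ n)⁻¹ * (y ^ n * a * (y ^ n)⁻¹)) * y ^ n := by group
    rw [e, hxx]
    group
  have hAA : ∀ n, A n * A n = 1 := by
    intro n
    rw [hAdef]
    have e : y ^ n * a * (y ^ n)⁻¹ * (y ^ n * a * (y ^ n)⁻¹) = y ^ n * (a * a) * (y ^ n)⁻¹ := by
      group
    rw [e, haa]
    group
  -- `a * A 1 = A k`
  obtain ⟨k, hk7, hk⟩ : ∃ k, k < 7 ∧ A k = a * A 1 := by
    apply hSurj (a * A 1) (S.mul_mem haS (hAS 1))
    intro h
    have h1 : A 1 = a := by
      have e : A 1 = a⁻¹ * (a * A 1) := by group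
      rw [e, h, mul_one]
      exact inv_eq_of_mul_eq_one_left haa
    exact hAt 1 (by norm_num) (by norm_num) h1
  have hk0 : k ≠ 0 := by
    rintro rfl
    rw [hA0] at hk
    apply hAne 1
    have e : A 1 = a⁻¹ * (a * A 1) := by group
    rw [e, ← hk]
    group
  have hk1 : k ≠ 1 := by
    rintro rfl
    apply ha1
    have e : a = a * A 1 * (A 1)⁻¹ := by group
    rw [e, ← hk]
    group
  -- lifts
  obtain ⟨Y, hY⟩ := hσ y
  obtain ⟨α, hα⟩ := hσ a
  obtain ⟨W, hWdef⟩ : ∃ W : ℕ → Γ, ∀ n, W n = Y ^ n * α * (Y ^ n)⁻¹ :=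
    ⟨fun n => Y ^ n * α * (Y ^ n)⁻¹, fun n => rfl⟩
  have hσW : ∀ n, σ (W n) = A n := by
    intro n
    rw [hWdef, hAdef, map_mul, map_mul, map_inv, map_pow, hY, hα]
  have hWsucc : ∀ n, W (n + 1) = Y * W n * Y⁻¹ := by
    intro n
    rw [hWdef, hWdef, pow_succ']
    group
  have hcen : ∀ i j, σ (cm (W i) (W j)) = 1 := by
    intro i j
    rw [cm_map, hσW, hσW, cm_eq_one_iff]
    exact hab _ (hAS i) _ (hAS j)
  have hcm : ∀ x x' u u' : Γ, σ x = σ x' → σ u = σ u' → cm x u = cm x' u' :=
    fun x x' u u' h1 h2 => cm_congr' σ hc h1 h2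
  have hmulR : ∀ x u v : Γ, σ x ∈ S → σ u ∈ S → σ v ∈ S →
      cm x (u * v) = cm x u * cm x v := by
    intro x u v hx hu hv
    have h1 : σ (cm x v) = 1 := by
      rw [cm_map, cm_eq_one_iff]
      exact hab _ hx _ hv
    have h2 : u * cm x v = cm x v * u := hc _ h1 u
    rw [cm_mul_right, h2]
    group
  have hWS : ∀ n, σ (W n) ∈ S := by
    intro n
    rw [hσW]
    exact hAS n
  have hshift : ∀ i j, cm (W (i + 1)) (W (j + 1)) = cm (W i) (W j) := by
    intro i j
    have h2 : Y * cm (W i) (W j) = cm (W i) (W j) * Y := hc _ (hcen i j) Y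
    rw [hWsucc, hWsucc, ← cm_conj, h2]
    group
  have hshiftn : ∀ n i j, cm (W (i + n)) (W (j + n)) = cm (W i) (W j) := by
    intro n
    induction n with
    | zero => intro i j; rfl
    | succ n ih =>
      intro i j
      rw [← add_assoc, ← add_assoc, hshift, ih]
  have hsq : ∀ i j, cm (W i) (W j) * cm (W i) (W j) = 1 := by
    intro i j
    rw [← hmulR _ _ _ (hWS i) (hWS j) (hWS j)]
    have h1 : σ (W j * W j) = σ 1 := by rw [map_mul, hσW, hAA, map_one]
    rw [hcm _ _ _ _ rfl h1, cm_one_right]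
  have hsymm : ∀ i j, cm (W j) (W i) = cm (W i) (W j) := by
    intro i j
    rw [← cm_inv]
    exact inv_eq_of_mul_eq_one_left (hsq i j)
  have hper : ∀ i j, cm (W i) (W (j + 7)) = cm (W i) (W j) := by
    intro i j
    exact hcm _ _ _ _ rfl (by rw [hσW, hσW, hA7])
  have hrel : ∀ j, cm (W j) (W k) = cm (W j) (W 0) * cm (W j) (W 1) := by
    intro j
    rw [← hmulR _ _ _ (hWS j) (hWS 0) (hWS 1)]
    exact hcm _ _ _ _ rfl (by rw [map_mul, hσW, hσW, hσW, hk, hA0])
  -- the function `d`
  obtain ⟨d, hd⟩ : ∃ d : ℕ → Γ, ∀ n, d n = cm (W 0) (W n) :=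
    ⟨fun n => cm (W 0) (W n), fun n => rfl⟩
  have hD1 : ∀ i t, cm (W i) (W (i + t)) = d t := by
    intro i t
    have h1 := hshiftn i 0 t
    rw [zero_add] at h1
    rw [hd, add_comm i t]
    exact h1
  have hD2 : ∀ i t, cm (W (i + t)) (W i) = d t := by
    intro i t
    rw [hsymm]
    exact hD1 i t
  have hd0 : d 0 = 1 := by
    rw [hd]
    unfold cm
    group
  have hdd : ∀ n, d n * d n = 1 := by
    intro n
    rw [hd]
    exact hsq 0 n
  have hdrefl : ∀ s t, s + t = 7 → d s = d t := by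
    intro s t hst
    have h1 := hshiftn t 0 s
    rw [zero_add, hst] at h1
    have h2 := hper t 0
    rw [zero_add] at h2
    have h3 := hD2 0 t
    rw [zero_add] at h3
    rw [hd s, ← h1, h2, h3]
  have hDle : ∀ i j, i ≤ j → cm (W i) (W j) = d (j - i) := by
    intro i j h
    have h1 := hD1 i (j - i)
    rw [Nat.add_sub_cancel' h] at h1
    exact h1
  have hDge : ∀ i j, j ≤ i → cm (W i) (W j) = d (i - j) := by
    intro i j h
    have h1 := hD2 j (i - j)
    rw [Nat.add_sub_cancel' h] at h1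
    exact h1
  have hR : ∀ j, d (if j ≤ k then k - j else j - k) =
      d j * d (if j ≤ 1 then 1 - j else j - 1) := by
    intro j
    have h1 := hrel j
    have e1 : cm (W j) (W k) = d (if j ≤ k then k - j else j - k) := by
      split_ifs with h
      · exact hDle j k h
      · exact hDge j k (by omega)
    have e2 : cm (W j) (W 0) = d j := by
      have h2 := hDge j 0 (Nat.zero_le j)
      rwa [Nat.sub_zero] at h2
    have e3 : cm (W j) (W 1) = d (if j ≤ 1 then 1 - j else j - 1) := by
      split_ifs with h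
      · exact hDle j 1 h
      · exact hDge j 1 (by omega)
    rw [e1, e2, e3] at h1
    exact h1
  have e4 : d 4 = d 3 := hdrefl 4 3 rfl
  have e5 : d 5 = d 2 := hdrefl 5 2 rfl
  have e6 : d 6 = d 1 := hdrefl 6 1 rfl
  have h123 : d 1 = 1 ∧ d 2 = 1 ∧ d 3 = 1 := by
    have hk2 : 2 ≤ k := by omega
    interval_cases k
    · -- k = 2
      have h0 : d 2 = d 0 * d 1 := by have h := hR 0; norm_num at h; exact h
      have h3 : d 1 = d 3 * d 2 := by have h := hR 3; norm_num at h; exact h
      have h4 : d 2 = d 4 * d 3 := by have h := hR 4; norm_num at h; exact h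
      rw [hd0, one_mul] at h0
      rw [e4, hdd 3] at h4
      have x1 : d 1 = 1 := h0.symm.trans h4
      rw [x1, h4, mul_one] at h3
      exact ⟨x1, h4, h3.symm⟩
    · -- k = 3
      have h0 : d 3 = d 0 * d 1 := by have h := hR 0; norm_num at h; exact h
      have h1 : d 2 = d 1 * d 0 := by have h := hR 1; norm_num at h; exact h
      have h2 : d 2 = 1 := by have h := hR 2; norm_num at h; exact h
      rw [hd0, one_mul] at h0
      rw [hd0, mul_one] at h1
      have x1 : d 1 = 1 := h1.symm.trans h2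
      exact ⟨x1, h2, h0.trans x1⟩
    · -- k = 4
      have h0 : d 4 = d 0 * d 1 := by have h := hR 0; norm_num at h; exact h
      have h2 : d 1 = 1 := by have h := hR 2; norm_num at h; exact h
      have h3 : d 1 = d 3 * d 2 := by have h := hR 3; norm_num at h; exact h
      rw [hd0, one_mul, e4] at h0
      have x1 : d 1 = 1 := h2
      have x3 : d 3 = 1 := h0.trans x1
      rw [x1, x3, one_mul] at h3
      exact ⟨x1, h3.symm, x3⟩
    · -- k = 5
      have h0 : d 5 = d 0 * d 1 := by have h := hR 0; norm_num at h; exact h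
      have h1 : d 4 = d 1 * d 0 := by have h := hR 1; norm_num at h; exact h
      have h2 : d 3 = d 2 * d 1 := by have h := hR 2; norm_num at h; exact h
      rw [hd0, one_mul, e5] at h0
      rw [hd0, mul_one, e4] at h1
      rw [h0, hdd 1] at h2
      have x1 : d 1 = 1 := h1.symm.trans h2
      exact ⟨x1, h0.trans x1, h2⟩
    · -- k = 6
      have h1 : d 5 = d 1 * d 0 := by have h := hR 1; norm_num at h; exact h
      have h2 : d 4 = d 2 * d 1 := by have h := hR 2; norm_num at h; exact h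
      have h3 : d 2 = 1 := by have h := hR 3; norm_num at h; exact h
      rw [hd0, mul_one, e5] at h1
      have x2 : d 2 = 1 := h3
      have x1 : d 1 = 1 := h1.symm.trans x2
      rw [e4, x2, x1, mul_one] at h2
      exact ⟨x1, x2, h2⟩
  obtain ⟨x1, x2, x3⟩ := h123
  have hdall : ∀ n, n < 7 → d n = 1 := by
    intro n hn
    interval_cases n
    · exact hd0
    · exact x1
    · exact x2
    · exact x3
    · exact e4.trans x3
    · exact e5.trans x2
    · exact e6.trans x1
  have hDall : ∀ i j, i < 7 → j < 7 → cm (W i) (W j) = 1 := by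
    intro i j hi hj
    rcases Nat.le_total i j with h | h
    · rw [hDle i j h]
      exact hdall _ (by omega)
    · rw [hDge i j h]
      exact hdall _ (by omega)
  intro a' b' ha' hb'
  by_cases h1 : σ a' = 1
  · exact (hc a' h1 b').symm
  by_cases h2 : σ b' = 1
  · exact hc b' h2 a'
  obtain ⟨i, hi, hi'⟩ := hSurj _ ha' h1
  obtain ⟨j, hj, hj'⟩ := hSurj _ hb' h2
  rw [← cm_eq_one_iff, hcm a' (W i) b' (W j) (by rw [hσW, hi']) (by rw [hσW, hj'])]
  exact hDall i j hi hj

example : Cfsg.Agent.H51.Rs.StTwo.{v, w} := two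

end Cfsg.Agent.H15.Rs

#print axioms Cfsg.Agent.H15.Rs.two
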