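import Cfsg.Agent.H99.S4Defs

set_option autoImplicit false

/-!
# S6000 (helper99), pieces NT5 and ROOT5
-/

namespace Cfsg.Agent.H15.S4

open Cfsg.Agent.H99.S4

universe u

theorem orderOf_two_zmod5 : orderOf ((2 : ℕ) : ZMod 5) = 4 := by
  rw [orderOf_eq_iff (by norm_num)]
  refine ⟨by decide, ?_⟩
  intro m hm hpos
  interval_cases m <;> decide

theorem orderOf_three_zmod5 : orderOf ((3 : ℕ) : ZMod 5) = 4 := by
  rw [orderOf_eq_iff (by norm_num)]
  refine ⟨by decide, ?_⟩
  intro m hm hpos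
  interval_cases m <;> decide

theorem nt5 : StNT5 := by
  intro p hp hp5 hord
  have h0 : p % 5 ≠ 0 := by
    intro h
    have h5 : 5 ∣ p := Nat.dvd_of_mod_eq_zero h
    exact hp5 ((Nat.prime_dvd_prime_iff_eq (by norm_num) hp).mp h5).symm
  have hcast : (p : ZMod 5) = ((p % 5 : ℕ) : ZMod 5) := by
    rw [ZMod.natCast_eq_natCast_iff']
    simp
  have hlt : p % 5 < 5 := Nat.mod_lt _ (by norm_num)
  by_contra hcon
  push Not at hcon
  have h23 : p % 5 = 2 ∨ p % 5 = 3 := by omega
  apply hord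
  rw [hcast]
  rcases h23 with h | h
  · rw [h]; exact orderOf_two_zmod5
  · rw [h]; exact orderOf_three_zmod5

example : Cfsg.Agent.H99.S4.StNT5 := nt5

theorem root5 : StRoot5.{u} := by
  classical
  intro F _ _ hord l
  have hq : ¬ 5 ∣ Fintype.card F - 1 := by
    intro h
    have h1 : ((Fintype.card F : ℕ) : ZMod 5) = 1 := by
      have hpos : 1 ≤ Fintype.card F := Fintype.card_pos
      have h2 : ((Fintype.card F : ℕ) : ZMod 5) = ((1 : ℕ) : ZMod 5) := by
        rw [ZMod.natCast_eq_natCast_iff']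
        omega
      rw [h2, Nat.cast_one]
    rw [h1, orderOf_one] at hord
    omega
  by_cases hl : l = 0
  · exact ⟨0, by rw [hl]; simp⟩
  · have hcop : (Nat.card Fˣ).Coprime 5 := by
      rw [Nat.card_eq_fintype_card, Fintype.card_units]
      exact ((Nat.Prime.coprime_iff_not_dvd (by norm_num)).mpr hq).symm
    obtain ⟨v, hv⟩ := (powCoprime hcop).surjective (Units.mk0 l hl)
    refine ⟨(v : F), ?_⟩
    have h1 : v ^ 5 = Units.mk0 l hl := hv
    have h2 := congrArg Units.val h1
    rw [Units.val_pow_eq_pow_val, Units.val_mk0] at h2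
    exact h2

example : Cfsg.Agent.H99.S4.StRoot5.{u} := root5

end Cfsg.Agent.H15.S4
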