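import Cfsg.Agent.H99.S4Defs

set_option autoImplicit false

/-!
# S6000 (helper99), pieces W3 and W5: the witnesses of order three and five
-/

namespace Cfsg.Agent.H15.S4

open Cfsg.Agent.H99.S4

universe u

theorem w3 : StW3.{u} := by
  classical
  intro F _ _ h3
  have : Fact (Nat.Prime 3) := ⟨by norm_num⟩
  have hdvd : 3 ∣ Nat.card Fˣ := by
    rw [Nat.card_eq_fintype_card, Fintype.card_units]; exact h3
  obtain ⟨v, hv⟩ := exists_prime_orderOf_dvd_card' 3 hdvd
  obtain ⟨ω, hωdef⟩ : ∃ ω : F, ω = (v : F) := ⟨_, rfl⟩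
  have hω3 : ω ^ 3 = 1 := by
    rw [hωdef, ← Units.val_pow_eq_pow_val, ← hv, pow_orderOf_eq_one, Units.val_one]
  have hω1 : ω ≠ 1 := by
    intro h
    have h1 : v = 1 := Units.ext (by rw [← hωdef, h, Units.val_one])
    rw [h1, orderOf_one] at hv
    omega
  have hω : ω ^ 2 + ω + 1 = 0 := by
    have h1 : (ω - 1) * (ω ^ 2 + ω + 1) = 0 := by linear_combination hω3
    rcases mul_eq_zero.mp h1 with h | h
    · exact absurd (sub_eq_zero.mp h) hω1
    · exact h
  refine ⟨Matrix.diagonal ![ω, ω, ω, 1], ?_, ?_, ?_, ?_⟩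
  · rw [Matrix.det_diagonal, Fin.prod_univ_four]
    simp
    linear_combination hω3
  · rw [Matrix.diagonal_pow, ← Matrix.diagonal_one]
    congr 1
    funext i
    fin_cases i <;> simp [hω3]
  · intro t ht
    have h0 := congrFun (congrFun ht 0) 0
    have h3' := congrFun (congrFun ht 3) 3
    simp at h0 h3'
    exact hω1 (h0.trans h3'.symm)
  · rw [Matrix.diagonal_mul_diagonal, Matrix.trace_diagonal, Matrix.trace_diagonal,
      Fin.sum_univ_four, Fin.sum_univ_four]
    simp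
    linear_combination 9 * hω3 + 3 * hω

example : Cfsg.Agent.H99.S4.StW3.{u} := w3

theorem w5 : StW5.{u} := by
  intro F _ τ hτ
  obtain ⟨x, hx⟩ : ∃ x : M4 F, x = !![0, -1, 0, 0; 1, τ, 0, 0; 0, 0, 1, 0; 0, 0, 0, 1] :=
    ⟨_, rfl⟩
  obtain ⟨z, hz⟩ : ∃ z : M4 F, z = !![-1, -τ, 0, 0; τ, -τ, 0, 0; 0, 0, 1, 0; 0, 0, 0, 1] :=
    ⟨_, rfl⟩
  obtain ⟨y, hy⟩ : ∃ y : M4 F, y = !![τ, 1, 0, 0; -1, 0, 0, 0; 0, 0, 1, 0; 0, 0, 0, 1] :=
    ⟨_, rfl⟩
  have h2 : x * x = z := by
    rw [hx, hz]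
    ext i j
    fin_cases i <;> fin_cases j <;>
      (simp [Matrix.mul_apply, Fin.sum_univ_four] <;>
        first | linear_combination hτ | linear_combination -hτ | ring)
  have h4 : z * z = y := by
    rw [hz, hy]
    ext i j
    fin_cases i <;> fin_cases j <;>
      (simp [Matrix.mul_apply, Fin.sum_univ_four] <;>
        first | linear_combination hτ | linear_combination -hτ | ring)
  have h5 : y * x = 1 := by
    rw [hx, hy]
    ext i j
    fin_cases i <;> fin_cases j <;>
      (simp [Matrix.mul_apply, Fin.sum_univ_four] <;>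
        first | linear_combination hτ | linear_combination -hτ | ring)
  have hx4 : x ^ 4 = y := by
    have h : x ^ 4 = (x * x) * (x * x) := by
      simp only [pow_succ, pow_zero, one_mul, mul_assoc]
    rw [h, h2, h4]
  refine ⟨x, ?_, ?_, ?_, ?_, ?_⟩
  · rw [hx, Matrix.det_succ_row_zero]
    simp [Fin.sum_univ_succ, Matrix.det_fin_three, Fin.succAbove]
  · rw [pow_succ, hx4, h5]
  · intro t ht
    have h0 := congrFun (congrFun ht 0) 0
    have h3' := congrFun (congrFun ht 2) 2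
    rw [hx] at h0 h3'
    simp at h0 h3'
    rw [← h0] at h3'
    exact one_ne_zero h3'
  · rw [hx, Matrix.trace, Fin.sum_univ_four]
    simp
    ring
  · rw [hx4, hy, Matrix.trace, Fin.sum_univ_four]
    simp
    ring

example : Cfsg.Agent.H99.S4.StW5.{u} := w5

end Cfsg.Agent.H15.S4
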