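import Cfsg.Agent.Lib.Helper96.TWDefs

set_option autoImplicit false

/-!
# S5707 (helper96), piece ALG

The algebra of the local operators `loc`, the pure tensors `pureM` and the factor permutations
`permM`.
-/

namespace Cfsg.Agent.H15.TW

open Cfsg.Agent.Lib.Helper96.TW

universe u

variable {F : Type u} [Field F] {k t : ℕ}

theorem sum_update {M : Type*} [AddCommMonoid M] (x : Idx k t) (j : Fin t) (f : Idx k t → M)
    (hf : ∀ z, (∃ i, i ≠ j ∧ x i ≠ z i) → f z = 0) :
    ∑ z, f z = ∑ p : Fin k, f (Function.update x j p) := by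
  classical
  rw [← Finset.sum_image (s := Finset.univ) (g := fun p : Fin k => Function.update x j p) (f := f)]
  · symm
    apply Finset.sum_subset (Finset.subset_univ _)
    intro z _ hz
    apply hf
    by_contra hcon
    push Not at hcon
    apply hz
    rw [Finset.mem_image]
    refine ⟨z j, Finset.mem_univ _, ?_⟩
    funext i
    by_cases hi : i = j
    · subst hi; simp
    · rw [Function.update_of_ne hi]; exact hcon i hi
  · intro p _ q _ h
    have := congrFun h j
    simpa using this

theorem loc_apply (j : Fin t) (A : Matrix (Fin k) (Fin k) F) (x y : Idx k t) :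
    loc j A x y = if (∀ i, i ≠ j → x i = y i) then A (x j) (y j) else 0 := rfl

theorem pureM_apply (gs : Fin t → Matrix (Fin k) (Fin k) F) (x y : Idx k t) :
    pureM gs x y = ∏ i, gs i (x i) (y i) := rfl

theorem permM_apply (σ : Equiv.Perm (Fin t)) (x y : Idx k t) :
    permM F k t σ x y = if y = x ∘ σ then 1 else 0 := rfl

theorem loc_eq_zero (j : Fin t) (A : Matrix (Fin k) (Fin k) F) (x z : Idx k t)
    (h : ∃ i, i ≠ j ∧ x i ≠ z i) : loc j A x z = 0 := by
  rw [loc_apply, if_neg]
  intro hcon
  obtain ⟨i, hi, hne⟩ := h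
  exact hne (hcon i hi)

theorem loc_update_right (j : Fin t) (A : Matrix (Fin k) (Fin k) F) (x : Idx k t) (p : Fin k) :
    loc j A x (Function.update x j p) = A (x j) p := by
  rw [loc_apply, if_pos, Function.update_self]
  intro i hi
  rw [Function.update_of_ne hi]

theorem loc_update_left (j : Fin t) (A : Matrix (Fin k) (Fin k) F) (y : Idx k t) (p : Fin k) :
    loc j A (Function.update y j p) y = A p (y j) := by
  rw [loc_apply, if_pos, Function.update_self]
  intro i hi
  rw [Function.update_of_ne hi]

theorem loc_update_gen (j : Fin t) (B : Matrix (Fin k) (Fin k) F) (x y : Idx k t) (p : Fin k) :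
    loc j B (Function.update x j p) y = if (∀ i, i ≠ j → x i = y i) then B p (y j) else 0 := by
  rw [loc_apply, Function.update_self]
  have h : (∀ i, i ≠ j → Function.update x j p i = y i) ↔ (∀ i, i ≠ j → x i = y i) := by
    constructor
    · intro h i hi
      have := h i hi
      rwa [Function.update_of_ne hi] at this
    · intro h i hi
      rw [Function.update_of_ne hi]
      exact h i hi
  exact if_congr h rfl rfl

theorem sum_loc_left (j : Fin t) (A : Matrix (Fin k) (Fin k) F) (x : Idx k t)
    (g : Idx k t → F) :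
    ∑ z, loc j A x z * g z = ∑ p : Fin k, A (x j) p * g (Function.update x j p) := by
  rw [sum_update x j]
  · refine Finset.sum_congr rfl fun p _ => ?_
    rw [loc_update_right]
  · intro z hz
    rw [loc_eq_zero j A x z hz, zero_mul]

theorem sum_loc_right (j : Fin t) (A : Matrix (Fin k) (Fin k) F) (y : Idx k t)
    (g : Idx k t → F) :
    ∑ z, g z * loc j A z y = ∑ p : Fin k, g (Function.update y j p) * A p (y j) := by
  rw [sum_update y j]
  · refine Finset.sum_congr rfl fun p _ => ?_
    rw [loc_update_left]
  · intro z hz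
    have : loc j A z y = 0 := by
      apply loc_eq_zero
      obtain ⟨i, hi, hne⟩ := hz
      exact ⟨i, hi, fun h => hne h.symm⟩
    rw [this, mul_zero]

theorem loc_one (j : Fin t) :
    (loc j (1 : Matrix (Fin k) (Fin k) F) : Matrix (Idx k t) (Idx k t) F) = 1 := by
  ext x y
  rw [loc_apply]
  by_cases h : x = y
  · subst h
    rw [if_pos (fun _ _ => rfl), Matrix.one_apply_eq, Matrix.one_apply_eq]
  · rw [Matrix.one_apply_ne h]
    by_cases hc : ∀ i, i ≠ j → x i = y i
    · rw [if_pos hc, Matrix.one_apply_ne]
      intro hj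
      apply h
      funext i
      by_cases hi : i = j
      · rw [hi]; exact hj
      · exact hc i hi
    · rw [if_neg hc]

theorem loc_mul (j : Fin t) (A B : Matrix (Fin k) (Fin k) F) :
    (loc j (A * B) : Matrix (Idx k t) (Idx k t) F) = loc j A * loc j B := by
  ext x y
  rw [Matrix.mul_apply, sum_loc_left]
  simp only [loc_update_gen]
  rw [loc_apply]
  split_ifs with h
  · rw [Matrix.mul_apply]
  · simp

theorem loc_add (j : Fin t) (A B : Matrix (Fin k) (Fin k) F) :
    (loc j (A + B) : Matrix (Idx k t) (Idx k t) F) = loc j A + loc j B := by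
  ext x y
  rw [Matrix.add_apply, loc_apply, loc_apply, loc_apply]
  split_ifs with h
  · rw [Matrix.add_apply]
  · rw [add_zero]

theorem loc_smul (j : Fin t) (s : F) (A : Matrix (Fin k) (Fin k) F) :
    (loc j (s • A) : Matrix (Idx k t) (Idx k t) F) = s • loc j A := by
  ext x y
  rw [Matrix.smul_apply, loc_apply, loc_apply]
  split_ifs with h
  · rw [Matrix.smul_apply]
  · rw [smul_zero]

theorem loc_mul_loc (i j : Fin t) (hij : i ≠ j) (A B : Matrix (Fin k) (Fin k) F)
    (x y : Idx k t) :
    (loc i A * loc j B : Matrix (Idx k t) (Idx k t) F) x y =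
      if (∀ l, l ≠ i → l ≠ j → x l = y l) then A (x i) (y i) * B (x j) (y j) else 0 := by
  rw [Matrix.mul_apply, sum_loc_left]
  by_cases hc : ∀ l, l ≠ i → l ≠ j → x l = y l
  · rw [if_pos hc, Finset.sum_eq_single (y i)]
    · rw [loc_apply, if_pos, Function.update_of_ne hij.symm]
      intro l hl
      by_cases hli : l = i
      · subst hli; rw [Function.update_self]
      · rw [Function.update_of_ne hli]; exact hc l hli hl
    · intro p _ hp
      rw [loc_apply, if_neg, mul_zero]
      intro h
      have := h i hij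
      rw [Function.update_self] at this
      exact hp this
    · intro h; exact absurd (Finset.mem_univ _) h
  · rw [if_neg hc]
    refine Finset.sum_eq_zero fun p _ => ?_
    rw [loc_apply, if_neg, mul_zero]
    intro h
    apply hc
    intro l hli hlj
    have := h l hlj
    rwa [Function.update_of_ne hli] at this

theorem loc_comm (i j : Fin t) (A B : Matrix (Fin k) (Fin k) F) (hij : i ≠ j) :
    (loc i A : Matrix (Idx k t) (Idx k t) F) * loc j B = loc j B * loc i A := by
  ext x y
  rw [loc_mul_loc i j hij, loc_mul_loc j i hij.symm]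
  by_cases hc : ∀ l, l ≠ i → l ≠ j → x l = y l
  · rw [if_pos hc, if_pos (fun l h1 h2 => hc l h2 h1), mul_comm]
  · rw [if_neg hc, if_neg (fun h => hc (fun l h1 h2 => h l h2 h1))]

theorem pureM_update_right (gs : Fin t → Matrix (Fin k) (Fin k) F) (j : Fin t) (x y : Idx k t)
    (p : Fin k) :
    pureM gs x (Function.update y j p)
      = gs j (x j) p * ∏ i ∈ Finset.univ.erase j, gs i (x i) (y i) := by
  rw [pureM_apply, ← Finset.mul_prod_erase Finset.univ _ (Finset.mem_univ j),
    Function.update_self]
  congr 1
  refine Finset.prod_congr rfl fun i hi => ?_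
  rw [Function.update_of_ne (Finset.ne_of_mem_erase hi)]

theorem pureM_update_left (gs : Fin t → Matrix (Fin k) (Fin k) F) (j : Fin t) (x y : Idx k t)
    (p : Fin k) :
    pureM gs (Function.update x j p) y
      = gs j p (y j) * ∏ i ∈ Finset.univ.erase j, gs i (x i) (y i) := by
  rw [pureM_apply, ← Finset.mul_prod_erase Finset.univ _ (Finset.mem_univ j),
    Function.update_self]
  congr 1
  refine Finset.prod_congr rfl fun i hi => ?_
  rw [Function.update_of_ne (Finset.ne_of_mem_erase hi)]

theorem pureM_mul_loc (gs : Fin t → Matrix (Fin k) (Fin k) F) (j : Fin t)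
    (A B : Matrix (Fin k) (Fin k) F) (h : gs j * A = B * gs j) :
    pureM gs * loc j A = loc j B * pureM gs := by
  ext x y
  rw [Matrix.mul_apply, Matrix.mul_apply, sum_loc_right, sum_loc_left]
  simp only [pureM_update_right, pureM_update_left]
  have h1 := congrFun (congrFun h (x j)) (y j)
  rw [Matrix.mul_apply, Matrix.mul_apply] at h1
  obtain ⟨P, hP⟩ : ∃ P, P = ∏ i ∈ Finset.univ.erase j, gs i (x i) (y i) := ⟨_, rfl⟩
  rw [← hP]
  calc ∑ p, gs j (x j) p * P * A p (y j) = (∑ p, gs j (x j) p * A p (y j)) * P := by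
        rw [Finset.sum_mul]; exact Finset.sum_congr rfl fun p _ => by ring
    _ = (∑ p, B (x j) p * gs j p (y j)) * P := by rw [h1]
    _ = ∑ p, B (x j) p * (gs j p (y j) * P) := by
        rw [Finset.sum_mul]; exact Finset.sum_congr rfl fun p _ => by ring

theorem permM_mul_apply (σ : Equiv.Perm (Fin t)) (M : Matrix (Idx k t) (Idx k t) F)
    (x y : Idx k t) : (permM F k t σ * M) x y = M (x ∘ σ) y := by
  rw [Matrix.mul_apply, Finset.sum_eq_single (x ∘ σ)]
  · rw [permM_apply, if_pos rfl, one_mul]
  · intro z _ hz
    rw [permM_apply, if_neg hz, zero_mul]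
  · intro h; exact absurd (Finset.mem_univ _) h

theorem mul_permM_apply (σ : Equiv.Perm (Fin t)) (M : Matrix (Idx k t) (Idx k t) F)
    (x y : Idx k t) : (M * permM F k t σ) x y = M x (y ∘ σ.symm) := by
  rw [Matrix.mul_apply, Finset.sum_eq_single (y ∘ σ.symm)]
  · rw [permM_apply, if_pos, mul_one]
    funext i; simp
  · intro z _ hz
    rw [permM_apply, if_neg, mul_zero]
    intro h
    apply hz
    rw [h]; funext i; simp
  · intro h; exact absurd (Finset.mem_univ _) h

theorem permM_mul_loc (σ : Equiv.Perm (Fin t)) (j : Fin t) (A : Matrix (Fin k) (Fin k) F) :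
    permM F k t σ * loc j A = loc (σ j) A * permM F k t σ := by
  ext x y
  rw [permM_mul_apply, mul_permM_apply, loc_apply, loc_apply]
  have hiff : (∀ i, i ≠ j → (x ∘ σ) i = y i) ↔ (∀ i, i ≠ σ j → x i = (y ∘ σ.symm) i) := by
    constructor
    · intro h i hi
      have := h (σ.symm i) (fun h' => hi (by rw [← h']; simp))
      simpa using this
    · intro h i hi
      have := h (σ i) (fun h' => hi (σ.injective h'))
      simpa using this
  refine if_congr hiff ?_ rfl
  simp

theorem pureM_mul (gs hs : Fin t → Matrix (Fin k) (Fin k) F) :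
    pureM gs * pureM hs = pureM (fun i => gs i * hs i) := by
  ext x y
  rw [Matrix.mul_apply, pureM_apply]
  simp only [Matrix.mul_apply, pureM_apply]
  rw [Finset.prod_univ_sum, Fintype.piFinset_univ]
  refine Finset.sum_congr rfl fun z _ => ?_
  rw [Finset.prod_mul_distrib]

theorem pureM_one :
    pureM (fun _ : Fin t => (1 : Matrix (Fin k) (Fin k) F)) =
      (1 : Matrix (Idx k t) (Idx k t) F) := by
  ext x y
  rw [pureM_apply, Matrix.one_apply]
  by_cases h : x = y
  · subst h
    rw [if_pos rfl]
    exact Finset.prod_eq_one fun i _ => Matrix.one_apply_eq _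
  · rw [if_neg h]
    obtain ⟨i, hi⟩ := Function.ne_iff.mp h
    exact Finset.prod_eq_zero (Finset.mem_univ i) (Matrix.one_apply_ne hi)

theorem permM_mul (σ τ : Equiv.Perm (Fin t)) :
    permM F k t σ * permM F k t τ = permM F k t (σ * τ) := by
  ext x y
  rw [permM_mul_apply, permM_apply, permM_apply]
  exact if_congr Iff.rfl rfl rfl

theorem permM_one : permM F k t 1 = 1 := by
  ext x y
  rw [permM_apply, Matrix.one_apply]
  exact if_congr ⟨fun h => h.symm, fun h => h.symm⟩ rfl rfl

theorem permM_mul_pureM (σ : Equiv.Perm (Fin t)) (gs : Fin t → Matrix (Fin k) (Fin k) F) :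
    permM F k t σ * pureM gs = pureM (fun i => gs (σ.symm i)) * permM F k t σ := by
  ext x y
  rw [permM_mul_apply, mul_permM_apply, pureM_apply, pureM_apply]
  have := Equiv.prod_comp σ (fun i => gs (σ.symm i) (x i) (y (σ.symm i)))
  simp only [Equiv.symm_apply_apply] at this
  exact this

theorem alg : StAlg.{u} := by
  intro F _ k t
  exact ⟨loc_one, loc_mul, loc_add, loc_smul, loc_comm, pureM_mul_loc, permM_mul_loc, pureM_mul,
    pureM_one, permM_mul, permM_one, permM_mul_pureM⟩

example : Cfsg.Agent.Lib.Helper96.TW.StAlg.{u} := alg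

end Cfsg.Agent.H15.TW
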