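import Cfsg.Agent.H15.TWAlg

set_option autoImplicit false

/-!
# S5707 (helper96), piece G2NOT

The double transposition `piG a₁ l` of the standard basis does not normalize the span `Lsp` of the
local Clifford operators.
-/

namespace Cfsg.Agent.H15.TW

open Cfsg.Agent.Lib.Helper96.TW
open scoped MatrixGroups

universe u

theorem sh_ne {k : ℕ} (hk : k = 2 ∨ k = 4) (p : Fin k) : sh p ≠ p := by
  rcases hk with rfl | rfl <;> revert p <;> decide

theorem rev_ne {k : ℕ} (hk : k = 2 ∨ k = 4) (p : Fin k) : p.rev ≠ p := by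
  rcases hk with rfl | rfl <;> revert p <;> decide

theorem sh_rev_ne {k : ℕ} (hk : k = 4) (p : Fin k) : sh p.rev ≠ p := by
  subst hk; revert p; decide

theorem Nm_zero_sh {F : Type u} [Field F] {k : ℕ} (hk : k = 2 ∨ k = 4) (p : Fin k)
    (hp : p.val = 0) : Nm F k p (sh p) = 1 := by
  unfold Nm
  rw [if_pos]
  rcases hk with rfl | rfl
  · revert p; decide
  · revert p; decide

theorem Nm_rev {F : Type u} [Field F] {k : ℕ} (hk : k = 2 ∨ k = 4) (p : Fin k)
    (hp : p.val = 0) : Nm F k p.rev (sh p).rev = 0 := by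
  unfold Nm
  rw [if_neg]
  rcases hk with rfl | rfl
  · revert p; decide
  · revert p; decide

theorem exists_third {t : ℕ} (ht : 3 ≤ t) (l m : Fin t) : ∃ i : Fin t, i ≠ l ∧ i ≠ m := by
  by_contra hcon
  push Not at hcon
  have e0 := hcon ⟨0, by omega⟩
  have e1 := hcon ⟨1, by omega⟩
  have e2 := hcon ⟨2, by omega⟩
  simp only [ne_eq, Fin.ext_iff] at e0 e1 e2
  omega

theorem g2Not : StG2Not.{u} := by
  intro hCliff F _ k t h2 hc a₁ l ha₁ g hg hmem
  have hk : k = 2 ∨ k = 4 := by
    rcases hc with ⟨h, _⟩ | ⟨h, _⟩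
    · exact Or.inl h
    · exact Or.inr h
  have ht : 2 ≤ t := by
    rcases hc with ⟨_, h⟩ | ⟨_, h⟩ <;> omega
  obtain ⟨m, hml⟩ : ∃ m : Fin t, m ≠ l := by
    by_cases h0 : l.val = 0
    · exact ⟨⟨1, by omega⟩, fun h => by rw [← h] at h0; simp at h0⟩
    · exact ⟨⟨0, by omega⟩, fun h => by rw [← h] at h0; simp at h0⟩
  obtain ⟨_, _, _, _, _, hNC, _, _, _, _⟩ := hCliff F k h2 hk
  let a₂ : Idx k t := revI a₁
  let a₃ : Idx k t := shI l a₁
  let a₄ : Idx k t := revI a₃
  have h3l : a₃ l = sh (a₁ l) := by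
    show Function.update a₁ l (sh (a₁ l)) l = _
    rw [Function.update_self]
  have h3o : ∀ i, i ≠ l → a₃ i = a₁ i := fun i hi => by
    show Function.update a₁ l (sh (a₁ l)) i = _
    rw [Function.update_of_ne hi]
  have h2r : ∀ i, a₂ i = (a₁ i).rev := fun i => rfl
  have h4r : ∀ i, a₄ i = (a₃ i).rev := fun i => rfl
  let d : Idx k t := Function.update a₂ m (sh (a₂ m))
  let d' : Idx k t := Function.update a₄ m (sh (a₄ m))
  have hdm : d m = sh (a₂ m) := Function.update_self _ _ _
  have hdo : ∀ i, i ≠ m → d i = a₂ i := fun i hi => Function.update_of_ne hi _ _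
  have hd'm : d' m = sh (a₄ m) := Function.update_self _ _ _
  have hd'o : ∀ i, i ≠ m → d' i = a₄ i := fun i hi => Function.update_of_ne hi _ _
  have h24o : ∀ i, i ≠ l → a₂ i = a₄ i := fun i hi => by rw [h2r, h4r, h3o i hi]
  have h24l : a₂ l ≠ a₄ l := by
    intro h
    rw [h2r, h4r, h3l] at h
    exact sh_ne hk _ (Fin.rev_injective h).symm
  have hdl : d l = a₂ l := hdo l hml.symm
  have hd'l : d' l = a₄ l := hd'o l hml.symm
  have hdd'o : ∀ i, i ≠ l → d i = d' i := by
    intro i hi
    by_cases him : i = m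
    · rw [him, hdm, hd'm, h24o m hml]
    · rw [hdo i him, hd'o i him, h24o i hi]
  -- distinctness
  have h13 : a₁ ≠ a₃ := by
    intro h
    have := congrFun h l
    rw [h3l] at this
    exact sh_ne hk _ this.symm
  have h14 : a₁ ≠ a₄ := by
    intro h
    have := congrFun h m
    rw [h4r, h3o m hml] at this
    exact rev_ne hk _ this.symm
  have h42 : a₄ ≠ a₂ := fun h => h24l (congrFun h l).symm
  have hd1 : d ≠ a₁ := by
    intro h
    have := congrFun h l
    rw [hdl, h2r] at this
    exact rev_ne hk _ this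
  have hd2 : d ≠ a₂ := by
    intro h
    have := congrFun h m
    rw [hdm] at this
    exact sh_ne hk _ this
  have hd4 : d ≠ a₄ := by
    intro h
    have := congrFun h l
    rw [hdl] at this
    exact h24l this
  have hd'4 : d' ≠ a₄ := by
    intro h
    have := congrFun h m
    rw [hd'm] at this
    exact sh_ne hk _ this
  have hd'2 : d' ≠ a₂ := by
    intro h
    have := congrFun h l
    rw [hd'l] at this
    exact h24l this.symm
  have hd'3 : d' ≠ a₃ := by
    intro h
    have := congrFun h l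
    rw [hd'l, h4r] at this
    exact rev_ne hk _ this
  have hd3 : d ≠ a₃ := by
    rcases hc with ⟨hk2, ht4⟩ | ⟨hk4, _⟩
    · obtain ⟨i, hil, him⟩ := exists_third (by omega) l m
      intro h
      have := congrFun h i
      rw [hdo i him, h2r, h3o i hil] at this
      exact rev_ne hk _ this
    · intro h
      have := congrFun h m
      rw [hdm, h2r, h3o m hml] at this
      exact sh_rev_ne hk4 _ this
  have hd'1 : d' ≠ a₁ := by
    rcases hc with ⟨hk2, ht4⟩ | ⟨hk4, _⟩
    · obtain ⟨i, hil, him⟩ := exists_third (by omega) l m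
      intro h
      have := congrFun h i
      rw [hd'o i him, h4r, h3o i hil] at this
      exact rev_ne hk _ this
    · intro h
      have := congrFun h m
      rw [hd'm, h4r, h3o m hml] at this
      exact sh_rev_ne hk4 _ this
  -- the permutation
  obtain ⟨π, hπdef⟩ : ∃ π : Equiv.Perm (Idx k t), π = Equiv.swap a₁ a₂ * Equiv.swap a₃ a₄ :=
    ⟨_, rfl⟩
  have hg' : ∀ a : Idx k t, (g : Matrix (Idx k t) (Idx k t) F).mulVec (Pi.single a 1)
      = Pi.single (π a) 1 := by
    intro a
    rw [hπdef]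
    exact hg a
  have hπ1 : π a₁ = a₂ := by
    rw [hπdef, Equiv.Perm.mul_apply, Equiv.swap_apply_of_ne_of_ne h13 h14, Equiv.swap_apply_left]
  have hπ3 : π a₃ = a₄ := by
    rw [hπdef, Equiv.Perm.mul_apply, Equiv.swap_apply_left,
      Equiv.swap_apply_of_ne_of_ne h14.symm h42]
  have hπd : π d = d := by
    rw [hπdef, Equiv.Perm.mul_apply, Equiv.swap_apply_of_ne_of_ne hd3 hd4,
      Equiv.swap_apply_of_ne_of_ne hd1 hd2]
  have hπd' : π d' = d' := by
    rw [hπdef, Equiv.Perm.mul_apply, Equiv.swap_apply_of_ne_of_ne hd'3 hd'4,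
      Equiv.swap_apply_of_ne_of_ne hd'1 hd'2]
  have hgx : ∀ x a : Idx k t, (g : Matrix (Idx k t) (Idx k t) F) x a
      = if x = π a then 1 else 0 := by
    intro x a
    have := congrFun (hg' a) x
    rw [Matrix.mulVec_single_one, Pi.single_apply] at this
    exact this
  obtain ⟨M, hMdef⟩ : ∃ M : Matrix (Idx k t) (Idx k t) F, M = loc l (Nm F k) := ⟨_, rfl⟩
  have hM : M ∈ Lsp F k t := by
    rw [hMdef]
    exact Submodule.subset_span ⟨l, Nm F k, hNC, rfl⟩
  obtain ⟨N, hNdef⟩ : ∃ N : Matrix (Idx k t) (Idx k t) F,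
      N = (g : Matrix (Idx k t) (Idx k t) F) * M *
        ((g⁻¹ : GL (Idx k t) F) : Matrix (Idx k t) (Idx k t) F) := ⟨_, rfl⟩
  have hNmem : N ∈ Lsp F k t := by
    rw [hNdef]
    exact (hmem M).mp hM
  have hNg : N * (g : Matrix (Idx k t) (Idx k t) F) = (g : Matrix (Idx k t) (Idx k t) F) * M := by
    rw [hNdef, Matrix.mul_assoc, ← Units.val_mul, inv_mul_cancel, Units.val_one, Matrix.mul_one]
  have hN : ∀ u v : Idx k t, N (π u) (π v) = M u v := by
    intro u v
    have h1 := congrFun (congrFun hNg (π u)) v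
    rw [Matrix.mul_apply, Matrix.mul_apply, Finset.sum_eq_single (π v),
      Finset.sum_eq_single u] at h1
    · rw [hgx, hgx, if_pos rfl, if_pos rfl, mul_one, one_mul] at h1
      exact h1
    · intro z _ hz
      rw [hgx, if_neg (fun h => hz (π.injective h).symm), zero_mul]
    · intro h; exact absurd (Finset.mem_univ _) h
    · intro z _ hz
      rw [hgx, if_neg hz, mul_zero]
    · intro h; exact absurd (Finset.mem_univ _) h
  have hinv : ∀ L ∈ Lsp F k t, L a₂ a₄ = L d d' := by
    intro L hL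
    refine Submodule.span_induction (p := fun L _ => L a₂ a₄ = L d d') ?_ ?_ ?_ ?_ hL
    · rintro _ ⟨j, A, _, rfl⟩
      by_cases hjl : j = l
      · subst hjl
        rw [loc_apply, loc_apply, if_pos h24o, if_pos hdd'o, hdl, hd'l]
      · rw [loc_eq_zero j A a₂ a₄ ⟨l, fun h => hjl h.symm, h24l⟩,
          loc_eq_zero j A d d' ⟨l, fun h => hjl h.symm, by rw [hdl, hd'l]; exact h24l⟩]
    · rfl
    · intro X Y _ _ hX hY
      rw [Matrix.add_apply, Matrix.add_apply, hX, hY]
    · intro s X _ hX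
      rw [Matrix.smul_apply, Matrix.smul_apply, hX]
  have e := hinv N hNmem
  have e1 : N a₂ a₄ = 1 := by
    rw [← hπ1, ← hπ3, hN, hMdef, loc_apply, if_pos (fun i hi => (h3o i hi).symm), h3l]
    exact Nm_zero_sh hk _ ha₁
  have e2 : N d d' = 0 := by
    have h := hN d d'
    rw [hπd, hπd'] at h
    rw [h, hMdef, loc_apply, if_pos hdd'o, hdl, hd'l, h2r, h4r, h3l]
    exact Nm_rev hk _ ha₁
  rw [e1, e2] at e
  exact one_ne_zero e

example : Cfsg.Agent.Lib.Helper96.TW.StG2Not.{u} := g2Not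

end Cfsg.Agent.H15.TW
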