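import Mathlib
import Cfsg.Agent.H58.UqDefs
import Cfsg.Agent.S2942
import Cfsg.Agent.H12.SpConjG
import Cfsg.Agent.H74.TsW4Adapt
import Cfsg.Agent.H51.Local

/-!
# UQ-END (helper15, for helper58's S2950 project UQ): uniqueness of the maximal 2-local

`R := (L ⊓ N(J)) ⊔ (L' ⊓ N(J))`, `U := ⨆_{ρ ∈ R} W_K^ρ`.  `U` is a nontrivial 2-group
(`W_K^ρ = W_{K^ρ} ≤ O₂(K^ρ) ≤ O₂(L)` by S2942 and O2SN), normalized by `R` and (piece S) by all
conjugates of `J` in `L` and in `L'`; the Frattini piece gives `L, L' ≤ N(U)`, a 2-local, so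
`L = N(U) = L'` by maximality.
-/

set_option autoImplicit false
open Cfsg

namespace Cfsg.Agent.H15.Uq

open Cfsg.Agent.H58.Uq

universe u

/-- conjugation by a product -/
theorem map_conj_mul15 {G : Type u} [Group G] (W : Subgroup G) (a b : G) :
    (W.map (MulAut.conj b).toMonoidHom).map (MulAut.conj a).toMonoidHom =
      W.map (MulAut.conj (a * b)).toMonoidHom := by
  rw [Subgroup.map_map]
  congr 1
  ext x
  simp [MulAut.conj_apply, mul_assoc]

/-- conjugation by 1 -/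
theorem map_conj_one15 {G : Type u} [Group G] (W : Subgroup G) :
    W.map (MulAut.conj (1 : G)).toMonoidHom = W := by
  ext x
  constructor
  · rintro ⟨y, hy, rfl⟩
    simpa using hy
  · intro hx
    exact ⟨x, hx, by simp⟩

/-- an element conjugating a finite subgroup into itself normalizes it -/
theorem mem_normalizer_of_conj_mem15 {G : Type u} [Group G] (U : Subgroup G) [Finite U] (g : G)
    (hfwd : ∀ h ∈ U, g * h * g⁻¹ ∈ U) : g ∈ Subgroup.normalizer (U : Set G) := by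
  rw [Subgroup.mem_normalizer_iff]
  intro h
  constructor
  · exact hfwd h
  · intro hh
    have hinj : Function.Injective
        (fun y : U => (⟨g * y.1 * g⁻¹, hfwd y.1 y.2⟩ : U)) := by
      intro y1 y2 h12
      have h0 : g * y1.1 * g⁻¹ = g * y2.1 * g⁻¹ := congrArg Subtype.val h12
      exact Subtype.ext (mul_left_cancel (mul_right_cancel h0))
    have hsurj := Finite.surjective_of_injective hinj
    obtain ⟨y, hy⟩ := hsurj ⟨g * h * g⁻¹, hh⟩
    have h0 : g * y.1 * g⁻¹ = g * h * g⁻¹ := congrArg Subtype.val hy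
    have h1 : y.1 = h := mul_left_cancel (mul_right_cancel h0)
    rw [← h1]
    exact y.2

/-- an element normalizing every member of a family normalizes its join -/
theorem normalizer_iSup15 {G : Type u} [Group G] [Finite G] {ι : Type u} (W : ι → Subgroup G)
    (g : G) (h : ∀ i, g ∈ Subgroup.normalizer ((W i : Subgroup G) : Set G)) :
    g ∈ Subgroup.normalizer ((⨆ i, W i : Subgroup G) : Set G) := by
  apply mem_normalizer_of_conj_mem15
  intro x hx
  have h1 : (⨆ i, W i).map (MulAut.conj g).toMonoidHom ≤ ⨆ i, W i := by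
    rw [Subgroup.map_iSup]
    refine iSup_le (fun i => le_trans ?_ (le_iSup W i))
    rintro y ⟨w, hw, rfl⟩
    exact (Subgroup.mem_normalizer_iff.mp (h i) w).mp hw
  exact h1 (Subgroup.mem_map_of_mem (MulAut.conj g).toMonoidHom hx)

/-- **UQ-END**. -/
theorem endp (hOrb : StOrb.{u}) (hS : StS.{u}) (hF : StFrat.{u}) (hO : StO2SN.{u}) :
    StEnd.{u} := by
  intro G _ _ hZN T hT hT1 L L' T₁ T₂ hLmax hL'max hLT hL'T hJ1 hJ2 K hK hKL hKL'
  classical
  obtain ⟨hchar, hsolv, hZ⟩ := id hZN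
  -- the group `R` and the subgroup `U`
  obtain ⟨R, hRdef⟩ : ∃ R : Subgroup G,
      R = (L ⊓ Subgroup.normalizer (thompsonSubgroupOf 2 T : Set G)) ⊔
        (L' ⊓ Subgroup.normalizer (thompsonSubgroupOf 2 T : Set G)) := ⟨_, rfl⟩
  have horb : ∀ ρ ∈ R, K.map (MulAut.conj ρ).toMonoidHom ∈ jComponentsZero T ∧
      K.map (MulAut.conj ρ).toMonoidHom ≤ L ∧ K.map (MulAut.conj ρ).toMonoidHom ≤ L' := by
    intro ρ hρ
    rw [hRdef] at hρ
    exact hOrb hZN T hT hT1 L L' T₁ T₂ hLmax hL'max hLT hL'T hJ1 hJ2 K hK hKL hKL' ρ hρ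
  obtain ⟨U, hUdef⟩ : ∃ U : Subgroup G,
      U = ⨆ ρ : R, (wOf K).map (MulAut.conj (ρ : G)).toMonoidHom := ⟨_, rfl⟩
  have hWU : ∀ ρ : R, (wOf K).map (MulAut.conj (ρ : G)).toMonoidHom ≤ U := by
    intro ρ
    rw [hUdef]
    exact le_iSup (fun ρ : R => (wOf K).map (MulAut.conj (ρ : G)).toMonoidHom) ρ
  -- `U ≠ ⊥`
  have hUne : U ≠ ⊥ := by
    intro hU
    have h1 : wOf K ≤ U := by
      have h0 := hWU ⟨1, R.one_mem⟩
      rw [map_conj_one15] at h0
      exact h0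
    rw [hU, le_bot_iff] at h1
    have h4 : Nat.card ↥(wOf K) = 4 := hK.1.2.2.2.2.1
    rw [h1, Subgroup.card_bot] at h4
    omega
  -- the Sylow subgroups
  have hT₁p : IsPGroup 2 ↥T₁ := hLT.1.2.1
  have hT₂p : IsPGroup 2 ↥T₂ := hL'T.1.2.1
  have hT₁ne : T₁ ≠ ⊥ := by
    intro h
    apply hLT.2.1
    have h1 : thompsonSubgroupOf 2 T₁ ≤ T₁ := Subgroup.map_subtype_le _
    exact le_trans h1 (le_trans h.le bot_le)
  have hT₂ne : T₂ ≠ ⊥ := by
    intro h
    apply hL'T.2.1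
    have h1 : thompsonSubgroupOf 2 T₂ ≤ T₂ := Subgroup.map_subtype_le _
    exact le_trans h1 (le_trans h.le bot_le)
  -- `U` is a 2-group
  have hUL : U ≤ pCoreOf 2 L := by
    rw [hUdef]
    refine iSup_le (fun ρ => ?_)
    obtain ⟨hk0, hkL, _⟩ := horb ρ ρ.2
    have hJc : IsJComponent T₁ (K.map (MulAut.conj (ρ : G)).toMonoidHom) :=
      ((k0_congr T T₁ hJ1).2 _).mpr hk0.1
    have hsn := Cfsg.Agent.S2942.result hchar hsolv hZ T₁ hT₁p hT₁ne L hLT _ hJc hkL
    have h1 := hO _ L hkL hsn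
    have h2 := Cfsg.Agent.H74.Ts.wOf_le_pCoreOf (K.map (MulAut.conj (ρ : G)).toMonoidHom)
    rw [Cfsg.Agent.H12.Sp.wOf_conj_map] at h2
    exact le_trans h2 h1
  have hU2 : IsPGroup 2 ↥U := (Cfsg.Agent.H51.pCoreOf_isPGroup 2 L).to_le hUL
  -- `R` normalizes `U`
  have hRU : R ≤ Subgroup.normalizer (U : Set G) := by
    intro r hr
    apply mem_normalizer_of_conj_mem15
    intro x hx
    have h1 : U.map (MulAut.conj r).toMonoidHom ≤ U := by
      rw [hUdef, Subgroup.map_iSup]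
      refine iSup_le (fun ρ => ?_)
      rw [map_conj_mul15]
      have h0 := hWU ⟨r * ρ, R.mul_mem hr ρ.2⟩
      rw [hUdef] at h0
      exact h0
    exact h1 (Subgroup.mem_map_of_mem (MulAut.conj r).toMonoidHom hx)
  -- conjugates of `J` normalize `U`
  have hconj : ∀ (T' L₀ : Subgroup G), L₀ ∈ jOvergroups T' → IsPGroup 2 ↥T' → T' ≠ ⊥ →
      thompsonSubgroupOf 2 T' = thompsonSubgroupOf 2 T →
      (∀ ρ ∈ R, K.map (MulAut.conj ρ).toMonoidHom ≤ L₀) →
      ∀ l ∈ L₀, (thompsonSubgroupOf 2 T').map (MulAut.conj l).toMonoidHom ≤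
        Subgroup.normalizer (U : Set G) := by
    intro T' L₀ hL₀ hT'p hT'ne hJ' hle l hl j hj
    rw [hUdef]
    apply normalizer_iSup15
    intro ρ
    obtain ⟨hk0, _, _⟩ := horb ρ ρ.2
    have hJc : IsJComponent T' (K.map (MulAut.conj (ρ : G)).toMonoidHom) :=
      ((k0_congr T T' hJ').2 _).mpr hk0.1
    have hk1 : K.map (MulAut.conj (ρ : G)).toMonoidHom ∈
        jComponentsZero (T'.map (MulAut.conj (1 : G)).toMonoidHom) := by
      rw [map_conj_one15, (k0_congr T T' hJ').1]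
      exact hk0
    have h1 := hS hZN T' hT'p hT'ne L₀ hL₀ _ hJc (hle ρ ρ.2) ⟨1, hk1⟩ l hl hj
    rw [Cfsg.Agent.H12.Sp.wOf_conj_map] at h1
    exact h1
  -- Frattini
  have hLU : L ≤ Subgroup.normalizer (U : Set G) := by
    refine hF T₁ L U hLT.1 (hconj T₁ L hLT hT₁p hT₁ne hJ1 (fun ρ hρ => (horb ρ hρ).2.1)) ?_
    rw [hJ1]
    refine le_trans ?_ hRU
    rw [hRdef]
    exact le_sup_left
  have hL'U : L' ≤ Subgroup.normalizer (U : Set G) := by
    refine hF T₂ L' U hL'T.1 (hconj T₂ L' hL'T hT₂p hT₂ne hJ2 (fun ρ hρ => (horb ρ hρ).2.2)) ?_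
    rw [hJ2]
    refine le_trans ?_ hRU
    rw [hRdef]
    exact le_sup_right
  have h2loc : IsTwoLocal (Subgroup.normalizer (U : Set G)) := ⟨U, hU2, hUne, rfl⟩
  have e1 := hLmax.2 _ h2loc hLU
  have e2 := hL'max.2 _ h2loc hL'U
  rw [← e2, e1]

example (hOrb : StOrb.{u}) (hS : StS.{u}) (hF : StFrat.{u}) (hO : StO2SN.{u}) : StEnd.{u} :=
  endp hOrb hS hF hO

end Cfsg.Agent.H15.Uq

#print axioms Cfsg.Agent.H15.Uq.endp
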